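import Mathlib
import Cfsg.Prelude.Def_Characters
import Cfsg.Agent.H14.GL2Class

set_option autoImplicit false

/-! Counting the irreducible characters of `GL₂(q)`. -/

namespace Cfsg.Agent.H14

open Matrix Finset Cfsg Cfsg.Agent.CharLib Cfsg.Agent.CharLib.H2
open scoped ComplexConjugate

theorem card_conjClasses_of_invariant {G X : Type*} [Group G] (φ : G → X)
    (h1 : ∀ g h, φ g = φ h ↔ IsConj g h) (h2 : Function.Surjective φ) :
    Nat.card (ConjClasses G) = Nat.card X := by
  let Φ : ConjClasses G → X := Quotient.lift φ (fun a b hab => (h1 a b).mpr hab)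
  refine Nat.card_congr (Equiv.ofBijective Φ ⟨?_, ?_⟩)
  · intro a b
    induction a using Quotient.inductionOn with
    | _ a =>
      induction b using Quotient.inductionOn with
      | _ b =>
        intro h
        exact Quotient.sound ((h1 a b).mp h)
  · intro x
    obtain ⟨g, rfl⟩ := h2 x
    exact ⟨Quotient.mk _ g, rfl⟩

theorem sum_irr_inner {G : Type*} [Group G] [Fintype G] {ψ : G → ℂ} (hψ : IsIrrCharacter G ψ)
    (f : (G → ℂ) → ℂ) : ∑ χ : IrrCharacter G, classInner ψ χ * f χ = f ψ := by
  classical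
  rw [Finset.sum_eq_single (⟨ψ, hψ⟩ : IrrCharacter G)]
  · rw [classInner_irr_self hψ, one_mul]
  · intro b _ hb
    rw [classInner_irr_ne hψ b.2 (fun e => hb (Subtype.ext e.symm)), zero_mul]
  · intro h; exact absurd (Finset.mem_univ _) h

variable {F : Type*} [Field F]

local notation "GL2" => Matrix.GeneralLinearGroup (Fin 2) F
local notation "M2" => Matrix (Fin 2) (Fin 2) F

open Classical in
/-- complete class invariant -/
noncomputable def gclassInv (g : GL2) : Fˣ ⊕ (F × Fˣ) :=
  if h : IsScal (g : M2) then Sum.inl (Units.mk0 _ (gborel_diag g h.2.1).1)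
  else Sum.inr ((g : M2).trace, Units.mk0 _ (Matrix.isUnits_det_units g).ne_zero)

theorem gclassInv_eq_iff (g h : GL2) : gclassInv g = gclassInv h ↔ IsConj g h := by
  constructor
  · intro e
    by_cases hg : IsScal (g : M2) <;> by_cases hh : IsScal (h : M2)
    · rw [gclassInv, gclassInv, dif_pos hg, dif_pos hh] at e
      have e1 : (g : M2) 0 0 = (h : M2) 0 0 := by
        have := congrArg Units.val (Sum.inl.inj e)
        simpa using this
      have : g = h := by
        apply Units.ext
        rw [hg.eq_smul, hh.eq_smul, e1]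
      rw [this]
    · rw [gclassInv, gclassInv, dif_pos hg, dif_neg hh] at e
      exact absurd e (by simp)
    · rw [gclassInv, gclassInv, dif_neg hg, dif_pos hh] at e
      exact absurd e (by simp)
    · rw [gclassInv, gclassInv, dif_neg hg, dif_neg hh] at e
      have e1 := Sum.inr.inj e
      have e2 := congrArg Prod.fst e1
      have e3 := congrArg Units.val (congrArg Prod.snd e1)
      exact gl2_isConj_of_trace_det hg hh e2 (by simpa using e3)
  · intro hc
    by_cases hg : IsScal (g : M2)
    · rw [gl2_eq_of_isConj_of_isScal hc hg]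
    · have hh : ¬ IsScal (h : M2) := by
        intro hh
        rw [gl2_eq_of_isConj_of_isScal hc.symm hh] at hg
        exact hg hh
      rw [gclassInv, gclassInv, dif_neg hg, dif_neg hh]
      congr 1
      refine Prod.ext (gl_trace_eq_of_isConj hc) (Units.ext ?_)
      simpa using gl_det_eq_of_isConj hc

theorem gclassInv_surjective : Function.Surjective (gclassInv : GL2 → Fˣ ⊕ (F × Fˣ)) := by
  rintro (a | ⟨t, d⟩)
  · refine ⟨gb a a 0, ?_⟩
    rw [gclassInv, dif_pos (by simp [IsScal])]
    congr 1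
    apply Units.ext
    simp
  · refine ⟨glC t d, ?_⟩
    rw [gclassInv, dif_neg (by simp [IsScal])]
    congr 1
    refine Prod.ext (by simp [Matrix.trace_fin_two]) (Units.ext (by simp [Matrix.det_fin_two]))

variable [Fintype F] [DecidableEq F]

local notation "q" => Fintype.card F

omit [DecidableEq F] in
theorem card_conjClasses_gl2 : Nat.card (ConjClasses GL2) = q ^ 2 - 1 := by
  classical
  rw [card_conjClasses_of_invariant gclassInv gclassInv_eq_iff gclassInv_surjective,
    Nat.card_sum, Nat.card_prod, Nat.card_eq_fintype_card, Nat.card_eq_fintype_card, Fintype.card_units]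
  have hq : 1 < q := Fintype.one_lt_card
  obtain ⟨k, hk⟩ : ∃ k, q = k + 1 := ⟨q - 1, by omega⟩
  rw [hk]
  have : (k + 1) ^ 2 = k + (k + 1) * k + 1 := by ring
  simp only [Nat.add_sub_cancel]
  omega

section count

variable [Fintype (MulChar F ℂ)] [DecidableEq (MulChar F ℂ)]

omit [DecidableEq F] [DecidableEq (MulChar F ℂ)] in
theorem card_mulChar : Fintype.card (MulChar F ℂ) = q - 1 := by
  classical
  rw [← Nat.card_eq_fintype_card, MulChar.card_eq_card_units_of_hasEnoughRootsOfUnity,
    Nat.card_eq_fintype_card, Fintype.card_units]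

/-- total weight of a character in the principal series -/
noncomputable def gweight (χ : GL2 → ℂ) : ℂ :=
  ∑ α : MulChar F ℂ, ∑ β : MulChar F ℂ, (if α = β then 1 else 1 / 2) * classInner (GR α β) χ

omit [DecidableEq F] in
theorem sum_sum_ite_pair (c : MulChar F ℂ → MulChar F ℂ → ℂ) (γ δ : MulChar F ℂ) :
    ∑ α : MulChar F ℂ, ∑ β : MulChar F ℂ, c α β * (if α = γ ∧ β = δ then 1 else 0) = c γ δ := by
  rw [Finset.sum_eq_single γ, Finset.sum_eq_single δ]
  · simp
  · intro b _ hb
    rw [if_neg (fun e => hb e.2), mul_zero]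
  · intro h; exact absurd (Finset.mem_univ _) h
  · intro b _ hb
    apply Finset.sum_eq_zero
    intro x _
    rw [if_neg (fun e => hb e.1), mul_zero]
  · intro h; exact absurd (Finset.mem_univ _) h

theorem gweight_gdet (γ : MulChar F ℂ) : gweight (gdet γ) = 1 := by
  rw [gweight]
  simp_rw [inner_GR_gdet]
  rw [sum_sum_ite_pair (fun α β => if α = β then 1 else 1 / 2)]
  simp

theorem gweight_GSt (γ : MulChar F ℂ) : gweight (GSt γ) = 1 := by
  rw [gweight]
  simp_rw [inner_GR_GSt]
  rw [sum_sum_ite_pair (fun α β => if α = β then 1 else 1 / 2)]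
  simp

theorem gweight_GR {γ δ : MulChar F ℂ} (h : γ ≠ δ) : gweight (GR γ δ) = 1 := by
  rw [gweight]
  simp_rw [inner_GR_GR, mul_add, Finset.sum_add_distrib]
  rw [sum_sum_ite_pair (fun α β => if α = β then 1 else 1 / 2),
    sum_sum_ite_pair (fun α β => if α = β then 1 else 1 / 2)]
  simp only [if_neg h, if_neg h.symm]
  norm_num

theorem gweight_cusp {χ : GL2 → ℂ} (h : GCusp χ) : gweight χ = 0 := by
  rw [gweight]
  simp [h _ _]

theorem gweight_eq {χ : GL2 → ℂ} (hχ : IsIrrCharacter GL2 χ) [Decidable (GCusp χ)] :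
    gweight χ = if GCusp χ then 0 else 1 := by
  split_ifs with h
  · exact gweight_cusp h
  · rcases gl2_cases hχ with ⟨α, rfl⟩ | ⟨α, rfl⟩ | ⟨α, β, hab, rfl⟩ | h'
    · exact gweight_gdet α
    · exact gweight_GSt α
    · exact gweight_GR hab
    · exact absurd h' h

theorem sum_irr_gl2 (f : (GL2 → ℂ) → ℂ) [DecidablePred (GCusp (F := F))] :
    ∑ χ : IrrCharacter GL2, f χ = ∑ χ : IrrCharacter GL2, (if GCusp χ.1 then f χ else 0)
      + ∑ α : MulChar F ℂ, (f (gdet α) + f (GSt α))
      + (1 / 2) * ∑ α : MulChar F ℂ, ∑ β : MulChar F ℂ, if α = β then 0 else f (GR α β) := by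
  have h1 : ∀ χ : IrrCharacter GL2, f χ = (if GCusp χ.1 then f χ else 0) + gweight χ.1 * f χ := by
    intro χ
    rw [gweight_eq χ.2]
    split_ifs <;> simp
  have h2 : ∑ χ : IrrCharacter GL2, gweight χ.1 * f χ =
      ∑ α : MulChar F ℂ, ∑ β : MulChar F ℂ, (if α = β then 1 else 1 / 2) *
        ∑ χ : IrrCharacter GL2, classInner (GR α β) χ * f χ := by
    simp_rw [gweight, Finset.sum_mul, Finset.mul_sum]
    rw [Finset.sum_comm]
    refine Finset.sum_congr rfl fun α _ => ?_
    rw [Finset.sum_comm]
    refine Finset.sum_congr rfl fun β _ => Finset.sum_congr rfl fun χ _ => ?_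
    ring
  have h3 : ∀ α β : MulChar F ℂ, (if α = β then 1 else 1 / 2) *
        ∑ χ : IrrCharacter GL2, classInner (GR α β) χ * f χ =
      (f (gdet α) + f (GSt α)) * (if α = α ∧ β = α then 1 else 0) + (1 / 2) * (if α = β then 0 else f (GR α β)) := by
    intro α β
    by_cases hab : α = β
    · subst hab
      rw [if_pos rfl, if_pos ⟨rfl, rfl⟩, if_pos rfl, GR_self]
      simp_rw [classInner_add_left, add_mul, Finset.sum_add_distrib]
      rw [sum_irr_inner (isIrr_gdet α), sum_irr_inner (isIrr_GSt α)]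
      ring
    · rw [if_neg hab, if_neg (fun e => hab e.2.symm), if_neg hab, sum_irr_inner (isIrr_GR hab)]
      ring
  rw [Finset.sum_congr rfl (fun χ _ => h1 χ), Finset.sum_add_distrib, h2, add_assoc]
  congr 1
  simp_rw [h3, Finset.sum_add_distrib, ← Finset.mul_sum]
  congr 1
  rw [← Finset.sum_add_distrib]
  refine Finset.sum_congr rfl fun α _ => ?_
  simp

theorem sum_irr_gl2_deg (g : ℂ → ℂ) [DecidablePred (GCusp (F := F))] :
    ∑ χ : IrrCharacter GL2, g (χ.1 1) = ∑ χ : IrrCharacter GL2, (if GCusp χ.1 then g (χ.1 1) else 0)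
      + ((q : ℂ) - 1) * (g 1 + g q) + (1 / 2) * (((q : ℂ) - 1) * ((q : ℂ) - 2)) * g ((q : ℂ) + 1) := by
  rw [sum_irr_gl2 (fun χ => g (χ 1))]
  simp only [gdet_one, GSt_one, GR_one]
  congr 1
  · congr 1
    rw [Finset.sum_const, Finset.card_univ, card_mulChar, nsmul_eq_mul, cast_q_sub_one]
  · rw [mul_assoc ((1 : ℂ) / 2)]
    congr 1
    have : ∀ α : MulChar F ℂ, (∑ β : MulChar F ℂ, if α = β then 0 else g ((q : ℂ) + 1)) =
        ((q : ℂ) - 2) * g ((q : ℂ) + 1) := by
      intro α
      have e : ∀ β : MulChar F ℂ, (if α = β then 0 else g ((q : ℂ) + 1)) =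
          g ((q : ℂ) + 1) - (if α = β then g ((q : ℂ) + 1) else 0) := by
        intro β; split_ifs <;> simp
      simp_rw [e]
      rw [Finset.sum_sub_distrib, Finset.sum_const, Finset.card_univ, card_mulChar, nsmul_eq_mul,
        cast_q_sub_one, Finset.sum_ite_eq]
      simp
      ring
    simp_rw [this]
    rw [Finset.sum_const, Finset.card_univ, card_mulChar, nsmul_eq_mul, cast_q_sub_one]
    ring

end count

end Cfsg.Agent.H14
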