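import Mathlib
import Cfsg.Prelude.Def_Characters
import Cfsg.Agent.H14.GL2Count

set_option autoImplicit false

/-! Degrees of the irreducible characters of `GL₂(q)` and their multiplicities. -/

namespace Cfsg.Agent.H14

open Matrix Finset Cfsg Cfsg.Agent.CharLib Cfsg.Agent.CharLib.H2
open scoped ComplexConjugate

variable {F : Type*} [Field F] [Fintype F] [DecidableEq F]

local notation "GL2" => Matrix.GeneralLinearGroup (Fin 2) F
local notation "M2" => Matrix (Fin 2) (Fin 2) F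
local notation "q" => Fintype.card F

omit [DecidableEq F] in
theorem cast_card_gl2 : ((Nat.card GL2 : ℕ) : ℂ) = (q : ℂ) * ((q : ℂ) - 1) ^ 2 * ((q : ℂ) + 1) := by
  classical
  rw [card_gl2]
  push_cast
  rw [cast_q_sub_one]

omit [DecidableEq F] in
theorem cast_card_irr_gl2 : ((Fintype.card (IrrCharacter GL2) : ℕ) : ℂ) = (q : ℂ) ^ 2 - 1 := by
  rw [← Nat.card_eq_fintype_card, card_irrCharacter, card_conjClasses_gl2]
  have hq : 1 < q := Fintype.one_lt_card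
  rw [Nat.cast_sub (Nat.one_le_pow _ _ (by omega))]
  push_cast
  rfl

/-- number of cuspidal characters -/
theorem sum_cusp_one [DecidablePred (GCusp (F := F))] :
    ∑ χ : IrrCharacter GL2, (if GCusp χ.1 then (1 : ℂ) else 0) = (q : ℂ) * ((q : ℂ) - 1) / 2 := by
  classical
  let _ : Fintype (MulChar F ℂ) := Fintype.ofFinite _
  have E1 := sum_irr_gl2_deg (F := F) (fun _ => (1 : ℂ))
  simp only [Finset.sum_const, Finset.card_univ, nsmul_eq_mul, mul_one] at E1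
  rw [cast_card_irr_gl2] at E1
  linear_combination -E1

theorem sum_cusp_sq [DecidablePred (GCusp (F := F))] :
    ∑ χ : IrrCharacter GL2, (if GCusp χ.1 then (χ.1 1) ^ 2 else 0) = (q : ℂ) * ((q : ℂ) - 1) ^ 3 / 2 := by
  classical
  let _ : Fintype (MulChar F ℂ) := Fintype.ofFinite _
  have E2 := sum_irr_gl2_deg (F := F) (fun x => x ^ 2)
  rw [sum_irr_sq, cast_card_gl2] at E2
  linear_combination -E2

theorem GCusp.degree {χ : GL2 → ℂ} (hc : GCusp χ) (hχ : IsIrrCharacter GL2 χ) : χ 1 = (q : ℂ) - 1 := by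
  classical
  have hd : ∀ χ : IrrCharacter GL2, ∃ n : ℕ, 0 < n ∧ χ.1 1 = n := irr_apply_one_nat
  choose d hd0 hd1 using hd
  have hge : ∀ χ : IrrCharacter GL2, GCusp χ.1 → q - 1 ≤ d χ := fun χ h =>
    Nat.le_of_dvd (hd0 χ) (GCusp.dvd_degree h χ.2 (hd1 χ))
  have hterm : ∀ χ : IrrCharacter GL2, (((if GCusp χ.1 then (d χ) ^ 2 - (q - 1) ^ 2 else 0 : ℕ)) : ℂ) =
      (if GCusp χ.1 then (χ.1 1) ^ 2 else 0) - ((q : ℂ) - 1) ^ 2 * (if GCusp χ.1 then (1 : ℂ) else 0) := by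
    intro χ
    split_ifs with h
    · rw [Nat.cast_sub (Nat.pow_le_pow_left (hge χ h) 2), hd1 χ]
      push_cast
      rw [cast_q_sub_one]
      ring
    · simp
  have hsum : ∑ χ : IrrCharacter GL2, (if GCusp χ.1 then (d χ) ^ 2 - (q - 1) ^ 2 else 0 : ℕ) = 0 := by
    have : ((∑ χ : IrrCharacter GL2, (if GCusp χ.1 then (d χ) ^ 2 - (q - 1) ^ 2 else 0 : ℕ) : ℕ) : ℂ) = 0 := by
      rw [Nat.cast_sum, Finset.sum_congr rfl (fun χ _ => hterm χ), Finset.sum_sub_distrib,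
        ← Finset.mul_sum, sum_cusp_one, sum_cusp_sq]
      ring
    exact_mod_cast this
  have h0 := (Finset.sum_eq_zero_iff.mp hsum) ⟨χ, hχ⟩ (Finset.mem_univ _)
  rw [if_pos hc] at h0
  have h1 : d ⟨χ, hχ⟩ ^ 2 ≤ (q - 1) ^ 2 := Nat.sub_eq_zero_iff_le.mp h0
  have h2 : d ⟨χ, hχ⟩ ≤ q - 1 := (Nat.pow_le_pow_iff_left (by norm_num)).mp h1
  have h3 : d ⟨χ, hχ⟩ = q - 1 := le_antisymm h2 (hge ⟨χ, hχ⟩ hc)
  have := hd1 ⟨χ, hχ⟩
  simp only at this
  rw [this, h3, cast_q_sub_one]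

theorem gl2_degree_cases {χ : GL2 → ℂ} (hχ : IsIrrCharacter GL2 χ) :
    χ 1 = 1 ∨ χ 1 = (q : ℂ) - 1 ∨ χ 1 = (q : ℂ) ∨ χ 1 = (q : ℂ) + 1 := by
  rcases gl2_cases hχ with ⟨α, rfl⟩ | ⟨α, rfl⟩ | ⟨α, β, -, rfl⟩ | h
  · left; exact gdet_one α
  · right; right; left; exact GSt_one α
  · right; right; right; exact GR_one α β
  · right; left; exact h.degree hχ

open Classical in
theorem card_deg_gl2 (z : ℂ) :
    (Nat.card {χ : IrrCharacter GL2 // (χ : GL2 → ℂ) 1 = z} : ℂ) =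
      (if (q : ℂ) - 1 = z then (q : ℂ) * ((q : ℂ) - 1) / 2 else 0)
      + ((q : ℂ) - 1) * ((if (1 : ℂ) = z then 1 else 0) + (if (q : ℂ) = z then 1 else 0))
      + (1 / 2) * (((q : ℂ) - 1) * ((q : ℂ) - 2)) * (if (q : ℂ) + 1 = z then 1 else 0) := by
  classical
  let _ : Fintype (MulChar F ℂ) := Fintype.ofFinite _
  have E := sum_irr_gl2_deg (F := F) (fun x => if x = z then (1 : ℂ) else 0)
  have h1 : (Nat.card {χ : IrrCharacter GL2 // (χ : GL2 → ℂ) 1 = z} : ℂ) =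
      ∑ χ : IrrCharacter GL2, if χ.1 1 = z then (1 : ℂ) else 0 := by
    rw [Nat.card_eq_fintype_card, Fintype.card_subtype, Finset.card_filter]
    push_cast
    rfl
  have h2 : ∑ χ : IrrCharacter GL2, (if GCusp χ.1 then (if χ.1 1 = z then (1 : ℂ) else 0) else 0) =
      (if (q : ℂ) - 1 = z then (q : ℂ) * ((q : ℂ) - 1) / 2 else 0) := by
    have : ∀ χ : IrrCharacter GL2, (if GCusp χ.1 then (if χ.1 1 = z then (1 : ℂ) else 0) else 0) =
        (if (q : ℂ) - 1 = z then 1 else 0) * (if GCusp χ.1 then (1 : ℂ) else 0) := by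
      intro χ
      by_cases h : GCusp χ.1
      · rw [if_pos h, if_pos h, h.degree χ.2, mul_one]
      · rw [if_neg h, if_neg h, mul_zero]
    rw [Finset.sum_congr rfl (fun χ _ => this χ), ← Finset.mul_sum, sum_cusp_one]
    split_ifs <;> simp
  rw [h1, E, h2]

end Cfsg.Agent.H14
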