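import Mathlib
import Cfsg.Prelude.Def_Characters
import Cfsg.Agent.H14.GL2Deg

set_option autoImplicit false

/-! Recognising irreducible characters of `GL₂(q)` by their degree; some values. -/

namespace Cfsg.Agent.H14

open Matrix Finset Cfsg Cfsg.Agent.CharLib Cfsg.Agent.CharLib.H2
open scoped ComplexConjugate

variable {F : Type*} [Field F] [Fintype F] [DecidableEq F]

local notation "GL2" => Matrix.GeneralLinearGroup (Fin 2) F
local notation "M2" => Matrix (Fin 2) (Fin 2) F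
local notation "q" => Fintype.card F

omit [DecidableEq F] in
theorem q_cast_ne_one : (q : ℂ) ≠ 1 := by
  have hq : 1 < q := Fintype.one_lt_card
  intro h
  have : q = 1 := by exact_mod_cast h
  omega

theorem eq_GSt_of_degree {χ : GL2 → ℂ} (hχ : IsIrrCharacter GL2 χ) (hd : χ 1 = (q : ℂ)) :
    ∃ α, χ = GSt α := by
  rcases gl2_cases hχ with ⟨α, rfl⟩ | ⟨α, rfl⟩ | ⟨α, β, -, rfl⟩ | h
  · rw [gdet_one] at hd
    exact absurd hd.symm q_cast_ne_one
  · exact ⟨α, rfl⟩
  · rw [GR_one] at hd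
    exfalso
    have : (1 : ℂ) = 0 := by linear_combination hd
    exact one_ne_zero this
  · rw [h.degree hχ] at hd
    exfalso
    have : (1 : ℂ) = 0 := by linear_combination -hd
    exact one_ne_zero this

theorem eq_GR_of_degree {χ : GL2 → ℂ} (hχ : IsIrrCharacter GL2 χ) (hd : χ 1 = (q : ℂ) + 1) :
    ∃ α β, α ≠ β ∧ χ = GR α β := by
  rcases gl2_cases hχ with ⟨α, rfl⟩ | ⟨α, rfl⟩ | ⟨α, β, hab, rfl⟩ | h
  · rw [gdet_one] at hd
    exfalso
    exact q_ne_zero (F := F) (by linear_combination -hd)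
  · rw [GSt_one] at hd
    exfalso
    have : (1 : ℂ) = 0 := by linear_combination -hd
    exact one_ne_zero this
  · exact ⟨α, β, hab, rfl⟩
  · rw [h.degree hχ] at hd
    exfalso
    have : (2 : ℂ) = 0 := by linear_combination -hd
    exact two_ne_zero this

theorem cusp_or_of_degree {χ : GL2 → ℂ} (hχ : IsIrrCharacter GL2 χ) (hd : χ 1 = (q : ℂ) - 1) :
    GCusp χ ∨ q = 2 := by
  rcases gl2_cases hχ with ⟨α, rfl⟩ | ⟨α, rfl⟩ | ⟨α, β, hab, rfl⟩ | h
  · rw [gdet_one] at hd
    right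
    have : (q : ℂ) = 2 := by linear_combination -hd
    exact_mod_cast this
  · rw [GSt_one] at hd
    exfalso
    have : (1 : ℂ) = 0 := by linear_combination hd
    exact one_ne_zero this
  · rw [GR_one] at hd
    exfalso
    have : (2 : ℂ) = 0 := by linear_combination hd
    exact two_ne_zero this
  · exact Or.inl h

theorem eq_gdet_or_of_degree {χ : GL2 → ℂ} (hχ : IsIrrCharacter GL2 χ) (hd : χ 1 = 1) :
    (∃ α, χ = gdet α) ∨ q = 2 := by
  rcases gl2_cases hχ with ⟨α, rfl⟩ | ⟨α, rfl⟩ | ⟨α, β, hab, rfl⟩ | h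
  · exact Or.inl ⟨α, rfl⟩
  · rw [GSt_one] at hd
    exact absurd hd q_cast_ne_one
  · rw [GR_one] at hd
    exfalso
    exact q_ne_zero (F := F) (by linear_combination hd)
  · rw [h.degree hχ] at hd
    right
    have : (q : ℂ) = 2 := by linear_combination hd
    exact_mod_cast this

omit [DecidableEq F] in
theorem norm_mulChar (α : MulChar F ℂ) {x : F} (hx : x ≠ 0) : ‖α x‖ = 1 := by
  have hq : 1 < q := Fintype.one_lt_card
  apply Complex.norm_eq_one_of_pow_eq_one (n := q - 1) _ (by omega)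
  rw [← map_pow, FiniteField.pow_card_sub_one_eq_one x hx, map_one]

theorem GSt_diag (α : MulChar F ℂ) {g : GL2} (h10 : (g : M2) 1 0 = 0) (h01 : (g : M2) 0 1 = 0)
    (hne : (g : M2) 0 0 ≠ (g : M2) 1 1) : GSt α g = α (g : M2).det := by
  rw [GSt, Pi.sub_apply, GR_diag α α h10 h01 hne, gdet, Matrix.det_fin_two, h10, mul_zero, sub_zero, map_mul]
  ring

theorem GSt_noEig (α : MulChar F ℂ) {g : GL2} (h : GNoEig (g : M2)) : GSt α g = - α (g : M2).det := by
  rw [GSt, Pi.sub_apply, GR_noEig α α h, gdet, zero_sub]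

theorem GSt_unip (α : MulChar F ℂ) {g : GL2} (h10 : (g : M2) 1 0 = 0) (heq : (g : M2) 0 0 = (g : M2) 1 1)
    (h01 : (g : M2) 0 1 ≠ 0) : GSt α g = 0 := by
  rw [GSt, Pi.sub_apply, GR_unip α α h10 heq h01, gdet, Matrix.det_fin_two, h10, mul_zero, sub_zero, map_mul,
    ← heq, sub_self]

end Cfsg.Agent.H14
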