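import Mathlib

/-! # Abstract lemmas for the low-dimensional orthogonal isomorphisms -/

set_option autoImplicit false
set_option linter.unusedSimpArgs false
set_option linter.unusedVariables false
set_option linter.unusedSectionVars false

namespace Cfsg.Agent.H14

open scoped commutatorElement

/-- Grün's lemma: the central quotient of a perfect group has trivial centre. -/
theorem center_eq_bot_of_perfect {S P : Type*} [Group S] [Group P] (hS : commutator S = ⊤)
    (π : S →* P) (hπ : Function.Surjective π) (hker : π.ker = Subgroup.center S) :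
    Subgroup.center P = ⊥ := by
  rw [eq_bot_iff]
  intro y hy
  obtain ⟨x, rfl⟩ := hπ y
  rw [Subgroup.mem_bot, ← MonoidHom.mem_ker, hker]
  rw [Subgroup.mem_center_iff] at hy
  have hc : ∀ s, x * s * x⁻¹ * s⁻¹ ∈ Subgroup.center S := by
    intro s
    rw [← hker, MonoidHom.mem_ker, map_mul, map_mul, map_mul, map_inv, map_inv, ← hy (π s),
      mul_inv_cancel_right, mul_inv_cancel]
  have hmul : ∀ s t, x * (s * t) * x⁻¹ * (s * t)⁻¹
      = (x * s * x⁻¹ * s⁻¹) * (x * t * x⁻¹ * t⁻¹) := by
    intro s t
    have h1 := Subgroup.mem_center_iff.mp (hc t) s⁻¹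
    calc x * (s * t) * x⁻¹ * (s * t)⁻¹ = x * s * x⁻¹ * ((x * t * x⁻¹ * t⁻¹) * s⁻¹) := by group
      _ = x * s * x⁻¹ * (s⁻¹ * (x * t * x⁻¹ * t⁻¹)) := by rw [h1]
      _ = _ := by group
  obtain ⟨f, hfs⟩ : ∃ f : S →* Subgroup.center S, ∀ s, (f s : S) = x * s * x⁻¹ * s⁻¹ :=
    ⟨MonoidHom.mk' (fun s => ⟨x * s * x⁻¹ * s⁻¹, hc s⟩) (fun s t => Subtype.ext (hmul s t)),
      fun s => rfl⟩
  have hf : commutator S ≤ f.ker := by
    rw [commutator_eq_closure, Subgroup.closure_le]
    rintro _ ⟨a, b, rfl⟩
    show f _ = 1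
    rw [map_commutatorElement, commutatorElement_eq_one_iff_mul_comm]
    exact Subtype.ext (Subgroup.mem_center_iff.mp (f b).2 (f a).1)
  rw [hS] at hf
  rw [Subgroup.mem_center_iff]
  intro s
  have h1 : f s = 1 := MonoidHom.mem_ker.mp (hf (Subgroup.mem_top s))
  have h2 : x * s * x⁻¹ * s⁻¹ = 1 := by rw [← hfs, h1]; rfl
  have h3 : x * s = s * x := by
    have := mul_inv_eq_one.mp h2
    exact mul_inv_eq_iff_eq_mul.mp this
  exact h3.symm

theorem pomega_of_hom {S O P : Type*} [Group S] [Group O] [Group P] [Finite S] [Finite O]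
    (ψ : S →* O) (π : S →* P) (hπ : Function.Surjective π) (hP : Subgroup.center P = ⊥)
    (hmem : ∀ s, ψ s ∈ commutator O) (hker : ψ.ker ≤ π.ker) (hcen : π.ker ≤ Subgroup.center S)
    (hcard : Nat.card (commutator O) * Nat.card ψ.ker ≤ Nat.card S) :
    Nonempty (commutator O ⧸ Subgroup.center (commutator O) ≃* P) := by
  let ψ' : S →* commutator O := ψ.codRestrict _ hmem
  have hk : ψ'.ker = ψ.ker := by
    ext s
    rw [MonoidHom.mem_ker, MonoidHom.mem_ker]
    exact ⟨fun h => congrArg Subtype.val h, fun h => Subtype.ext h⟩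
  have hsurj : Function.Surjective ψ' := by
    rw [← MonoidHom.range_eq_top]
    apply Subgroup.eq_top_of_le_card
    have h1 : Nat.card ψ'.ker * Nat.card ψ'.range = Nat.card S := by
      rw [← Subgroup.index_ker, Subgroup.card_mul_index]
    rw [hk] at h1
    rw [← h1, mul_comm] at hcard
    exact Nat.le_of_mul_le_mul_left hcard Nat.card_pos
  let θ : S →* commutator O ⧸ Subgroup.center (commutator O) :=
    (QuotientGroup.mk' _).comp ψ'
  have hθ : Function.Surjective θ := (QuotientGroup.mk'_surjective _).comp hsurj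
  have hθk : θ.ker = π.ker := by
    ext s
    rw [MonoidHom.mem_ker]
    show (QuotientGroup.mk (ψ' s) : commutator O ⧸ Subgroup.center (commutator O)) = 1 ↔ _
    rw [QuotientGroup.eq_one_iff]
    constructor
    · intro h
      rw [Subgroup.mem_center_iff] at h
      have h1 : π s ∈ Subgroup.center P := by
        rw [Subgroup.mem_center_iff]
        intro y
        obtain ⟨t, rfl⟩ := hπ y
        have h2 : t * s * (s * t)⁻¹ ∈ ψ'.ker := by
          rw [MonoidHom.mem_ker, map_mul, map_inv, map_mul, map_mul, h (ψ' t)]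
          group
        rw [hk] at h2
        have h3 := hker h2
        rw [MonoidHom.mem_ker, map_mul, map_inv, mul_inv_eq_one] at h3
        rw [← map_mul, ← map_mul, h3]
      rw [hP, Subgroup.mem_bot] at h1
      exact h1
    · intro h
      have h1 := Subgroup.mem_center_iff.mp (hcen h)
      rw [Subgroup.mem_center_iff]
      intro y
      obtain ⟨t, rfl⟩ := hsurj y
      rw [← map_mul, ← map_mul, h1]
  exact ⟨((QuotientGroup.quotientKerEquivOfSurjective θ hθ).symm.trans
    (QuotientGroup.quotientMulEquivOfEq hθk)).trans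
    (QuotientGroup.quotientKerEquivOfSurjective π hπ)⟩

end Cfsg.Agent.H14
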