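import Mathlib
import Cfsg.Agent.H14.OmegaIso
import Cfsg.Agent.Lib.Helper15.Std
import Cfsg.Agent.Lib.Helper15.SpinHom
import Cfsg.Agent.Lib.Helper15.Omega2
import Cfsg.Agent.Lib.Helper18.IsoReindex
import Cfsg.Agent.Lib.Helper18.SLGen
import Cfsg.Agent.Lib.Helper18.SLCard
import Cfsg.Agent.S0287

/-! # The Klein correspondence `PΩ₆⁺(q) ≅ PSL₄(q)` -/

set_option autoImplicit false
set_option linter.unusedSimpArgs false
set_option linter.unusedVariables false
set_option linter.unusedSectionVars false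

namespace Cfsg.Agent.H14

open Matrix

variable {F : Type*} [Field F]

/-- first index of the oriented pair -/
def kr : Fin 6 → Fin 4 := ![0, 0, 0, 2, 3, 1]
/-- second index of the oriented pair -/
def ks : Fin 6 → Fin 4 := ![1, 2, 3, 3, 1, 2]

/-- second compound matrix -/
def C6 (g : Matrix (Fin 4) (Fin 4) F) : Matrix (Fin 6) (Fin 6) F :=
  Matrix.of fun i j => g (kr i) (kr j) * g (ks i) (ks j) - g (ks i) (kr j) * g (kr i) (ks j)

theorem cauchy_binet2 (g h : Matrix (Fin 4) (Fin 4) F) (c d a b : Fin 4) :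
    (g * h) c a * (g * h) d b - (g * h) d a * (g * h) c b =
      ∑ i : Fin 6, (g c (kr i) * g d (ks i) - g d (kr i) * g c (ks i)) *
        (h (kr i) a * h (ks i) b - h (ks i) a * h (kr i) b) := by
  simp only [Matrix.mul_apply, Fin.sum_univ_four, Fin.sum_univ_six, kr, ks]
  simp
  ring

theorem C6_mul (g h : Matrix (Fin 4) (Fin 4) F) : C6 (g * h) = C6 g * C6 h := by
  ext i j
  rw [Matrix.mul_apply]
  exact cauchy_binet2 g h _ _ _ _

theorem C6_one : C6 (1 : Matrix (Fin 4) (Fin 4) F) = 1 := by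
  ext i j
  fin_cases i <;> fin_cases j <;> simp [C6, kr, ks, Matrix.one_apply]

def Q6 (v : Fin 6 → F) : F := v 0 * v 3 + v 1 * v 4 + v 2 * v 5

theorem det4 (g : Matrix (Fin 4) (Fin 4) F) : g.det =
    (g 0 0 * g 1 1 - g 1 0 * g 0 1) * (g 2 2 * g 3 3 - g 3 2 * g 2 3)
    + (g 0 0 * g 2 1 - g 2 0 * g 0 1) * (g 3 2 * g 1 3 - g 1 2 * g 3 3)
    + (g 0 0 * g 3 1 - g 3 0 * g 0 1) * (g 1 2 * g 2 3 - g 2 2 * g 1 3)
    + (g 2 0 * g 3 1 - g 3 0 * g 2 1) * (g 0 2 * g 1 3 - g 1 2 * g 0 3)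
    + (g 3 0 * g 1 1 - g 1 0 * g 3 1) * (g 0 2 * g 2 3 - g 2 2 * g 0 3)
    + (g 1 0 * g 2 1 - g 2 0 * g 1 1) * (g 0 2 * g 3 3 - g 3 2 * g 0 3) := by
  rw [Matrix.det_succ_row_zero]
  simp [Fin.sum_univ_succ, Matrix.det_fin_three, Fin.succAbove]
  ring

theorem Q6_C6 (g : Matrix (Fin 4) (Fin 4) F) (v : Fin 6 → F) :
    Q6 (C6 g *ᵥ v) = g.det * Q6 v := by
  rw [det4]
  simp only [Q6, C6, Matrix.mulVec, dotProduct, Fin.sum_univ_six, kr, ks, Matrix.of_apply]
  simp
  ring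

theorem C6_eq_one (g : Matrix (Fin 4) (Fin 4) F) (h : C6 g = 1) :
    g 0 0 ^ 2 = 1 ∧ g = g 0 0 • (1 : Matrix (Fin 4) (Fin 4) F) := by
  have e : ∀ i j, g (kr i) (kr j) * g (ks i) (ks j) - g (ks i) (kr j) * g (kr i) (ks j)
      = if i = j then 1 else 0 := by
    intro i j
    have := congrFun (congrFun h i) j
    rwa [Matrix.one_apply] at this
  have E00 : g 0 0 * g 1 1 - g 1 0 * g 0 1 = 1 := by
    simpa [kr, ks] using e 0 0
  have E01 : g 0 0 * g 1 2 - g 1 0 * g 0 2 = 0 := by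
    simpa [kr, ks] using e 0 1
  have E02 : g 0 0 * g 1 3 - g 1 0 * g 0 3 = 0 := by
    simpa [kr, ks] using e 0 2
  have E04 : g 0 3 * g 1 1 - g 1 3 * g 0 1 = 0 := by
    simpa [kr, ks] using e 0 4
  have E10 : g 0 0 * g 2 1 - g 2 0 * g 0 1 = 0 := by
    simpa [kr, ks] using e 1 0
  have E11 : g 0 0 * g 2 2 - g 2 0 * g 0 2 = 1 := by
    simpa [kr, ks] using e 1 1
  have E12 : g 0 0 * g 2 3 - g 2 0 * g 0 3 = 0 := by
    simpa [kr, ks] using e 1 2
  have E13 : g 0 2 * g 2 3 - g 2 2 * g 0 3 = 0 := by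
    simpa [kr, ks] using e 1 3
  have E20 : g 0 0 * g 3 1 - g 3 0 * g 0 1 = 0 := by
    simpa [kr, ks] using e 2 0
  have E21 : g 0 0 * g 3 2 - g 3 0 * g 0 2 = 0 := by
    simpa [kr, ks] using e 2 1
  have E22 : g 0 0 * g 3 3 - g 3 0 * g 0 3 = 1 := by
    simpa [kr, ks] using e 2 2
  have E23 : g 0 2 * g 3 3 - g 3 2 * g 0 3 = 0 := by
    simpa [kr, ks] using e 2 3
  have E24 : g 0 3 * g 3 1 - g 3 3 * g 0 1 = 0 := by
    simpa [kr, ks] using e 2 4
  have E31 : g 2 0 * g 3 2 - g 3 0 * g 2 2 = 0 := by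
    simpa [kr, ks] using e 3 1
  have E32 : g 2 0 * g 3 3 - g 3 0 * g 2 3 = 0 := by
    simpa [kr, ks] using e 3 2
  have E33 : g 2 2 * g 3 3 - g 3 2 * g 2 3 = 1 := by
    simpa [kr, ks] using e 3 3
  have E40 : g 3 0 * g 1 1 - g 1 0 * g 3 1 = 0 := by
    simpa [kr, ks] using e 4 0
  have E42 : g 3 0 * g 1 3 - g 1 0 * g 3 3 = 0 := by
    simpa [kr, ks] using e 4 2
  have E44 : g 3 3 * g 1 1 - g 1 3 * g 3 1 = 1 := by
    simpa [kr, ks] using e 4 4
  have E50 : g 1 0 * g 2 1 - g 2 0 * g 1 1 = 0 := by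
    simpa [kr, ks] using e 5 0
  have E51 : g 1 0 * g 2 2 - g 2 0 * g 1 2 = 0 := by
    simpa [kr, ks] using e 5 1
  have z20 : g 2 0 = 0 := by
    linear_combination (-(g 2 0)) * E00 + (-1) * g 0 0 * E50 - (-1) * g 1 0 * E10
  have z21 : g 2 1 = 0 := by
    linear_combination (-(g 2 1)) * E00 + (-1) * g 0 1 * E50 - (-1) * g 1 1 * E10
  have z30 : g 3 0 = 0 := by
    linear_combination (-(g 3 0)) * E00 + (1) * g 0 0 * E40 - (-1) * g 1 0 * E20
  have z31 : g 3 1 = 0 := by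
    linear_combination (-(g 3 1)) * E00 + (1) * g 0 1 * E40 - (-1) * g 1 1 * E20
  have z10 : g 1 0 = 0 := by
    linear_combination (-(g 1 0)) * E11 + (1) * g 0 0 * E51 - (-1) * g 2 0 * E01
  have z12 : g 1 2 = 0 := by
    linear_combination (-(g 1 2)) * E11 + (1) * g 0 2 * E51 - (-1) * g 2 2 * E01
  have z32 : g 3 2 = 0 := by
    linear_combination (-(g 3 2)) * E11 + (-1) * g 0 2 * E31 - (-1) * g 2 2 * E21
  have z13 : g 1 3 = 0 := by
    linear_combination (-(g 1 3)) * E22 + (-1) * g 0 3 * E42 - (-1) * g 3 3 * E02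
  have z23 : g 2 3 = 0 := by
    linear_combination (-(g 2 3)) * E22 + (1) * g 0 3 * E32 - (-1) * g 3 3 * E12
  have z02 : g 0 2 = 0 := by
    linear_combination (-(g 0 2)) * E33 + (1) * g 2 2 * E23 - (1) * g 3 2 * E13
  have z03 : g 0 3 = 0 := by
    linear_combination (-(g 0 3)) * E33 + (1) * g 2 3 * E23 - (1) * g 3 3 * E13
  have z01 : g 0 1 = 0 := by
    linear_combination (-(g 0 1)) * E44 + (1) * g 3 1 * E04 - (1) * g 1 1 * E24
  have E55 : g 1 1 * g 2 2 - g 2 1 * g 1 2 = 1 := by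
    simpa [kr, ks] using e 5 5
  rw [z10, z01] at E00
  rw [z20, z02] at E11
  rw [z30, z03] at E22
  rw [z21, z12] at E55
  have h0 : g 0 0 ≠ 0 := by
    intro h0
    rw [h0] at E00
    simp at E00
  have h11 : g 1 1 = g 2 2 := by
    apply mul_left_cancel₀ h0
    linear_combination E00 - E11
  have h22 : g 2 2 = g 3 3 := by
    apply mul_left_cancel₀ h0
    linear_combination E11 - E22
  have h1 : g 1 1 ≠ 0 := by
    intro h0
    rw [h0] at E00
    simp at E00
  have h00 : g 0 0 = g 2 2 := by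
    apply mul_left_cancel₀ h1
    linear_combination E00 - E55
  refine ⟨by rw [h11, ← h00] at E00; linear_combination E00, ?_⟩
  ext i j
  fin_cases i <;> fin_cases j <;>
    simp [Matrix.one_apply, z01, z02, z03, z10, z12, z13, z20, z21, z23, z30, z31, z32,
      h11, ← h22, ← h00]


theorem card_le_of_pm_one {K : Type*} [Finite K] (f : K → F) (hf : Function.Injective f)
    (h : ∀ k, f k ^ 2 = 1) : Nat.card K ≤ 2 ∧ ((2 : F) = 0 → Nat.card K ≤ 1) := by
  classical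
  have h' : ∀ k, f k = 1 ∨ f k = -1 := fun k => sq_eq_one_iff.mp (h k)
  constructor
  · have hinj : Function.Injective (fun k : K => (⟨f k, by
        rcases h' k with h | h <;> simp [h]⟩ : ({1, -1} : Finset F))) := by
      intro a b hab
      exact hf (congrArg Subtype.val hab)
    refine (Nat.card_le_card_of_injective _ hinj).trans ?_
    rw [Nat.card_eq_fintype_card, Fintype.card_coe]
    exact Finset.card_le_two
  · intro h2
    rw [Finite.card_le_one_iff_subsingleton]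
    constructor
    intro a b
    apply hf
    have hn : (-1 : F) = 1 := by linear_combination -h2
    rcases h' a with ha | ha <;> rcases h' b with hb | hb <;> simp [ha, hb, hn]

def C6hom : Matrix (Fin 4) (Fin 4) F →* Matrix (Fin 6) (Fin 6) F where
  toFun := C6
  map_one' := C6_one
  map_mul' := C6_mul

/-- the homomorphism `SL₄ → O₆⁺` -/
noncomputable def Psi6 : Matrix.SpecialLinearGroup (Fin 4) F →* Cfsg.isometryGroup F (Q6 (F := F)) :=
  ((Units.map C6hom).comp Matrix.SpecialLinearGroup.toGL).codRestrict _ (by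
    intro s
    rw [Cfsg.Agent.Lib.Helper18.mem_isometryGroup_iff]
    intro v
    show Q6 (C6 s.1 *ᵥ v) = Q6 v
    rw [Q6_C6, s.2, one_mul])

theorem Psi6_coe (s : Matrix.SpecialLinearGroup (Fin 4) F) :
    ((Psi6 s).1 : Matrix (Fin 6) (Fin 6) F) = C6 s.1 := rfl

/-- the index bijection -/
def idx6 : Fin 3 ⊕ Fin 3 ≃ Fin 6 where
  toFun x := match x with
    | .inl i => ![0, 1, 2] i
    | .inr i => ![3, 4, 5] i
  invFun i := ![.inl 0, .inl 1, .inl 2, .inr 0, .inr 1, .inr 2] i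
  left_inv x := by
    rcases x with x | x <;> fin_cases x <;> rfl
  right_inv i := by fin_cases i <;> rfl

noncomputable def E6 : Cfsg.isometryGroup F (Cfsg.quadFormPlus 3 F) ≃*
    Cfsg.isometryGroup F (Q6 (F := F)) :=
  Cfsg.Agent.Lib.Helper18.isoReindex idx6 Q6 (Cfsg.quadFormPlus 3 F) (by
    intro v
    simp only [Cfsg.quadFormPlus, Q6, Function.comp, Fin.sum_univ_three]
    rfl)

theorem Psi6_ker (s : Matrix.SpecialLinearGroup (Fin 4) F) (hs : s ∈ (Psi6 (F := F)).ker) :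
    s.1 0 0 ^ 2 = 1 ∧ s.1 = s.1 0 0 • (1 : Matrix (Fin 4) (Fin 4) F) := by
  apply C6_eq_one
  rw [← Psi6_coe, MonoidHom.mem_ker.mp hs]
  rfl

theorem card_Psi6_ker [Fintype F] :
    Nat.card (Psi6 (F := F)).ker ≤ 2 ∧ ((2 : F) = 0 → Nat.card (Psi6 (F := F)).ker ≤ 1) := by
  apply card_le_of_pm_one (fun s : (Psi6 (F := F)).ker => s.1.1 0 0)
  · intro s t hst
    apply Subtype.ext
    apply Subtype.ext
    rw [(Psi6_ker s.1 s.2).2, (Psi6_ker t.1 t.2).2]
    have : s.1.1 0 0 = t.1.1 0 0 := hst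
    rw [this]
  · intro s
    exact (Psi6_ker s.1 s.2).1


theorem card_SL4 [Fintype F] : Nat.card (Matrix.SpecialLinearGroup (Fin 4) F) =
    Fintype.card F ^ 6 * (Fintype.card F ^ 3 - 1) * (Fintype.card F ^ 2 - 1)
      * (Fintype.card F ^ 4 - 1) := by
  have h1 := Cfsg.Agent.Lib.Helper18.card_GL_eq (n := Fin 4) (F := F)
  rw [Matrix.card_GL_field] at h1
  simp only [Fin.prod_univ_four] at h1
  set q := Fintype.card F with hq
  have hq1 : 1 < q := Fintype.one_lt_card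
  have e1 : q ^ 4 - q ^ ((1 : Fin 4) : ℕ) = q * (q ^ 3 - 1) := by
    rw [Nat.mul_sub]; simp; ring_nf
  have e2 : q ^ 4 - q ^ ((2 : Fin 4) : ℕ) = q ^ 2 * (q ^ 2 - 1) := by
    rw [Nat.mul_sub]; simp; ring_nf
  have e3 : q ^ 4 - q ^ ((3 : Fin 4) : ℕ) = q ^ 3 * (q - 1) := by
    rw [Nat.mul_sub]; simp; ring_nf
  have e0 : q ^ 4 - q ^ ((0 : Fin 4) : ℕ) = q ^ 4 - 1 := by simp
  rw [e0, e1, e2, e3] at h1
  have hpos : 0 < q - 1 := by omega
  apply Nat.eq_of_mul_eq_mul_left hpos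
  rw [← h1]
  ring

theorem pomega6_equiv_psl4 [Fintype F] :
    Nonempty (Cfsg.POmega F (Cfsg.quadFormPlus 3 F) ≃*
      Matrix.ProjectiveSpecialLinearGroup (Fin 4) F) := by
  classical
  have hperf : commutator (Matrix.SpecialLinearGroup (Fin 4) F) = ⊤ :=
    Cfsg.Agent.Lib.Helper18.SL_commutator_eq_top (by simp)
  have hπ : Function.Surjective (QuotientGroup.mk' (Subgroup.center
      (Matrix.SpecialLinearGroup (Fin 4) F))) := QuotientGroup.mk'_surjective _
  have hkψ : ((E6 (F := F)).symm.toMonoidHom.comp Psi6).ker = (Psi6 (F := F)).ker := by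
    ext s
    rw [MonoidHom.mem_ker, MonoidHom.mem_ker]
    show E6.symm (Psi6 s) = 1 ↔ _
    rw [MulEquiv.map_eq_one_iff]
  refine pomega_of_hom ((E6 (F := F)).symm.toMonoidHom.comp Psi6)
    (QuotientGroup.mk' (Subgroup.center (Matrix.SpecialLinearGroup (Fin 4) F))) hπ
    (center_eq_bot_of_perfect hperf _ hπ (QuotientGroup.ker_mk' _)) ?_ ?_ ?_ ?_
  · intro s
    have h1 : s ∈ commutator (Matrix.SpecialLinearGroup (Fin 4) F) := hperf ▸ Subgroup.mem_top s
    have h3 : (commutator (Matrix.SpecialLinearGroup (Fin 4) F)).map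
        ((E6 (F := F)).symm.toMonoidHom.comp Psi6) ≤ commutator _ := by
      rw [commutator_def, Subgroup.map_commutator]
      exact Subgroup.commutator_mono le_top le_top
    exact h3 (Subgroup.mem_map_of_mem _ h1)
  · rw [hkψ, QuotientGroup.ker_mk']
    intro s hs
    obtain ⟨h1, h2⟩ := Psi6_ker s hs
    rw [Subgroup.mem_center_iff]
    intro t
    apply Subtype.ext
    rw [Matrix.SpecialLinearGroup.coe_mul, Matrix.SpecialLinearGroup.coe_mul, h2]
    simp
  · rw [QuotientGroup.ker_mk']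
  · rw [hkψ]
    have hQ := Cfsg.Agent.Lib.Helper15.plusQ_nondegenerate (F := F) 3
    have hcard : Fintype.card (Fin 3 ⊕ Fin 3) = 6 := by simp
    have hO := Cfsg.Agent.S0287.result (F := F) rfl 3 (by omega)
    have hidx := Subgroup.card_mul_index (Cfsg.Omega F (Cfsg.quadFormPlus 3 F))
    rw [hO] at hidx
    simp only [Finset.prod_range_succ, Finset.prod_range_zero] at hidx
    rw [card_SL4]
    obtain ⟨hk2, hk1⟩ := card_Psi6_ker (F := F)
    show Nat.card (Cfsg.Omega F (Cfsg.quadFormPlus 3 F)) * _ ≤ _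
    by_cases h2 : (2 : F) = 0
    · have : CharP F 2 := CharTwo.of_one_ne_zero_of_two_eq_zero one_ne_zero h2
      have hi := Cfsg.Agent.Lib.Helper15.index_Omega_two (Cfsg.Agent.Lib.Helper15.plusQ 3 F) hQ
        (by omega) (Or.inr (by omega))
      rw [Cfsg.Agent.Lib.Helper15.coe_plusQ] at hi
      rw [hi] at hidx
      calc Nat.card (Cfsg.Omega F (Cfsg.quadFormPlus 3 F)) * Nat.card (Psi6 (F := F)).ker
          ≤ Nat.card (Cfsg.Omega F (Cfsg.quadFormPlus 3 F)) * 1 := Nat.mul_le_mul_left _ (hk1 h2)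
        _ = _ := by
          apply Nat.eq_of_mul_eq_mul_left (show 0 < 2 by norm_num)
          rw [mul_one, mul_comm, hidx]
          ring_nf
    · have hi := Cfsg.Agent.Lib.Helper15.index_Omega_odd (Cfsg.Agent.Lib.Helper15.plusQ 3 F) h2
        (by omega) hQ
      rw [Cfsg.Agent.Lib.Helper15.coe_plusQ] at hi
      rw [hi] at hidx
      calc Nat.card (Cfsg.Omega F (Cfsg.quadFormPlus 3 F)) * Nat.card (Psi6 (F := F)).ker
          ≤ Nat.card (Cfsg.Omega F (Cfsg.quadFormPlus 3 F)) * 2 := Nat.mul_le_mul_left _ hk2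
        _ = _ := by
          apply Nat.eq_of_mul_eq_mul_left (show 0 < 2 by norm_num)
          have : 2 * (Nat.card (Cfsg.Omega F (Cfsg.quadFormPlus 3 F)) * 2)
            = Nat.card (Cfsg.Omega F (Cfsg.quadFormPlus 3 F)) * 4 := by ring
          rw [this, hidx]
          ring_nf


end Cfsg.Agent.H14
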