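import Mathlib
import Cfsg.Agent.H14.PSU32
import Cfsg.Agent.S0243

/-! # subgroups of order three in `PSL₃(4)` -/

set_option autoImplicit false
set_option linter.unusedSimpArgs false
set_option linter.unusedVariables false

namespace Cfsg.Agent.H14

open Matrix
open scoped Pointwise

theorem conj_smul_zpowers {G : Type*} [Group G] (k x : G) :
    MulAut.conj k • Subgroup.zpowers x = Subgroup.zpowers (k * x * k⁻¹) := by
  have := MonoidHom.map_zpowers (MulAut.conj k).toMonoidHom x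
  exact this

/-- closure of two commuting elements of order three -/
theorem card_closure_nine' {G : Type*} [Group G] [Finite G] (hG : ¬ 27 ∣ Nat.card G) (a b : G)
    (ha : a ^ 3 = 1) (hb : b ^ 3 = 1) (hab : a * b = b * a) (ha1 : a ≠ 1)
    (hba : b ∉ Subgroup.zpowers a) :
    Nat.card (Subgroup.closure ({a, b} : Set G)) = 9 ∧
      (∀ x ∈ Subgroup.closure ({a, b} : Set G), x ^ 3 = 1) ∧
      ∀ x ∈ Subgroup.closure ({a, b} : Set G), ∃ i j : ℕ, i < 3 ∧ j < 3 ∧ x = a ^ i * b ^ j := by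
  set N := Subgroup.closure ({a, b} : Set G) with hN
  have hC : Commute a b := hab
  have hrep0 : ∀ x ∈ N, ∃ i j : ℕ, x = a ^ i * b ^ j := by
    intro x hx
    induction hx using Subgroup.closure_induction with
    | mem x hx =>
      rcases hx with rfl | rfl
      · exact ⟨1, 0, by simp⟩
      · exact ⟨0, 1, by simp⟩
    | one => exact ⟨0, 0, by simp⟩
    | mul x y _ _ hx hy =>
      obtain ⟨i, j, rfl⟩ := hx
      obtain ⟨i', j', rfl⟩ := hy
      refine ⟨i + i', j + j', ?_⟩
      rw [pow_add, pow_add]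
      have h1 : Commute (b ^ j) (a ^ i') := (hC.pow_pow i' j).symm
      calc a ^ i * b ^ j * (a ^ i' * b ^ j') = a ^ i * (b ^ j * a ^ i') * b ^ j' := by group
        _ = a ^ i * (a ^ i' * b ^ j) * b ^ j' := by rw [h1.eq]
        _ = _ := by group
    | inv x _ hx =>
      obtain ⟨i, j, rfl⟩ := hx
      refine ⟨2 * i, 2 * j, ?_⟩
      rw [inv_eq_iff_mul_eq_one]
      have h1 : Commute (b ^ j) (a ^ (2 * i)) := (hC.pow_pow (2 * i) j).symm
      calc a ^ i * b ^ j * (a ^ (2 * i) * b ^ (2 * j))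
          = a ^ i * (b ^ j * a ^ (2 * i)) * b ^ (2 * j) := by group
        _ = a ^ i * (a ^ (2 * i) * b ^ j) * b ^ (2 * j) := by rw [h1.eq]
        _ = (a ^ i * a ^ (2 * i)) * (b ^ j * b ^ (2 * j)) := by group
        _ = 1 := by
          rw [← pow_add, ← pow_add, show i + 2 * i = 3 * i by ring, show j + 2 * j = 3 * j by ring,
            pow_mul, pow_mul, ha, hb]
          simp
  have hrep : ∀ x ∈ N, ∃ i j : ℕ, i < 3 ∧ j < 3 ∧ x = a ^ i * b ^ j := by
    intro x hx
    obtain ⟨i, j, rfl⟩ := hrep0 x hx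
    refine ⟨i % 3, j % 3, Nat.mod_lt _ (by norm_num), Nat.mod_lt _ (by norm_num), ?_⟩
    have e : ∀ (c : G) (n : ℕ), c ^ 3 = 1 → c ^ (n % 3) = c ^ n := by
      intro c n hc
      conv_rhs => rw [← Nat.div_add_mod n 3, pow_add, pow_mul, hc, one_pow, one_mul]
    rw [e a i ha, e b j hb]
  have h3 : ∀ x ∈ N, x ^ 3 = 1 := by
    intro x hx
    obtain ⟨i, j, rfl⟩ := hrep0 x hx
    rw [(hC.pow_pow i j).mul_pow, ← pow_mul, ← pow_mul, mul_comm i, mul_comm j, pow_mul, pow_mul,
      ha, hb]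
    simp
  refine ⟨?_, h3, hrep⟩
  have hp : IsPGroup 3 N := by
    intro x
    refine ⟨1, ?_⟩
    apply Subtype.ext
    simpa using h3 x.1 x.2
  haveI : Fact (Nat.Prime 3) := ⟨by norm_num⟩
  obtain ⟨k, hk⟩ := (IsPGroup.iff_card).mp hp
  have hdvd : Nat.card N ∣ Nat.card G := Subgroup.card_subgroup_dvd_card N
  have hk2 : k ≤ 2 := by
    by_contra hcon
    have : 3 ^ 3 ∣ 3 ^ k := pow_dvd_pow 3 (by omega)
    rw [← hk] at this
    exact hG (this.trans hdvd)
  have hle : Subgroup.zpowers a ≤ N := by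
    rw [Subgroup.zpowers_le]
    exact Subgroup.subset_closure (by simp)
  have hza : Nat.card (Subgroup.zpowers a) = 3 := by
    rw [Nat.card_zpowers]
    exact orderOf_eq_prime ha ha1
  have hgt : 3 < Nat.card N := by
    by_contra hcon
    have := Subgroup.eq_of_le_of_card_ge hle (by rw [hza]; omega)
    apply hba
    rw [this]
    exact Subgroup.subset_closure (by simp)
  rw [hk] at hgt ⊢
  interval_cases k <;> simp_all

theorem order3_conj {G : Type*} [Group G] [Finite G] (hG9 : 9 ∣ Nat.card G)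
    (hG : ¬ 27 ∣ Nat.card G) (a b m m' : G)
    (ha : a ^ 3 = 1) (hb : b ^ 3 = 1) (hab : a * b = b * a) (ha1 : a ≠ 1)
    (hba : b ∉ Subgroup.zpowers a)
    (h1 : m * a * m⁻¹ = b) (h2 : m * b * m⁻¹ = a * a) (h3 : m' * a * m'⁻¹ = a * b)
    (h4 : m' * b * m'⁻¹ = b * b * a)
    (X : Subgroup G) (hX : Nat.card X = 3) : ∃ g : G, MulAut.conj g • X = Subgroup.zpowers a := by
  obtain ⟨hN9, hN3, hrep⟩ := card_closure_nine' hG a b ha hb hab ha1 hba
  set N := Subgroup.closure ({a, b} : Set G) with hN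
  haveI : Fact (Nat.Prime 3) := ⟨by norm_num⟩
  -- transitivity on non-identity elements
  have htr : ∀ x ∈ N, x ≠ 1 → ∃ g : G, g * a * g⁻¹ = x := by
    have c1 : ∀ g h x y z : G, h * x * h⁻¹ = y → g * y * g⁻¹ = z → (g * h) * x * (g * h)⁻¹ = z := by
      intro g h x y z e1 e2
      rw [← e2, ← e1]; group
    have cm : ∀ g x y x' y' : G, g * x * g⁻¹ = x' → g * y * g⁻¹ = y' →
        g * (x * y) * g⁻¹ = x' * y' := by
      intro g x y x' y' e1 e2
      rw [← e1, ← e2]; group
    have a3 : a * a * a = 1 := by rw [← ha]; simp [pow_succ]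
    have b3 : b * b * b = 1 := by rw [← hb]; simp [pow_succ]
    -- images
    have k2 : (m * m) * a * (m * m)⁻¹ = a * a := c1 _ _ _ _ _ h1 h2
    have k3 : (m * (m * m)) * a * (m * (m * m))⁻¹ = b * b := c1 _ _ _ _ _ k2 (cm _ _ _ _ _ h1 h1)
    have k5 : (m' * m) * a * (m' * m)⁻¹ = b * b * a := c1 _ _ _ _ _ h1 h4
    have k6 : (m' * (m * m)) * a * (m' * (m * m))⁻¹ = a * b * (a * b) :=
      c1 _ _ _ _ _ k2 (cm _ _ _ _ _ h3 h3)
    have k7 : (m' * (m * (m * m))) * a * (m' * (m * (m * m)))⁻¹ = b * b * a * (b * b * a) :=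
      c1 _ _ _ _ _ k3 (cm _ _ _ _ _ h4 h4)
    intro x hx hx1
    obtain ⟨i, j, hi, hj, rfl⟩ := hrep x hx
    interval_cases i <;> interval_cases j
    · simp at hx1
    · exact ⟨m, by simpa using h1⟩
    · exact ⟨_, k3.trans (by simp [pow_two])⟩
    · exact ⟨1, by simp⟩
    · exact ⟨m', by simpa using h3⟩
    · refine ⟨_, k5.trans ?_⟩
      simp only [pow_one, pow_two]
      rw [mul_assoc, ← hab, ← mul_assoc, ← hab, mul_assoc]
    · exact ⟨_, k2.trans (by simp [pow_two])⟩
    · refine ⟨_, k7.trans ?_⟩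
      simp only [pow_one, pow_two]
      have e1 : b * b * a = a * (b * b) := by
        rw [mul_assoc, ← hab, ← mul_assoc, ← hab, mul_assoc]
      rw [e1]
      calc a * (b * b) * (a * (b * b)) = a * (b * b * a) * (b * b) := by group
        _ = a * (a * (b * b)) * (b * b) := by rw [e1]
        _ = a * a * b * (b * b * b) := by group
        _ = a * a * b := by rw [b3, mul_one]
    · refine ⟨_, k6.trans ?_⟩
      simp only [pow_two]
      calc a * b * (a * b) = a * (b * a) * b := by group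
        _ = a * (a * b) * b := by rw [hab]
        _ = a * a * (b * b) := by group
  -- Sylow
  have hNp : IsPGroup 3 N := by
    intro x
    refine ⟨1, ?_⟩
    apply Subtype.ext
    simpa using hN3 x.1 x.2
  have hXp : IsPGroup 3 X := IsPGroup.of_card (n := 1) (by simpa using hX)
  obtain ⟨Q, hNQ⟩ := hNp.exists_le_sylow
  obtain ⟨P, hXP⟩ := hXp.exists_le_sylow
  have hQ9 : Nat.card Q ≤ 9 := by
    obtain ⟨k, hk⟩ := (IsPGroup.iff_card).mp Q.2
    have hdvd : Nat.card Q ∣ Nat.card G := Subgroup.card_subgroup_dvd_card _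
    have hk2 : k ≤ 2 := by
      by_contra hcon
      have : 3 ^ 3 ∣ 3 ^ k := pow_dvd_pow 3 (by omega)
      rw [← hk] at this
      exact hG (this.trans hdvd)
    rw [hk]
    calc 3 ^ k ≤ 3 ^ 2 := Nat.pow_le_pow_right (by norm_num) hk2
      _ = 9 := by norm_num
  have hNQ' : N = Q := Subgroup.eq_of_le_of_card_ge hNQ (by rw [hN9]; exact hQ9)
  obtain ⟨g, hg⟩ := MulAction.exists_smul_eq G P Q
  -- generator of X
  obtain ⟨x, hxX, hx1⟩ : ∃ x ∈ X, x ≠ 1 := by
    by_contra hcon
    push Not at hcon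
    have : X = ⊥ := by
      rw [eq_bot_iff]; intro x hx; exact hcon x hx
    rw [this] at hX
    simp at hX
  have hx3 : x ^ 3 = 1 := by
    have := pow_card_eq_one' (G := X) (x := ⟨x, hxX⟩)
    rw [hX] at this
    simpa using congrArg Subtype.val this
  have hXz : Subgroup.zpowers x = X := by
    apply Subgroup.eq_of_le_of_card_ge
    · rw [Subgroup.zpowers_le]; exact hxX
    · rw [hX, Nat.card_zpowers, orderOf_eq_prime hx3 hx1]
  have hy : g * x * g⁻¹ ∈ N := by
    rw [hNQ', ← hg, Sylow.coe_subgroup_smul]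
    have : g * x * g⁻¹ = MulAut.conj g • x := rfl
    rw [this, Subgroup.smul_mem_pointwise_smul_iff]
    exact hXP hxX
  have hy1 : g * x * g⁻¹ ≠ 1 := by
    intro h
    apply hx1
    have : x = g⁻¹ * (g * x * g⁻¹) * g := by group
    rw [this, h]; group
  obtain ⟨h, hh⟩ := htr _ hy hy1
  refine ⟨h⁻¹ * g, ?_⟩
  rw [← hXz, conj_smul_zpowers]
  congr 1
  have : a = h⁻¹ * (h * a * h⁻¹) * h := by group
  rw [this, hh]; group

end Cfsg.Agent.H14
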