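import Mathlib
import Cfsg.Prelude.Def_TwoFusion
import Cfsg.Agent.H14.RecogS4b
import Cfsg.Agent.H14.Unipotent

set_option autoImplicit false
set_option linter.unusedSimpArgs false
set_option linter.unusedVariables false

/-! The natural `SL₂(F)`-module inside a group, in normalised coordinates. -/

namespace Cfsg.Agent.H14.NatSL2

variable {F : Type*} [Field F]

local notation "SL2" => Matrix.SpecialLinearGroup (Fin 2) F
local notation "M2" => Matrix (Fin 2) (Fin 2) F

theorem sub_one_sq (g : SL2) (v : Fin 2 → F) (hv : v ≠ 0) (h : (g : M2).mulVec v = v) :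
    ((g : M2) - 1) ^ 2 = 0 := by
  have hd := g.2
  rw [Matrix.det_fin_two] at hd
  have h0 := congrFun h 0
  have h1 := congrFun h 1
  simp [Matrix.mulVec, dotProduct, Fin.sum_univ_two] at h0 h1
  have htr : (g : M2) 0 0 + (g : M2) 1 1 = 2 := by
    have hx : (2 - (g : M2) 0 0 - (g : M2) 1 1) * v 0 = 0 := by
      linear_combination ((g : M2) 1 1 - 1) * h0 - (g : M2) 0 1 * h1 - v 0 * hd
    have hy : (2 - (g : M2) 0 0 - (g : M2) 1 1) * v 1 = 0 := by
      linear_combination ((g : M2) 0 0 - 1) * h1 - (g : M2) 1 0 * h0 - v 1 * hd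
    by_contra hne
    have hne' : 2 - (g : M2) 0 0 - (g : M2) 1 1 ≠ 0 := by
      intro h'
      apply hne
      linear_combination -h'
    apply hv
    funext i
    fin_cases i
    · simpa [hne'] using hx
    · simpa [hne'] using hy
  have hd11 : (g : M2) 1 1 = 2 - (g : M2) 0 0 := by linear_combination htr
  ext i j
  fin_cases i <;> fin_cases j <;>
    simp [pow_two, Matrix.mul_apply, Fin.sum_univ_two, Matrix.one_apply, hd11]
  · rw [hd11] at hd; linear_combination -hd
  · ring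
  · ring
  · rw [hd11] at hd; linear_combination -hd

theorem core {G : Type*} [Group G] [Finite G] {p : ℕ} [Fact p.Prime] [CharP F p]
    (V L : Subgroup G) (ρ : L →* SL2) (Ψ : V → (Fin 2 → F))
    (hinj : Function.Injective ρ) (hsurj : Function.Surjective ρ)
    (hΨmul : ∀ x y, Ψ (x * y) = Ψ x + Ψ y) (hΨinj : Function.Injective Ψ)
    (hΨsurj : Function.Surjective Ψ)
    (hconj : ∀ (l : L) (x : V), ∃ w : V, (w : G) = (l : G) * x * (l : G)⁻¹ ∧
      Ψ w = (ρ l : M2).mulVec (Ψ x))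
    (T : Subgroup G)
    (hT : ∀ t : G, t ∈ T ↔ ∃ l : L, (l : G) = t ∧ (ρ l : M2) 0 0 = 1 ∧ (ρ l : M2) 1 0 = 0) :
    (∀ g ∈ L, g ∉ Subgroup.normalizer (T : Set G) → Cfsg.IsInternalDirectProduct (V ⊓ Subgroup.centralizer ((T : Subgroup G) : Set G)) (V ⊓ Subgroup.centralizer ((T.map (MulAut.conj g).toMonoidHom : Subgroup G) : Set G)) V) ∧ (∀ x ∈ L, x ≠ 1 → (orderOf x).Coprime p → (V ⊓ Subgroup.centralizer ({x} : Set G)) = ⊥) ∧ (∀ U : Subgroup G, U ≤ (V ⊓ Subgroup.centralizer ((T : Subgroup G) : Set G)) → L ⊓ Subgroup.normalizer (T : Set G) ≤ Subgroup.normalizer (U : Set G) → U = ⊥ ∨ U = (V ⊓ Subgroup.centralizer ((T : Subgroup G) : Set G))) ∧ (∀ U : Subgroup G, (V ⊓ Subgroup.centralizer ((T : Subgroup G) : Set G)) ≤ U → U ≤ V → L ⊓ Subgroup.normalizer (T : Set G) ≤ Subgroup.normalizer (U : Set G) → U = (V ⊓ Subgroup.centralizer ((T : Subgroup G) : Set G)) ∨ U = V) := by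
  classical
  have hΨone : Ψ 1 = 0 := by
    have := hΨmul 1 1
    rw [mul_one] at this
    exact (add_eq_left.mp this.symm)
  have hΨinv : ∀ x, Ψ x⁻¹ = - Ψ x := by
    intro x
    have := hΨmul x x⁻¹
    rw [mul_inv_cancel, hΨone] at this
    exact (neg_eq_of_add_eq_zero_right this.symm).symm
  have hfix : ∀ (l : L) (x : V), (l : G) * x = x * l ↔ (ρ l : M2).mulVec (Ψ x) = Ψ x := by
    intro l x
    obtain ⟨w, hw, hw'⟩ := hconj l x
    constructor
    · intro h
      have : w = x := by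
        apply Subtype.ext
        rw [hw, h, mul_inv_cancel_right]
      rw [← hw', this]
    · intro h
      have : w = x := hΨinj (hw'.trans h)
      rw [this] at hw
      calc (l : G) * x = (l : G) * x * (l : G)⁻¹ * l := by group
        _ = x * l := by rw [← hw]
  have hmv : ∀ (A : M2) (v : Fin 2 → F) (i : Fin 2), A.mulVec v i = A i 0 * v 0 + A i 1 * v 1 := by
    intro A v i
    simp [Matrix.mulVec, dotProduct, Fin.sum_univ_two]
  have hCT : ∀ x : V, (x : G) ∈ Subgroup.centralizer (T : Set G) ↔ Ψ x 1 = 0 := by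
    intro x
    rw [Subgroup.mem_centralizer_iff]
    constructor
    · intro h
      obtain ⟨l, hl⟩ := hsurj ⟨!![1, 1; 0, 1], by simp [Matrix.det_fin_two]⟩
      have hlT : (l : G) ∈ T := (hT _).mpr ⟨l, rfl, by rw [hl]; simp, by rw [hl]; simp⟩
      have h1 := (hfix l x).mp (h _ hlT)
      have h2 := congrFun h1 0
      rw [hmv, hl] at h2
      simpa using h2
    · intro h t ht
      obtain ⟨l, rfl, h00, h10⟩ := (hT _).mp ht
      rw [hfix]
      funext i
      rw [hmv, h]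
      fin_cases i
      · simp [h00]
      · simp [h10, h]
  -- upper triangular elements normalise `T`
  have hnorm : ∀ g : L, (ρ g : M2) 1 0 = 0 → (g : G) ∈ Subgroup.normalizer (T : Set G) := by
    intro g hg
    apply Cfsg.Agent.H14.mem_normalizer_of_conj_mem'
    intro t ht
    obtain ⟨l, rfl, h00, h10⟩ := (hT _).mp ht
    have hd := (ρ g).2
    rw [Matrix.det_fin_two, hg] at hd
    refine (hT _).mpr ⟨g * l * g⁻¹, by simp, ?_, ?_⟩
    · rw [map_mul, map_mul, map_inv, Matrix.SpecialLinearGroup.coe_mul,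
        Matrix.SpecialLinearGroup.coe_mul, Matrix.SpecialLinearGroup.coe_inv, Matrix.adjugate_fin_two]
      simp [Matrix.mul_apply, Fin.sum_univ_two, h00, h10, hg]
      linear_combination hd
    · rw [map_mul, map_mul, map_inv, Matrix.SpecialLinearGroup.coe_mul,
        Matrix.SpecialLinearGroup.coe_mul, Matrix.SpecialLinearGroup.coe_inv, Matrix.adjugate_fin_two]
      simp [Matrix.mul_apply, Fin.sum_univ_two, h00, h10, hg]
  have hVcomm : ∀ a ∈ V, ∀ b ∈ V, a * b = b * a := by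
    intro a ha b hb
    have : (⟨a, ha⟩ * ⟨b, hb⟩ : V) = ⟨b, hb⟩ * ⟨a, ha⟩ := by
      apply hΨinj
      rw [hΨmul, hΨmul, add_comm]
    exact congrArg Subtype.val this
  -- diagonal elements
  have hdiag : ∀ a : F, a ≠ 0 → ∃ l : L, (l : G) ∈ L ⊓ Subgroup.normalizer (T : Set G) ∧
      ∀ x : V, ∃ w : V, (w : G) = (l : G) * x * (l : G)⁻¹ ∧ Ψ w 0 = a * Ψ x 0 ∧ Ψ w 1 = a⁻¹ * Ψ x 1 := by
    intro a ha
    obtain ⟨l, hl⟩ := hsurj ⟨!![a, 0; 0, a⁻¹], by simp [Matrix.det_fin_two, ha]⟩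
    refine ⟨l, ⟨l.2, hnorm l (by rw [hl]; simp)⟩, ?_⟩
    intro x
    obtain ⟨w, hw, hw'⟩ := hconj l x
    refine ⟨w, hw, ?_, ?_⟩
    · rw [hw', hmv, hl]; simp
    · rw [hw', hmv, hl]; simp
  refine ⟨?_, ?_, ?_, ?_⟩
  · intro g hg hgN
    have hc : (ρ ⟨g, hg⟩ : M2) 1 0 ≠ 0 := fun h => hgN (hnorm ⟨g, hg⟩ h)
    obtain ⟨a, ha⟩ : ∃ a, a = (ρ ⟨g, hg⟩ : M2) 0 0 := ⟨_, rfl⟩
    obtain ⟨c, hc'⟩ : ∃ c, c = (ρ ⟨g, hg⟩ : M2) 1 0 := ⟨_, rfl⟩
    have hc0 : c ≠ 0 := by rw [hc']; exact hc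
    have hCTg : ∀ x : V, (x : G) ∈ Subgroup.centralizer
        ((T.map (MulAut.conj g).toMonoidHom : Subgroup G) : Set G) ↔ a * Ψ x 1 - c * Ψ x 0 = 0 := by
      intro x
      obtain ⟨w, hw, hw'⟩ := hconj (⟨g, hg⟩⁻¹ : L) x
      have hw2 : (w : G) = g⁻¹ * x * g := by rw [hw]; simp
      have h1 : (x : G) ∈ Subgroup.centralizer
          ((T.map (MulAut.conj g).toMonoidHom : Subgroup G) : Set G) ↔
          (w : G) ∈ Subgroup.centralizer (T : Set G) := by
        rw [Subgroup.mem_centralizer_iff, Subgroup.mem_centralizer_iff, hw2]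
        constructor
        · intro h t ht
          have := h (g * t * g⁻¹) ⟨t, ht, rfl⟩
          calc t * (g⁻¹ * x * g) = g⁻¹ * ((g * t * g⁻¹) * x) * g := by group
            _ = g⁻¹ * (x * (g * t * g⁻¹)) * g := by rw [this]
            _ = g⁻¹ * x * g * t := by group
        · rintro h _ ⟨t, ht, rfl⟩
          have := h t ht
          show g * t * g⁻¹ * x = x * (g * t * g⁻¹)
          calc g * t * g⁻¹ * x = g * (t * (g⁻¹ * x * g)) * g⁻¹ := by group
            _ = g * ((g⁻¹ * x * g) * t) * g⁻¹ := by rw [this]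
            _ = x * (g * t * g⁻¹) := by group
      rw [h1, hCT, hw', hmv, map_inv, Matrix.SpecialLinearGroup.coe_inv, Matrix.adjugate_fin_two]
      simp [← ha, ← hc']
      constructor <;> intro h <;> linear_combination h
    refine ⟨inf_le_left, inf_le_left, ?_, ?_, ?_⟩
    · intro x hx y hy
      exact hVcomm x hx.1 y hy.1
    · rw [eq_bot_iff]
      intro x hx
      obtain ⟨⟨hxV, hx1⟩, ⟨_, hx2⟩⟩ := hx
      have e1 := (hCT ⟨x, hxV⟩).mp hx1
      have e2 := (hCTg ⟨x, hxV⟩).mp hx2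
      rw [e1] at e2
      have e3 : Ψ ⟨x, hxV⟩ 0 = 0 := by
        have : c * Ψ ⟨x, hxV⟩ 0 = 0 := by linear_combination -e2
        rcases mul_eq_zero.mp this with h | h
        · exact absurd h hc0
        · exact h
      have : (⟨x, hxV⟩ : V) = 1 := by
        apply hΨinj
        rw [hΨone]
        funext i
        fin_cases i
        · exact e3
        · exact e1
      exact congrArg Subtype.val this
    · apply le_antisymm (sup_le inf_le_left inf_le_left)
      intro x hxV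
      obtain ⟨y, hy⟩ := hΨsurj ![Ψ ⟨x, hxV⟩ 0 - a * Ψ ⟨x, hxV⟩ 1 / c, 0]
      obtain ⟨y', hy'⟩ := hΨsurj ![a * Ψ ⟨x, hxV⟩ 1 / c, Ψ ⟨x, hxV⟩ 1]
      have hxy : (⟨x, hxV⟩ : V) = y * y' := by
        apply hΨinj
        rw [hΨmul, hy, hy']
        funext i
        fin_cases i <;> simp
      have : x = (y : G) * y' := congrArg Subtype.val hxy
      rw [this]
      apply Subgroup.mul_mem_sup
      · exact ⟨y.2, (hCT y).mpr (by rw [hy]; simp)⟩
      · refine ⟨y'.2, (hCTg y').mpr ?_⟩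
        rw [hy']
        simp
        field_simp
        ring
  · intro x hx hx1 hcop
    rw [eq_bot_iff]
    intro v hv
    obtain ⟨hvV, hvC⟩ := hv
    rw [Subgroup.mem_bot]
    by_contra hv1
    have hcomm := Subgroup.mem_centralizer_singleton_iff.mp hvC
    have h1 := (hfix ⟨x, hx⟩ ⟨v, hvV⟩).mp hcomm.symm
    have hne : Ψ ⟨v, hvV⟩ ≠ 0 := by
      intro h0
      apply hv1
      have : (⟨v, hvV⟩ : V) = 1 := hΨinj (h0.trans hΨone.symm)
      exact congrArg Subtype.val this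
    have h2 := sub_one_sq _ _ hne h1
    have h3 := Cfsg.Agent.H14.pow_char_pow_eq_one_of_sub_one_pow p (ρ ⟨x, hx⟩ : M2) 1 2
      (by rw [pow_one]; exact (Fact.out : p.Prime).two_le) h2
    rw [pow_one] at h3
    have h4 : (⟨x, hx⟩ : L) ^ p = 1 := by
      apply hinj
      rw [map_pow, map_one]
      apply Subtype.ext
      rw [Matrix.SpecialLinearGroup.coe_pow, h3]
      rfl
    have h5 : x ^ p = 1 := congrArg Subtype.val h4
    have h6 := orderOf_dvd_of_pow_eq_one h5
    have h7 : orderOf x = 1 := Nat.Coprime.eq_one_of_dvd hcop h6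
    exact hx1 (orderOf_eq_one_iff.mp h7)
  · intro U hU hN
    by_cases hbot : U = ⊥
    · exact Or.inl hbot
    right
    apply le_antisymm hU
    obtain ⟨u, huU, hu1⟩ : ∃ u ∈ U, u ≠ 1 := by
      by_contra hcon
      push Not at hcon
      exact hbot ((Subgroup.eq_bot_iff_forall U).mpr hcon)
    obtain ⟨huV, huC⟩ := hU huU
    have hu' := (hCT ⟨u, huV⟩).mp huC
    have hu0 : Ψ ⟨u, huV⟩ 0 ≠ 0 := by
      intro h0
      apply hu1
      have : (⟨u, huV⟩ : V) = 1 := by
        apply hΨinj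
        rw [hΨone]
        funext i
        fin_cases i
        · exact h0
        · exact hu'
      exact congrArg Subtype.val this
    intro y hy
    obtain ⟨hyV, hyC⟩ := hy
    have hy' := (hCT ⟨y, hyV⟩).mp hyC
    by_cases hy0 : Ψ ⟨y, hyV⟩ 0 = 0
    · have : (⟨y, hyV⟩ : V) = 1 := by
        apply hΨinj
        rw [hΨone]
        funext i
        fin_cases i
        · exact hy0
        · exact hy'
      have : y = 1 := congrArg Subtype.val this
      rw [this]
      exact U.one_mem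
    · obtain ⟨l, hl, hlx⟩ := hdiag (Ψ ⟨y, hyV⟩ 0 / Ψ ⟨u, huV⟩ 0) (div_ne_zero hy0 hu0)
      obtain ⟨w, hw, hw0, hw1⟩ := hlx ⟨u, huV⟩
      have hwy : w = ⟨y, hyV⟩ := by
        apply hΨinj
        funext i
        fin_cases i
        · show Ψ w 0 = Ψ ⟨y, hyV⟩ 0
          rw [hw0]
          field_simp
        · show Ψ w 1 = Ψ ⟨y, hyV⟩ 1
          rw [hw1, hu', hy']
          simp
      have hmem : (l : G) * u * (l : G)⁻¹ ∈ U := (Subgroup.mem_normalizer_iff.mp (hN hl) u).mp huU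
      have : y = (l : G) * u * (l : G)⁻¹ := by
        have := congrArg Subtype.val hwy
        rw [hw] at this
        exact this.symm
      rw [this]
      exact hmem
  · intro U hU1 hU2 hN
    by_cases hle : U ≤ V ⊓ Subgroup.centralizer (T : Set G)
    · exact Or.inl (le_antisymm hle hU1)
    right
    apply le_antisymm hU2
    obtain ⟨u, huU, hunot⟩ := SetLike.not_le_iff_exists.mp hle
    have huV := hU2 huU
    have hu1 : Ψ ⟨u, huV⟩ 1 ≠ 0 := by
      intro h0
      exact hunot ⟨huV, (hCT ⟨u, huV⟩).mpr h0⟩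
    intro y hyV
    by_cases hy1 : Ψ ⟨y, hyV⟩ 1 = 0
    · exact hU1 ⟨hyV, (hCT ⟨y, hyV⟩).mpr hy1⟩
    · obtain ⟨l, hl, hlx⟩ := hdiag (Ψ ⟨u, huV⟩ 1 / Ψ ⟨y, hyV⟩ 1) (div_ne_zero hu1 hy1)
      obtain ⟨w, hw, hw0, hw1⟩ := hlx ⟨u, huV⟩
      have hmem : (w : G) ∈ U := by
        rw [hw]
        exact (Subgroup.mem_normalizer_iff.mp (hN hl) u).mp huU
      have h2 : ((⟨y, hyV⟩ * w⁻¹ : V) : G) ∈ U := by
        apply hU1
        refine ⟨(⟨y, hyV⟩ * w⁻¹ : V).2, (hCT _).mpr ?_⟩
        rw [hΨmul, hΨinv, Pi.add_apply, Pi.neg_apply, hw1]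
        field_simp
        ring
      have : y = ((⟨y, hyV⟩ * w⁻¹ : V) : G) * w := by simp
      rw [this]
      exact U.mul_mem h2 hmem

end Cfsg.Agent.H14.NatSL2
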