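import Mathlib
import Cfsg.Agent.H14.PSL2Klein
import Cfsg.Agent.H14.SL2Syl2
import Cfsg.Agent.H14.SL2Count
import Cfsg.Agent.Lib.Helper18.A5Pres

set_option autoImplicit false

/-! `A₅` inside `PSL₂(q)`. -/

namespace Cfsg.Agent.H14

open Matrix

variable {F : Type*} [Field F]

local notation "SL2" => Matrix.SpecialLinearGroup (Fin 2) F
local notation "PSL2" => Matrix.ProjectiveSpecialLinearGroup (Fin 2) F
local notation "M2" => Matrix (Fin 2) (Fin 2) F

theorem sl2_pow_two_coe (g : SL2) : (g ^ 2).1 = g.1.trace • g.1 - 1 := by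
  rw [pow_two, Matrix.SpecialLinearGroup.coe_mul, sl2_mul_self]

theorem sl2_pow_three_coe (g : SL2) :
    (g ^ 3).1 = (g.1.trace ^ 2 - 1) • g.1 - g.1.trace • (1 : M2) := by
  rw [pow_succ, Matrix.SpecialLinearGroup.coe_mul, sl2_pow_two_coe, sub_mul, smul_mul_assoc,
    sl2_mul_self, one_mul]
  module

theorem sl2_pow_four_coe (g : SL2) :
    (g ^ 4).1 = (g.1.trace ^ 3 - 2 * g.1.trace) • g.1 - (g.1.trace ^ 2 - 1) • (1 : M2) := by
  rw [pow_succ, Matrix.SpecialLinearGroup.coe_mul, sl2_pow_three_coe, sub_mul, smul_mul_assoc,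
    smul_mul_assoc, sl2_mul_self, one_mul]
  module

theorem sl2_pow_five_coe (g : SL2) :
    (g ^ 5).1 = (g.1.trace ^ 4 - 3 * g.1.trace ^ 2 + 1) • g.1 -
      (g.1.trace ^ 3 - 2 * g.1.trace) • (1 : M2) := by
  rw [pow_succ, Matrix.SpecialLinearGroup.coe_mul, sl2_pow_four_coe, sub_mul, smul_mul_assoc,
    smul_mul_assoc, sl2_mul_self, one_mul]
  module

theorem pj_eq_one_iff_isScal (x : SL2) : pj x = 1 ↔ IsScal x.1 := by
  rw [pj_eq_one_iff, isScal_iff_eq]

theorem golden_of_orderOf_five (Y : SL2) (hY : orderOf Y = 5) :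
    Y.1.trace ^ 2 + Y.1.trace - 1 = 0 := by
  have h5 : Y ^ 5 = 1 := by rw [← hY]; exact pow_orderOf_eq_one Y
  have h := sl2_pow_five_coe Y
  rw [h5] at h
  obtain ⟨τ, hτ⟩ : ∃ τ, τ = Y.1.trace := ⟨_, rfl⟩
  rw [← hτ] at h ⊢
  have e00 := congrFun (congrFun h 0) 0
  have e01 := congrFun (congrFun h 0) 1
  have e10 := congrFun (congrFun h 1) 0
  have e11 := congrFun (congrFun h 1) 1
  simp at e00 e01 e10 e11
  have hns : ¬ IsScal Y.1 := by
    rw [isScal_iff_eq]
    rintro (h1 | h1)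
    · rw [h1, orderOf_one] at hY
      omega
    · have : Y ^ 2 = 1 := by rw [h1, pow_two, dg_neg_one_mul_self]
      have := orderOf_dvd_of_pow_eq_one this
      rw [hY] at this
      omega
  have hU : τ ^ 4 - 3 * τ ^ 2 + 1 = 0 := by
    by_contra hne
    apply hns
    refine ⟨?_, ?_, ?_⟩
    · exact e01.resolve_left hne
    · exact e10.resolve_left hne
    · apply mul_left_cancel₀ hne
      linear_combination e11 - e00
  rw [hU] at e00
  have h1 : τ - 1 ≠ 0 := by
    intro h1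
    have : τ = 1 := by linear_combination h1
    rw [this] at hU
    norm_num at hU
  apply mul_left_cancel₀ h1
  linear_combination e00

variable [Fintype F]

local notation "q" => Fintype.card F

theorem exists_golden (h5 : 5 ∣ q * (q ^ 2 - 1)) : ∃ τ : F, τ ^ 2 + τ - 1 = 0 := by
  classical
  have h : 5 ∣ Fintype.card SL2 := by
    rw [card_sl2]
    have : q ^ 2 - 1 = (q - 1) * (q + 1) := by
      have hq : 1 ≤ q := Fintype.card_pos
      obtain ⟨k, hk⟩ : ∃ k, q = k + 1 := ⟨q - 1, by omega⟩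
      rw [hk]
      simp only [Nat.add_sub_cancel]
      have : (k + 1) ^ 2 = k * (k + 1 + 1) + 1 := by ring
      rw [this, Nat.add_sub_cancel]
    rwa [mul_assoc, ← this]
  haveI : Fact (Nat.Prime 5) := ⟨by norm_num⟩
  obtain ⟨Y, hY⟩ := exists_prime_orderOf_dvd_card 5 h
  exact ⟨_, golden_of_orderOf_five Y hY⟩

theorem exists_conic_point (τ : F) : ∃ c d : F, c ^ 2 - τ * c * d + d ^ 2 - d + 1 = 0 := by
  by_cases h2 : (2 : F) = 0
  · exact ⟨1, 0, by linear_combination h2⟩
  by_cases h4 : 1 - τ ^ 2 / 4 = 0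
  · refine ⟨τ / 2, 1, ?_⟩
    have h4' : (4 : F) ≠ 0 := by
      have : (4 : F) = 2 * 2 := by norm_num
      rw [this]; exact mul_ne_zero h2 h2
    field_simp at h4 ⊢
    linear_combination h4
  · have hodd : q % 2 = 1 := by
      rcases Nat.mod_two_eq_zero_or_one q with h | h
      · exfalso
        apply h2
        have h3 : ((q : ℕ) : F) = 0 := Nat.cast_card_eq_zero F
        obtain ⟨p, hp⟩ := CharP.exists F
        haveI := hp
        haveI hpp : Fact p.Prime := ⟨CharP.char_is_prime F p⟩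
        obtain ⟨n, hn1, hn2⟩ := FiniteField.card F p
        have : 2 ∣ p ^ (n : ℕ) := by rw [← hn2]; omega
        have h2p : 2 ∣ p := Nat.Prime.dvd_of_dvd_pow Nat.prime_two this
        have : p = 2 := ((Nat.prime_dvd_prime_iff_eq Nat.prime_two hn1).mp h2p).symm
        subst this
        exact_mod_cast CharP.cast_eq_zero F 2
      · exact h
    have hf : (Polynomial.C (1 : F) * Polynomial.X ^ 2 + Polynomial.C 0 * Polynomial.X +
      Polynomial.C 0).degree = 2 := Polynomial.degree_quadratic one_ne_zero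
    have hg : (Polynomial.C (1 - τ ^ 2 / 4) * Polynomial.X ^ 2 + Polynomial.C (-1 : F) * Polynomial.X +
      Polynomial.C 1).degree = 2 := Polynomial.degree_quadratic h4
    obtain ⟨a, b, hab⟩ := FiniteField.exists_root_sum_quadratic hf hg hodd
    simp at hab
    refine ⟨a + τ * b / 2, b, ?_⟩
    have h4' : (4 : F) ≠ 0 := by
      have : (4 : F) = 2 * 2 := by norm_num
      rw [this]; exact mul_ne_zero h2 h2
    field_simp at hab ⊢
    linear_combination hab

theorem exists_A5_subgroup (h5 : 5 ∣ q * (q ^ 2 - 1)) :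
    ∃ H : Subgroup PSL2, Nonempty (H ≃* alternatingGroup (Fin 5)) := by
  obtain ⟨τ, hτ⟩ := exists_golden h5
  obtain ⟨c, d, hcd⟩ := exists_conic_point τ
  let X : SL2 := mkSL !![1 - d, c - d * τ; c, d] (by
    rw [Matrix.det_fin_two_of]; linear_combination -hcd)
  let Y : SL2 := mkSL !![0, -1; 1, τ] (by rw [Matrix.det_fin_two_of]; ring)
  have tX : X.1.trace = 1 := by
    simp [X, Matrix.trace_fin_two]
  have tY : Y.1.trace = τ := by
    simp [Y, Matrix.trace_fin_two]
  have tXY : (X * Y).1.trace = 0 := by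
    simp [X, Y, Matrix.trace_fin_two, Matrix.mul_apply, Fin.sum_univ_two]
  have hX : pj X ^ 3 = 1 := by
    change pj (X ^ 3) = 1
    rw [pj_eq_one_iff_isScal, sl2_pow_three_coe, tX]
    refine ⟨?_, ?_, ?_⟩ <;> simp
  have hY : pj Y ^ 5 = 1 := by
    change pj (Y ^ 5) = 1
    have h1 : τ ^ 4 - 3 * τ ^ 2 + 1 = 0 := by linear_combination (τ ^ 2 - τ - 1) * hτ
    rw [pj_eq_one_iff_isScal, sl2_pow_five_coe, tY, h1]
    refine ⟨?_, ?_, ?_⟩ <;> simp
  have hXY : (pj X * pj Y) ^ 2 = 1 := by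
    change pj ((X * Y) ^ 2) = 1
    rw [pj_eq_one_iff_isScal, sl2_pow_two_coe, tXY]
    refine ⟨?_, ?_, ?_⟩ <;> simp
  have hY1 : pj Y ≠ 1 := by
    rw [Ne, pj_eq_one_iff_isScal]
    intro h
    have := h.2.1
    simp [Y] at this
  obtain ⟨φ, h1, h2⟩ := Cfsg.Agent.Lib.Helper18.exists_hom_A5 (pj X) (pj Y) hX hY hXY
  have hinj : Function.Injective φ := by
    rw [← MonoidHom.ker_eq_bot_iff]
    rcases φ.normal_ker.eq_bot_or_eq_top with h | h
    · exact h
    · exfalso
      apply hY1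
      rw [← h2, ← MonoidHom.mem_ker, h]
      trivial
  exact ⟨φ.range, ⟨(MonoidHom.ofInjective hinj).symm⟩⟩

theorem dvd_of_A5_subgroup (H : Subgroup PSL2) (e : H ≃* alternatingGroup (Fin 5)) :
    5 ∣ q * (q ^ 2 - 1) := by
  classical
  have h1 : Nat.card H = 60 := by
    rw [Nat.card_congr e.toEquiv, Cfsg.Agent.Lib.Helper18.card_A5]
  have h2 : Nat.card H ∣ Nat.card PSL2 := Subgroup.card_subgroup_dvd_card H
  have h3 : Nat.card PSL2 ∣ Nat.card SL2 := Subgroup.card_quotient_dvd_card _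
  rw [Nat.card_eq_fintype_card (α := SL2), card_sl2] at h3
  have : q ^ 2 - 1 = (q - 1) * (q + 1) := by
    have hq : 1 ≤ q := Fintype.card_pos
    obtain ⟨k, hk⟩ : ∃ k, q = k + 1 := ⟨q - 1, by omega⟩
    rw [hk]
    simp only [Nat.add_sub_cancel]
    have : (k + 1) ^ 2 = k * (k + 1 + 1) + 1 := by ring
    rw [this, Nat.add_sub_cancel]
  rw [this, ← mul_assoc]
  rw [h1] at h2
  exact Dvd.dvd.trans (by norm_num) (h2.trans h3)

end Cfsg.Agent.H14
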