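import Mathlib
import Cfsg.Agent.H14.SL2Tori
import Cfsg.Agent.H14.GL2Syl2
import Cfsg.Agent.H14.PSL2A5

set_option autoImplicit false

/-! Odd order subgroups of `SL₂(F)` and `GL₂(F)`, `F` any field of odd characteristic `p`:
the `p`-elements form a normal `p`-subgroup. -/

namespace Cfsg.Agent.H14

open Matrix

theorem exists_central_elt {K : Type*} [Group K] {r : ℕ} [Fact r.Prime] (R : Subgroup K) [Finite R]
    (hR : IsPGroup r R) (hne : R ≠ ⊥) : ∃ z ∈ R, z ≠ 1 ∧ ∀ y ∈ R, y * z = z * y := by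
  haveI : Nontrivial R := (Subgroup.nontrivial_iff_ne_bot R).mpr hne
  haveI := hR.center_nontrivial
  obtain ⟨z, hz⟩ := exists_ne (1 : Subgroup.center R)
  refine ⟨((z : R) : K), (z : R).2, ?_, ?_⟩
  · intro h
    apply hz
    apply Subtype.ext
    apply Subtype.ext
    exact h
  · intro y hy
    have := Subgroup.mem_center_iff.mp z.2 ⟨y, hy⟩
    exact congrArg Subtype.val this

/-- If all Sylow `r`-subgroups, `r ≠ p`, are central in their normalisers, the `p`-elements generate
a `p`-group. -/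
theorem isPGroup_closure_pElements {G : Type*} [Group G] [Finite G] (p : ℕ) [Fact p.Prime]
    (h : ∀ (r : ℕ) [Fact r.Prime], r ≠ p → ∀ R : Sylow r G,
      Subgroup.normalizer ((R : Subgroup G) : Set G) ≤ Subgroup.centralizer ((R : Subgroup G) : Set G)) :
    IsPGroup p (Subgroup.closure {u : G | ∃ k : ℕ, u ^ p ^ k = 1}) := by
  set N := Subgroup.closure {u : G | ∃ k : ℕ, u ^ p ^ k = 1} with hN
  have hcard : Nat.card N = p ^ (Nat.card N).primeFactorsList.length := by
    apply Nat.eq_prime_pow_of_unique_prime_dvd Nat.card_pos.ne'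
    intro r hr hrN
    by_contra hne
    haveI : Fact r.Prime := ⟨hr⟩
    obtain ⟨R⟩ : Nonempty (Sylow r G) := inferInstance
    have hR := h r hne R
    have hle : N ≤ (MonoidHom.transferSylow R hR).ker := by
      rw [hN, Subgroup.closure_le]
      rintro u ⟨k, hk⟩
      rw [SetLike.mem_coe, MonoidHom.mem_ker]
      have h1 : (MonoidHom.transferSylow R hR u) ^ p ^ k = 1 := by rw [← map_pow, hk, map_one]
      obtain ⟨j, hj⟩ := R.2 (MonoidHom.transferSylow R hR u)
      have h2 : Nat.Coprime (p ^ k) (r ^ j) :=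
        Nat.Coprime.pow _ _ ((Nat.coprime_primes (Fact.out : p.Prime) hr).mpr (Ne.symm hne))
      have := pow_gcd_eq_one.mpr ⟨h1, hj⟩
      rwa [h2, pow_one] at this
    exact MonoidHom.not_dvd_card_ker_transferSylow R hR (hrN.trans (Subgroup.card_dvd_of_le hle))
  exact IsPGroup.of_card hcard

variable {F : Type*} [Field F]

local notation "SL2" => Matrix.SpecialLinearGroup (Fin 2) F
local notation "M2" => Matrix (Fin 2) (Fin 2) F

theorem pow_coe_of_trace_two (x : SL2) (h : x.1.trace = 2) (k : ℕ) :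
    (x ^ k).1 = 1 + (k : F) • (x.1 - 1) := by
  induction k with
  | zero => simp
  | succ k ih =>
    rw [pow_succ, Matrix.SpecialLinearGroup.coe_mul, ih, add_mul, one_mul, smul_mul_assoc, sub_mul,
      one_mul, sl2_mul_self, h]
    push_cast
    module

theorem pow_char_of_trace_two (p : ℕ) [CharP F p] (x : SL2) (h : x.1.trace = 2) : x ^ p = 1 := by
  apply Subtype.ext
  rw [pow_coe_of_trace_two x h, CharP.cast_eq_zero, zero_smul, add_zero]
  rfl

theorem trace_sq_ne_four_of_coprime (p : ℕ) [CharP F p] (x : SL2) (hx : x ≠ 1) (h2 : Odd (orderOf x))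
    (hp : (orderOf x).Coprime p) : x.1.trace ^ 2 ≠ 4 := by
  intro h
  apply hx
  have h1 : (x ^ 2).1.trace = 2 := by
    rw [sl2_pow_two_coe, Matrix.trace_sub, Matrix.trace_smul, Matrix.trace_one]
    simp only [smul_eq_mul, Fintype.card_fin, Nat.cast_ofNat]
    linear_combination h
  have h3 := pow_char_of_trace_two p (x ^ 2) h1
  rw [← pow_mul] at h3
  have h4 := orderOf_dvd_of_pow_eq_one h3
  have h5 : orderOf x ∣ p := (Nat.Coprime.dvd_mul_left (Nat.coprime_two_right.mpr h2)).mp h4
  have h6 : orderOf x = 1 := Nat.Coprime.eq_one_of_dvd hp h5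
  exact orderOf_eq_one_iff.mp h6

theorem eq_or_eq_inv_of_comm (h2 : (2 : F) ≠ 0) (x y : SL2) (hc : y * x = x * y)
    (ht : y.1.trace = x.1.trace) (hx : x.1.trace ^ 2 ≠ 4) : y = x ∨ y = x⁻¹ := by
  obtain ⟨c, d, h⟩ := exists_lin_of_comm x y (not_isScal_of_trace_sq_ne x hx) hc
  have e1 : 2 * c + d * x.1.trace = x.1.trace := by rw [← trace_lin, ← h, ht]
  have e2 : c ^ 2 + c * d * x.1.trace + d ^ 2 = 1 := by rw [← det_lin, ← h]; exact y.2
  have e3 : (1 - d ^ 2) * (x.1.trace ^ 2 - 4) = 0 := by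
    linear_combination 4 * e2 - (2 * c + x.1.trace + d * x.1.trace) * e1
  have e4 : (d - 1) * (d + 1) = 0 := by
    have := (mul_eq_zero.mp e3).resolve_right (sub_ne_zero.mpr hx)
    linear_combination -this
  rcases mul_eq_zero.mp e4 with h5 | h5
  · left
    have hd : d = 1 := by linear_combination h5
    have hc0 : c = 0 := by
      have : (2 : F) * c = 0 := by rw [hd] at e1; linear_combination e1
      exact (mul_eq_zero.mp this).resolve_left h2
    apply Subtype.ext
    rw [h, hd, hc0, lin_zero_one]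
  · right
    have hd : d = -1 := by linear_combination h5
    have hc0 : c = x.1.trace := by
      have : (2 : F) * (c - x.1.trace) = 0 := by rw [hd] at e1; linear_combination e1
      have := (mul_eq_zero.mp this).resolve_left h2
      linear_combination this
    apply Subtype.ext
    rw [h, hd, hc0, coe_inv_eq_lin]

theorem conj_eq_self_of_odd (p : ℕ) [CharP F p] (h2 : (2 : F) ≠ 0) (x g : SL2) (hg : Odd (orderOf g))
    (hx2 : Odd (orderOf x)) (hxp : (orderOf x).Coprime p)
    (hc : (g * x * g⁻¹) * x = x * (g * x * g⁻¹)) : g * x * g⁻¹ = x := by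
  by_cases hx1 : x = 1
  · subst hx1; simp
  have htr := trace_sq_ne_four_of_coprime p x hx1 hx2 hxp
  have ht : (g * x * g⁻¹).1.trace = x.1.trace :=
    (sl2_trace_eq_of_isConj (isConj_iff.mpr ⟨g, rfl⟩)).symm
  rcases eq_or_eq_inv_of_comm h2 x _ hc ht htr with h | h
  · exact h
  · have h3 : Commute (g ^ 2) x := by
      have : g ^ 2 * x * (g ^ 2)⁻¹ = x := by
        have e : g ^ 2 * x * (g ^ 2)⁻¹ = g * (g * x * g⁻¹) * g⁻¹ := by
          rw [pow_two, _root_.mul_inv_rev]; simp only [mul_assoc]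
        rw [e, h]
        have e' : g * x⁻¹ * g⁻¹ = (g * x * g⁻¹)⁻¹ := by group
        rw [e', h, inv_inv]
      exact mul_inv_eq_iff_eq_mul.mp this
    obtain ⟨m, hm⟩ := hg
    have h4 : (g ^ 2) ^ (m + 1) = g := by
      rw [← pow_mul]
      have : 2 * (m + 1) = orderOf g + 1 := by omega
      rw [this, pow_succ, pow_orderOf_eq_one, one_mul]
    have h5 : Commute g x := by
      have := h3.pow_left (m + 1)
      rwa [h4] at this
    exact mul_inv_eq_iff_eq_mul.mpr h5

theorem normalizer_le_centralizer_of_odd (p : ℕ) [Fact p.Prime] [CharP F p] (hp2 : p ≠ 2)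
    (G : Subgroup SL2) [Finite G] (hodd : Odd (Nat.card G)) (r : ℕ) [Fact r.Prime] (hr : r ≠ p)
    (R : Sylow r G) :
    Subgroup.normalizer ((R : Subgroup G) : Set G) ≤ Subgroup.centralizer ((R : Subgroup G) : Set G) := by
  have h2 : (2 : F) ≠ 0 := by
    intro h
    have h3 : ((2 : ℕ) : F) = 0 := by exact_mod_cast h
    rw [CharP.cast_eq_zero_iff F p] at h3
    exact hp2 ((Nat.prime_dvd_prime_iff_eq (Fact.out : p.Prime) Nat.prime_two).mp h3)
  have hoddall : ∀ y : G, Odd (orderOf (y : SL2)) := by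
    intro y
    rw [Subgroup.orderOf_coe]
    exact Odd.of_dvd_nat hodd (orderOf_dvd_natCard y)
  have hcop : ∀ y : G, y ∈ R → (orderOf (y : SL2)).Coprime p := by
    intro y hy
    obtain ⟨k, hk⟩ := IsPGroup.iff_orderOf.mp R.2 ⟨y, hy⟩
    rw [Subgroup.orderOf_coe, ← Subgroup.orderOf_mk y hy, hk]
    exact Nat.Coprime.pow_left _ ((Nat.coprime_primes (Fact.out : r.Prime) (Fact.out : p.Prime)).mpr hr)
  intro g hg
  rw [Subgroup.mem_centralizer_iff]
  intro x hx
  have hx' : x ∈ R := hx
  by_cases hbot : (R : Subgroup G) = ⊥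
  · have : x = 1 := by
      have : x ∈ (R : Subgroup G) := hx'
      rw [hbot] at this
      exact Subgroup.mem_bot.mp this
    rw [this]; simp
  obtain ⟨z, hzR, hz1, hzc⟩ := exists_central_elt (R : Subgroup G) R.2 hbot
  have hy : g * x * g⁻¹ ∈ R := (Subgroup.mem_normalizer_iff.mp hg x).mp hx'
  have hz1' : (z : SL2) ≠ 1 := fun h => hz1 (Subtype.ext h)
  have hzs : ¬ IsScal (z : SL2).1 :=
    not_isScal_of_trace_sq_ne _ (trace_sq_ne_four_of_coprime p _ hz1' (hoddall z) (hcop z hzR))
  have c1 : (x : SL2) ∈ Subgroup.centralizer ({(z : SL2)} : Set SL2) := by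
    rw [Subgroup.mem_centralizer_singleton_iff]
    exact congrArg Subtype.val (hzc x hx')
  have c2 : ((g * x * g⁻¹ : G) : SL2) ∈ Subgroup.centralizer ({(z : SL2)} : Set SL2) := by
    rw [Subgroup.mem_centralizer_singleton_iff]
    exact congrArg Subtype.val (hzc _ hy)
  have hcomm := centralizer_comm _ hzs c2 c1
  have := conj_eq_self_of_odd p h2 (x : SL2) (g : SL2) (hoddall g) (hoddall x) (hcop x hx') hcomm
  have h5 : g * x * g⁻¹ = x := Subtype.ext this
  exact (mul_inv_eq_iff_eq_mul.mp h5).symm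

theorem trace_two_of_pow_eq_one (p : ℕ) [Fact p.Prime] [CharP F p] (z : SL2) (k : ℕ)
    (hz : z ^ p ^ k = 1) : z.1.trace = 2 := by
  have h1 : (z.1 - 1) ^ p ^ k = 0 := by
    rw [sub_pow_char_pow_of_commute _ _ (Commute.one_right z.1), one_pow, ← Matrix.SpecialLinearGroup.coe_pow,
      hz]
    simp
  have h2 : (z.1 - 1).det = 0 := by
    have := congrArg Matrix.det h1
    rw [Matrix.det_pow, Matrix.det_zero] at this
    exact pow_eq_zero_iff (pow_ne_zero _ (Fact.out : p.Prime).ne_zero) |>.mp this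
  have hdet := sl2_det z
  rw [Matrix.det_fin_two] at h2
  simp at h2
  rw [Matrix.trace_fin_two]
  linear_combination hdet - h2

theorem mem_span_of_fixed (Z : SL2) (hZ : Z ≠ 1) (v w : Fin 2 → F) (hv : v ≠ 0)
    (h1 : Z.1.mulVec v = v) (h2 : Z.1.mulVec w = w) : w ∈ Submodule.span F {v} := by
  have a0 := congrFun h1 0
  have a1 := congrFun h1 1
  have b0 := congrFun h2 0
  have b1 := congrFun h2 1
  simp only [Matrix.mulVec, dotProduct, Fin.sum_univ_two] at a0 a1 b0 b1
  have hD : v 0 * w 1 - w 0 * v 1 = 0 := by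
    by_contra hD
    apply hZ
    apply Subtype.ext
    ext i j
    fin_cases i <;> fin_cases j <;> simp
    · apply mul_left_cancel₀ hD
      linear_combination w 1 * a0 - v 1 * b0
    · apply mul_left_cancel₀ hD
      linear_combination v 0 * b0 - w 0 * a0
    · apply mul_left_cancel₀ hD
      linear_combination w 1 * a1 - v 1 * b1
    · apply mul_left_cancel₀ hD
      linear_combination v 0 * b1 - w 0 * a1
  rw [Submodule.mem_span_singleton]
  by_cases h0 : v 0 = 0
  · have h1' : v 1 ≠ 0 := by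
      intro h
      apply hv
      ext i
      fin_cases i
      · exact h0
      · exact h
    refine ⟨w 1 / v 1, ?_⟩
    ext i
    fin_cases i
    · simp only [Pi.smul_apply, smul_eq_mul, Fin.zero_eta, h0, mul_zero]
      rw [h0] at hD
      have : w 0 * v 1 = 0 := by linear_combination -hD
      exact ((mul_eq_zero.mp this).resolve_right h1').symm
    · simp only [Pi.smul_apply, smul_eq_mul, Fin.mk_one]
      field_simp
  · refine ⟨w 0 / v 0, ?_⟩
    ext i
    fin_cases i
    · simp only [Pi.smul_apply, smul_eq_mul, Fin.zero_eta]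
      field_simp
    · simp only [Pi.smul_apply, smul_eq_mul, Fin.mk_one]
      field_simp
      linear_combination -hD

theorem mem_span_of_eigen (Z : SL2) (hZ : Z ≠ 1) (htr : Z.1.trace = 2) (v w : Fin 2 → F) (hv : v ≠ 0)
    (h1 : Z.1.mulVec v = v) (e : F) (h2 : Z.1.mulVec w = e • w) : w ∈ Submodule.span F {v} := by
  by_cases hw : w = 0
  · rw [hw]; exact Submodule.zero_mem _
  have hsq : (Z.1 - 1) * (Z.1 - 1) = 0 := by
    have := sl2_mul_self Z
    rw [htr] at this
    rw [sub_mul, mul_sub, this, mul_one, one_mul]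
    module
  have h3 : (Z.1 - 1).mulVec w = (e - 1) • w := by
    rw [Matrix.sub_mulVec, Matrix.one_mulVec, h2, sub_smul, one_smul]
  have h4 : ((e - 1) * (e - 1)) • w = 0 := by
    have := congrArg (fun M : M2 => M.mulVec w) hsq
    simp only [← Matrix.mulVec_mulVec, h3, Matrix.mulVec_smul, Matrix.zero_mulVec, smul_smul] at this
    exact this
  have h5 : e = 1 := by
    have := (smul_eq_zero.mp h4).resolve_right hw
    have := mul_self_eq_zero.mp this
    linear_combination this
  rw [h5, one_smul] at h2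
  exact mem_span_of_fixed Z hZ v w hv h1 h2

theorem not_dvd_card_of_odd_irreducible (p : ℕ) [Fact p.Prime] [CharP F p] (hp : p ≠ 2)
    (H : Subgroup (GL (Fin 2) F)) [Finite H] (hodd : Odd (Nat.card H))
    (hirr : ∀ v : Fin 2 → F, v ≠ 0 → ∃ g ∈ H, (g : M2).mulVec v ∉ Submodule.span F {v}) :
    ¬ p ∣ Nat.card H := by
  intro hdvd
  let ι : SL2 →* GL (Fin 2) F := Matrix.SpecialLinearGroup.toGL
  have hι : ∀ x : SL2, ((ι x : GL (Fin 2) F) : M2) = x.1 := fun _ => rfl
  let G : Subgroup SL2 := H.comap ι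
  let j : G →* H := (ι.comp G.subtype).codRestrict H (fun x => x.2)
  have hj : Function.Injective j := by
    intro x y hxy
    have := congrArg Subtype.val hxy
    exact Subtype.ext (Matrix.SpecialLinearGroup.toGL_injective this)
  haveI : Finite G := Finite.of_injective j hj
  have hGodd : Odd (Nat.card G) := Odd.of_dvd_nat hodd (Subgroup.card_dvd_of_injective j hj)
  have hN := isPGroup_closure_pElements (G := G) p
    (fun r _ hr R => normalizer_le_centralizer_of_odd p hp G hGodd r hr R)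
  set N := Subgroup.closure {u : G | ∃ k : ℕ, u ^ p ^ k = 1} with hNdef
  obtain ⟨u₀, hu₀⟩ := exists_prime_orderOf_dvd_card' p hdvd
  have hu₀p : (u₀ : GL (Fin 2) F) ^ p = 1 := by
    have := pow_orderOf_eq_one u₀
    rw [hu₀] at this
    exact congrArg Subtype.val this
  have hdet : ((u₀ : GL (Fin 2) F) : M2).det = 1 := by
    have h1 : (((u₀ : GL (Fin 2) F) : M2).det) ^ p = 1 := by
      rw [← Matrix.det_pow, ← Units.val_pow_eq_pow_val, hu₀p]
      simp
    have h2 : frobenius F p (((u₀ : GL (Fin 2) F) : M2).det) = frobenius F p 1 := by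
      rw [frobenius_def, frobenius_def, h1, one_pow]
    exact frobenius_inj F p h2
  let u : SL2 := ⟨((u₀ : GL (Fin 2) F) : M2), hdet⟩
  have hιu : ι u = u₀ := Units.ext rfl
  have huG : u ∈ G := by
    change ι u ∈ H
    rw [hιu]; exact u₀.2
  have hup : u ^ p = 1 := by
    apply Matrix.SpecialLinearGroup.toGL_injective
    change ι (u ^ p) = ι 1
    rw [map_pow, hιu, hu₀p, map_one]
  have hu1 : u ≠ 1 := by
    intro h
    have : (u₀ : GL (Fin 2) F) = 1 := by rw [← hιu, h, map_one]
    have h1 : u₀ = 1 := Subtype.ext this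
    rw [h1, orderOf_one] at hu₀
    exact (Fact.out : p.Prime).one_lt.ne hu₀
  have huN : (⟨u, huG⟩ : G) ∈ N := by
    apply Subgroup.subset_closure
    refine ⟨1, ?_⟩
    apply Subtype.ext
    rw [pow_one]
    exact hup
  have hNbot : N ≠ ⊥ := by
    intro h
    rw [h] at huN
    exact hu1 (congrArg Subtype.val (Subgroup.mem_bot.mp huN))
  obtain ⟨z, hzN, hz1, hzc⟩ := exists_central_elt N hN hNbot
  obtain ⟨k, hk⟩ := hN ⟨z, hzN⟩
  have hzk : (z : SL2) ^ p ^ k = 1 := by
    have := congrArg (fun y : N => ((y : G) : SL2)) hk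
    exact this
  have hz1' : (z : SL2) ≠ 1 := fun h => hz1 (Subtype.ext h)
  have htr := trace_two_of_pow_eq_one p (z : SL2) k hzk
  have hdet0 : ((z : SL2).1 - 1).det = 0 := by
    have hdet := sl2_det (z : SL2)
    rw [Matrix.trace_fin_two] at htr
    rw [Matrix.det_fin_two]
    simp
    linear_combination hdet - htr
  obtain ⟨v, hv, hzv⟩ := Matrix.exists_mulVec_eq_zero_iff.mpr hdet0
  have hzv' : (z : SL2).1.mulVec v = v := by
    rw [Matrix.sub_mulVec, Matrix.one_mulVec, sub_eq_zero] at hzv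
    exact hzv
  have hzs : ¬ IsScal (z : SL2).1 := by
    intro hs
    rcases (isScal_iff_eq _).mp hs with h | h
    · exact hz1' h
    · rw [h, coe_dg_neg_one] at htr
      simp at htr
      have h2 : ((2 : ℕ) : F) * ((2 : ℕ) : F) = 0 := by push_cast; linear_combination -htr
      have h3 : ((2 : ℕ) : F) = 0 := mul_self_eq_zero.mp h2
      rw [CharP.cast_eq_zero_iff F p] at h3
      exact hp ((Nat.prime_dvd_prime_iff_eq (Fact.out : p.Prime) Nat.prime_two).mp h3)
  obtain ⟨g, hgH, hg⟩ := hirr v hv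
  apply hg
  -- the conjugate of `z` by `g⁻¹`
  have hdet' : (((g⁻¹ : GL (Fin 2) F) : M2) * (z : SL2).1 * ((g : GL (Fin 2) F) : M2)).det = 1 := by
    have := Matrix.det_units_conj (g⁻¹ : GL (Fin 2) F) (z : SL2).1
    rw [inv_inv] at this
    rw [this]; exact (z : SL2).2
  let z' : SL2 := ⟨_, hdet'⟩
  have hιz' : ι z' = g⁻¹ * ι (z : SL2) * g := Units.ext rfl
  have hz'G : z' ∈ G := by
    change ι z' ∈ H
    rw [hιz']
    exact mul_mem (mul_mem (inv_mem hgH) z.2) hgH
  have hz'k : z' ^ p ^ k = 1 := by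
    apply Matrix.SpecialLinearGroup.toGL_injective
    change ι (z' ^ p ^ k) = ι 1
    have e : g⁻¹ * ι (z : SL2) * g = g⁻¹ * ι (z : SL2) * g⁻¹⁻¹ := by rw [inv_inv]
    rw [map_pow, hιz', e, conj_pow, ← map_pow, hzk, map_one]
    group
  have hz'N : (⟨z', hz'G⟩ : G) ∈ N := by
    apply Subgroup.subset_closure
    exact ⟨k, Subtype.ext hz'k⟩
  have hcomm : z' * (z : SL2) = (z : SL2) * z' := congrArg Subtype.val (hzc _ hz'N)
  obtain ⟨c, d, hcd⟩ := exists_lin_of_comm (z : SL2) z' hzs hcomm
  have hcd' : ((g⁻¹ : GL (Fin 2) F) : M2) * (z : SL2).1 * ((g : GL (Fin 2) F) : M2) =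
      c • (1 : M2) + d • (z : SL2).1 := hcd
  have hgg : ((g : GL (Fin 2) F) : M2) * ((g⁻¹ : GL (Fin 2) F) : M2) = 1 := by
    rw [← Units.val_mul, mul_inv_cancel]; rfl
  have h6 : (z : SL2).1 * ((g : GL (Fin 2) F) : M2) =
      c • ((g : GL (Fin 2) F) : M2) + d • (((g : GL (Fin 2) F) : M2) * (z : SL2).1) := by
    have := congrArg (fun M : M2 => ((g : GL (Fin 2) F) : M2) * M) hcd'
    simp only [← mul_assoc, hgg, one_mul, mul_add, mul_smul_comm, mul_one] at this
    exact this
  have h7 : (z : SL2).1.mulVec (((g : GL (Fin 2) F) : M2).mulVec v) =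
      (c + d) • (((g : GL (Fin 2) F) : M2).mulVec v) := by
    rw [Matrix.mulVec_mulVec, h6, Matrix.add_mulVec, Matrix.smul_mulVec, Matrix.smul_mulVec,
      ← Matrix.mulVec_mulVec, hzv', add_smul]
  exact mem_span_of_eigen (z : SL2) hz1' htr v _ hv hzv' _ h7

end Cfsg.Agent.H14
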