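import Mathlib
import Cfsg.Agent.H14.PSL2Klein
import Cfsg.Agent.H14.SL2Syl2
import Cfsg.Agent.Lib.Helper18.GLComm
import Cfsg.Agent.Lib.Helper18.IsoReindex
import Cfsg.Agent.S0286

/-! # `PΩ₃(q) ≅ PSL₂(q)` -/

set_option autoImplicit false
set_option linter.unusedSimpArgs false
set_option linter.unusedVariables false
set_option linter.unusedSectionVars false

namespace Cfsg.Agent.H14

open Matrix
open scoped commutatorElement

variable {F : Type*} [Field F]

local notation "SL2" => Matrix.SpecialLinearGroup (Fin 2) F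
local notation "PSL2" => Matrix.ProjectiveSpecialLinearGroup (Fin 2) F

theorem center_psl2_eq_bot (h2 : (2 : F) ≠ 0) : Subgroup.center PSL2 = ⊥ := by
  rw [eq_bot_iff]
  intro x hx
  obtain ⟨s, rfl⟩ := QuotientGroup.mk_surjective x
  rw [Subgroup.mem_bot]
  change pj s = 1
  rw [Subgroup.mem_center_iff] at hx
  rw [pj_eq_one_iff, ← isScal_iff_eq]
  let u : SL2 := mkSL !![1, 1; 0, 1] (by simp [Matrix.det_fin_two_of])
  let l : SL2 := mkSL !![1, 0; 1, 1] (by simp [Matrix.det_fin_two_of])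
  have hdet := sl2_det s
  have hu : pj (u * s) = pj (s * u) := hx (pj u)
  have hl : pj (l * s) = pj (s * l) := hx (pj l)
  rw [pj_eq_iff] at hu hl
  have eu : ∀ i j, (u * s).1 i j = (!![1, 1; 0, 1] * s.1 : Matrix (Fin 2) (Fin 2) F) i j :=
    fun i j => rfl
  have eu' : ∀ i j, (s * u).1 i j = (s.1 * !![1, 1; 0, 1] : Matrix (Fin 2) (Fin 2) F) i j :=
    fun i j => rfl
  have el : ∀ i j, (l * s).1 i j = (!![1, 0; 1, 1] * s.1 : Matrix (Fin 2) (Fin 2) F) i j :=
    fun i j => rfl
  have el' : ∀ i j, (s * l).1 i j = (s.1 * !![1, 0; 1, 1] : Matrix (Fin 2) (Fin 2) F) i j :=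
    fun i j => rfl
  have en : ∀ (y : SL2) i j, (dg (-1) * y).1 i j = - y.1 i j := by
    intro y i j
    have : (dg (-1) * y).1 = -y.1 := by
      rw [Matrix.SpecialLinearGroup.coe_mul, coe_dg_neg_one]; simp
    rw [this]; rfl
  have h10 : s.1 1 0 = 0 ∧ s.1 0 0 = s.1 1 1 := by
    rcases hu with h | h
    · have a1 := congrArg (fun y : SL2 => y.1 0 0) h
      have a2 := congrArg (fun y : SL2 => y.1 0 1) h
      simp only [eu, eu'] at a1 a2
      simp [Matrix.mul_apply, Fin.sum_univ_two] at a1 a2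
      exact ⟨a1, by linear_combination a2⟩
    · exfalso
      have a1 := congrArg (fun y : SL2 => y.1 1 0) h
      have a2 := congrArg (fun y : SL2 => y.1 1 1) h
      simp only [en, eu, eu'] at a1 a2
      simp [Matrix.mul_apply, Fin.sum_univ_two] at a1 a2
      have c0 : s.1 1 0 = 0 := by
        have : (2 : F) * s.1 1 0 = 0 := by linear_combination a1
        exact (mul_eq_zero.mp this).resolve_left h2
      have d0 : s.1 1 1 = 0 := by
        have : (2 : F) * s.1 1 1 = 0 := by linear_combination a2 - c0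
        exact (mul_eq_zero.mp this).resolve_left h2
      rw [c0, d0] at hdet
      simp at hdet
  have h01 : s.1 0 1 = 0 := by
    rcases hl with h | h
    · have a1 := congrArg (fun y : SL2 => y.1 0 0) h
      simp only [el, el'] at a1
      simp [Matrix.mul_apply, Fin.sum_univ_two] at a1
      exact a1
    · exfalso
      have a1 := congrArg (fun y : SL2 => y.1 0 1) h
      have a2 := congrArg (fun y : SL2 => y.1 0 0) h
      simp only [en, el, el'] at a1 a2
      simp [Matrix.mul_apply, Fin.sum_univ_two] at a1 a2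
      have c0 : s.1 0 1 = 0 := by
        have : (2 : F) * s.1 0 1 = 0 := by linear_combination a1
        exact (mul_eq_zero.mp this).resolve_left h2
      have d0 : s.1 0 0 = 0 := by
        have : (2 : F) * s.1 0 0 = 0 := by linear_combination a2 - c0
        exact (mul_eq_zero.mp this).resolve_left h2
      rw [c0, d0] at hdet
      simp at hdet
  exact ⟨h01, h10.1, h10.2⟩

theorem commutator_central_left {O : Type*} [Group O] {z : O} (hz : z ∈ Subgroup.center O)
    (a b : O) : ⁅z * a, b⁆ = ⁅a, b⁆ := by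
  rw [Subgroup.mem_center_iff] at hz
  rw [commutatorElement_def, commutatorElement_def, _root_.mul_inv_rev]
  calc z * a * b * (a⁻¹ * z⁻¹) * b⁻¹ = z * (a * b * a⁻¹) * z⁻¹ * b⁻¹ := by group
    _ = (a * b * a⁻¹) * z * z⁻¹ * b⁻¹ := by rw [hz]
    _ = _ := by group

theorem commutator_central_right {O : Type*} [Group O] {z : O} (hz : z ∈ Subgroup.center O)
    (a b : O) : ⁅a, z * b⁆ = ⁅a, b⁆ := by
  rw [Subgroup.mem_center_iff] at hz
  rw [commutatorElement_def, commutatorElement_def, _root_.mul_inv_rev]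
  calc a * (z * b) * a⁻¹ * (b⁻¹ * z⁻¹) = (a * z) * (b * a⁻¹ * b⁻¹) * z⁻¹ := by group
    _ = (z * a) * (b * a⁻¹ * b⁻¹) * z⁻¹ := by rw [hz]
    _ = z * (a * b * a⁻¹ * b⁻¹) * z⁻¹ := by group
    _ = (a * b * a⁻¹ * b⁻¹) * z * z⁻¹ := by rw [hz]
    _ = _ := by group

theorem pomega_of_cover (h2 : (2 : F) ≠ 0) (hF : ∃ a : F, a ≠ 0 ∧ a ≠ 1) {O : Type*} [Group O]
    (Φ : GL (Fin 2) F →* O) (z : O) (hz : z ∈ Subgroup.center O)
    (hcover : ∀ x : O, ∃ g, x = Φ g ∨ x = z * Φ g)
    (hker : ∀ g : SL2, Φ (Matrix.SpecialLinearGroup.toGL g) = 1 ↔ g ∈ Subgroup.center SL2) :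
    Nonempty ((commutator O) ⧸ Subgroup.center (commutator O) ≃* PSL2) := by
  have hGL := Cfsg.Agent.Lib.Helper18.GL_commutator_eq_ker_det (F := F) 2 (fun _ => hF)
  have hmem : ∀ s : SL2, Φ (Matrix.SpecialLinearGroup.toGL s) ∈ commutator O := by
    intro s
    have h1 : Matrix.SpecialLinearGroup.toGL s ∈ commutator (GL (Fin 2) F) := by
      rw [hGL, MonoidHom.mem_ker]
      apply Units.ext
      simp
    have h3 : (commutator (GL (Fin 2) F)).map Φ ≤ commutator O := by
      rw [commutator_def, Subgroup.map_commutator]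
      exact Subgroup.commutator_mono le_top le_top
    exact h3 (Subgroup.mem_map_of_mem _ h1)
  let ψ : SL2 →* commutator O :=
    (Φ.comp Matrix.SpecialLinearGroup.toGL).codRestrict _ hmem
  have hsurj : Function.Surjective ψ := by
    have hle : commutator O ≤ (Φ.comp Matrix.SpecialLinearGroup.toGL).range := by
      rw [commutator_eq_closure, Subgroup.closure_le]
      rintro _ ⟨x, y, rfl⟩
      obtain ⟨g, hg⟩ := hcover x
      obtain ⟨h, hh⟩ := hcover y
      have e : ⁅x, y⁆ = Φ ⁅g, h⁆ := by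
        rw [map_commutatorElement]
        rcases hg with rfl | rfl <;> rcases hh with rfl | rfl <;>
          simp only [commutator_central_left hz, commutator_central_right hz]
      have h1 : ⁅g, h⁆ ∈ commutator (GL (Fin 2) F) :=
        Subgroup.commutator_mem_commutator (Subgroup.mem_top _) (Subgroup.mem_top _)
      rw [hGL, MonoidHom.mem_ker] at h1
      have hd : (⁅g, h⁆ : GL (Fin 2) F).1.det = 1 := by
        have := congrArg Units.val h1
        exact this
      refine ⟨⟨(⁅g, h⁆ : GL (Fin 2) F).1, hd⟩, ?_⟩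
      rw [e]
      show Φ _ = Φ _
      congr 1
      exact Units.ext rfl
    intro y
    obtain ⟨s, hs⟩ := hle y.2
    exact ⟨s, Subtype.ext hs⟩
  have hkerψ : ψ.ker = Subgroup.center SL2 := by
    ext s
    rw [MonoidHom.mem_ker, ← hker]
    constructor
    · intro h; exact congrArg Subtype.val h
    · intro h; exact Subtype.ext h
  let e₁ : PSL2 ≃* commutator O :=
    (QuotientGroup.quotientMulEquivOfEq hkerψ.symm).trans
      (QuotientGroup.quotientKerEquivOfSurjective ψ hsurj)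
  have hc : Subgroup.center (commutator O) = ⊥ := by
    rw [eq_bot_iff]
    intro c hc
    rw [Subgroup.mem_bot]
    have h1 : e₁.symm c ∈ Subgroup.center PSL2 := by
      rw [Subgroup.mem_center_iff] at hc ⊢
      intro y
      apply e₁.injective
      rw [map_mul, map_mul, MulEquiv.apply_symm_apply]
      exact hc _
    rw [center_psl2_eq_bot h2, Subgroup.mem_bot] at h1
    have := congrArg e₁ h1
    simpa using this
  exact ⟨((QuotientGroup.quotientMulEquivOfEq hc).trans QuotientGroup.quotientBot).trans e₁.symm⟩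

/-- the quadratic form `x₀² + x₁ x₂` -/
def Q3 (v : Fin 3 → F) : F := v 0 ^ 2 + v 1 * v 2

/-- adjoint action (unnormalised) -/
def N3 (g : Matrix (Fin 2) (Fin 2) F) : Matrix (Fin 3) (Fin 3) F :=
  !![g 0 0 * g 1 1 + g 0 1 * g 1 0, -(g 0 0 * g 1 0), g 0 1 * g 1 1;
     -(2 * g 0 0 * g 0 1), g 0 0 ^ 2, -(g 0 1 ^ 2);
     2 * g 1 0 * g 1 1, -(g 1 0 ^ 2), g 1 1 ^ 2]

theorem N3_mul (g h : Matrix (Fin 2) (Fin 2) F) : N3 (g * h) = N3 g * N3 h := by
  ext i j
  fin_cases i <;> fin_cases j <;>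
    simp [N3, Matrix.mul_apply, Fin.sum_univ_three, Fin.sum_univ_two] <;> ring

theorem N3_one : N3 (1 : Matrix (Fin 2) (Fin 2) F) = 1 := by
  ext i j
  fin_cases i <;> fin_cases j <;> simp [N3, Matrix.one_apply]

def N3hom : Matrix (Fin 2) (Fin 2) F →* Matrix (Fin 3) (Fin 3) F where
  toFun := N3
  map_one' := N3_one
  map_mul' := N3_mul

theorem Q3_N3 (g : Matrix (Fin 2) (Fin 2) F) (v : Fin 3 → F) :
    Q3 (N3 g *ᵥ v) = g.det ^ 2 * Q3 v := by
  simp [Q3, N3, Matrix.mulVec, dotProduct, Fin.sum_univ_three, Matrix.det_fin_two]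
  ring

theorem Q3_smul (c : F) (v : Fin 3 → F) : Q3 (c • v) = c ^ 2 * Q3 v := by
  simp [Q3]; ring

/-- normalised adjoint action, as an element of `GL₃` -/
noncomputable def P3 (g : GL (Fin 2) F) : GL (Fin 3) F :=
  Units.map (Matrix.scalar (Fin 3)).toMonoidHom (Matrix.GeneralLinearGroup.det g)⁻¹ *
    Units.map N3hom g

theorem P3_coe (g : GL (Fin 2) F) :
    (P3 g : Matrix (Fin 3) (Fin 3) F) = (g.1.det)⁻¹ • N3 g.1 := by
  show Matrix.scalar (Fin 3) (((Matrix.GeneralLinearGroup.det g)⁻¹ : Fˣ) : F) * N3 g.1 = _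
  rw [Matrix.scalar_apply, ← Matrix.smul_eq_diagonal_mul]
  congr 1
  simp

theorem det_ne_zero' (g : GL (Fin 2) F) : g.1.det ≠ 0 :=
  (Matrix.GeneralLinearGroup.det g).ne_zero

theorem P3_mem (g : GL (Fin 2) F) : P3 g ∈ Cfsg.isometryGroup F (Q3 (F := F)) := by
  rw [Cfsg.Agent.Lib.Helper18.mem_isometryGroup_iff]
  intro v
  rw [P3_coe, Matrix.smul_mulVec, Q3_smul, Q3_N3]
  have := det_ne_zero' g
  field_simp

/-- the homomorphism `GL₂ → O₃` -/
noncomputable def Phi3 : GL (Fin 2) F →* Cfsg.isometryGroup F (Q3 (F := F)) :=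
  MonoidHom.mk' (fun g => ⟨P3 g, P3_mem g⟩) (by
    intro g h
    apply Subtype.ext
    apply Units.ext
    show (P3 (g * h) : Matrix (Fin 3) (Fin 3) F) = (P3 g : Matrix (Fin 3) (Fin 3) F) * P3 h
    rw [P3_coe, P3_coe, P3_coe, Units.val_mul, N3_mul, Matrix.det_mul, Matrix.smul_mul,
      Matrix.mul_smul, smul_smul, _root_.mul_inv])

theorem Phi3_coe (g : GL (Fin 2) F) :
    ((Phi3 g).1 : Matrix (Fin 3) (Fin 3) F) = (g.1.det)⁻¹ • N3 g.1 := P3_coe g

theorem Phi3_eq_smul (h2 : (2 : F) ≠ 0) (g : GL (Fin 2) F) (c : F)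
    (h : ((Phi3 g).1 : Matrix (Fin 3) (Fin 3) F) = c • 1) : IsScal g.1 ∧ c = 1 := by
  rw [Phi3_coe] at h
  have hd := det_ne_zero' g
  have e12 := congrFun (congrFun h 1) 2
  have e21 := congrFun (congrFun h 2) 1
  have e00 := congrFun (congrFun h 0) 0
  have e11 := congrFun (congrFun h 1) 1
  simp [N3, hd] at e12 e21 e00 e11
  have hdet : g.1.det = g.1 0 0 * g.1 1 1 := by
    rw [Matrix.det_fin_two, e12, e21]; ring
  rw [e12, e21] at e00
  rw [hdet] at hd
  have ha : g.1 0 0 ≠ 0 := left_ne_zero_of_mul hd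
  have hb : g.1 1 1 ≠ 0 := right_ne_zero_of_mul hd
  have hc : c = 1 := by
    rw [← e00, hdet]
    field_simp
    ring
  refine ⟨⟨e12, e21, ?_⟩, hc⟩
  rw [hc, hdet] at e11
  field_simp at e11
  exact e11

theorem Phi3_toGL_eq_one_iff (h2 : (2 : F) ≠ 0) (s : SL2) :
    Phi3 (Matrix.SpecialLinearGroup.toGL s) = 1 ↔ s ∈ Subgroup.center SL2 := by
  rw [mem_center_iff_isScal]
  constructor
  · intro h
    have h1 : ((Phi3 (Matrix.SpecialLinearGroup.toGL s)).1 : Matrix (Fin 3) (Fin 3) F)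
        = (1 : F) • 1 := by
      rw [h]; simp
    exact (Phi3_eq_smul h2 _ 1 h1).1
  · rintro ⟨h01, h10, h00⟩
    apply Subtype.ext
    apply Units.ext
    rw [Phi3_coe]
    have hdet := sl2_det s
    show (s.1.det)⁻¹ • N3 s.1 = 1
    rw [s.2, inv_one, one_smul]
    rw [h01, h10, ← h00] at hdet
    have hsq : s.1 0 0 ^ 2 = 1 := by linear_combination hdet
    have hsq' : s.1 0 0 * s.1 0 0 = 1 := by linear_combination hdet
    ext i j
    fin_cases i <;> fin_cases j <;>
      simp [N3, h01, h10, ← h00, Matrix.one_apply, hsq, hsq']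

/-- the index bijection -/
def idx3 : Unit ⊕ (Fin 1 ⊕ Fin 1) ≃ Fin 3 where
  toFun x := match x with
    | .inl _ => 0
    | .inr (.inl _) => 1
    | .inr (.inr _) => 2
  invFun i := match i with
    | 0 => .inl ()
    | 1 => .inr (.inl 0)
    | 2 => .inr (.inr 0)
  left_inv x := by
    rcases x with _ | x | x
    · rfl
    · have : x = 0 := Subsingleton.elim _ _
      subst this; rfl
    · have : x = 0 := Subsingleton.elim _ _
      subst this; rfl
  right_inv i := by fin_cases i <;> rfl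

noncomputable def E3 : Cfsg.isometryGroup F (Cfsg.quadFormOdd 1 F) ≃*
    Cfsg.isometryGroup F (Q3 (F := F)) :=
  Cfsg.Agent.Lib.Helper18.isoReindex idx3 Q3 (Cfsg.quadFormOdd 1 F) (by
    intro v
    simp only [Cfsg.quadFormOdd, Q3, Function.comp, Finset.univ_unique, Finset.sum_singleton]
    rfl)

/-- `-1` in `O₃` -/
def negOne3 : Cfsg.isometryGroup F (Q3 (F := F)) :=
  ⟨-1, by
    rw [Cfsg.Agent.Lib.Helper18.mem_isometryGroup_iff]
    intro v
    rw [Units.val_neg, Units.val_one, Matrix.neg_mulVec, Matrix.one_mulVec]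
    simp [Q3]⟩

theorem negOne3_coe : ((negOne3 (F := F)).1 : Matrix (Fin 3) (Fin 3) F) = (-1 : F) • 1 := by
  simp [negOne3]

theorem negOne3_mem_center : negOne3 (F := F) ∈ Subgroup.center (Cfsg.isometryGroup F (Q3 (F := F))) := by
  rw [Subgroup.mem_center_iff]
  intro g
  apply Subtype.ext
  apply Units.ext
  show g.1.1 * (negOne3 (F := F)).1.1 = (negOne3 (F := F)).1.1 * g.1.1
  rw [negOne3_coe]
  simp

theorem negOne3_not_mem_range (h2 : (2 : F) ≠ 0) : negOne3 (F := F) ∉ (Phi3 (F := F)).range := by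
  rintro ⟨g, hg⟩
  have h1 : ((Phi3 g).1 : Matrix (Fin 3) (Fin 3) F) = (-1 : F) • 1 := by
    rw [hg, negOne3_coe]
  have := (Phi3_eq_smul h2 g _ h1).2
  apply h2
  linear_combination -this

theorem card_ker_Phi3_le [Fintype F] (h2 : (2 : F) ≠ 0) :
    Nat.card (Phi3 (F := F)).ker ≤ Fintype.card F - 1 := by
  classical
  have hinj : Function.Injective (fun g : (Phi3 (F := F)).ker =>
      (⟨g.1.1 0 0, by
        intro h0
        have h1 : ((Phi3 g.1).1 : Matrix (Fin 3) (Fin 3) F) = (1 : F) • 1 := by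
          rw [MonoidHom.mem_ker.mp g.2]; simp
        obtain ⟨h01, h10, h00⟩ := (Phi3_eq_smul h2 _ 1 h1).1
        have := det_ne_zero' g.1
        rw [Matrix.det_fin_two, h01, h10, h0] at this
        simp at this⟩ : {a : F // a ≠ 0})) := by
    intro g g' h
    have h' : g.1.1 0 0 = g'.1.1 0 0 := congrArg Subtype.val h
    have h1 : ((Phi3 g.1).1 : Matrix (Fin 3) (Fin 3) F) = (1 : F) • 1 := by
      rw [MonoidHom.mem_ker.mp g.2]; simp
    have h1' : ((Phi3 g'.1).1 : Matrix (Fin 3) (Fin 3) F) = (1 : F) • 1 := by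
      rw [MonoidHom.mem_ker.mp g'.2]; simp
    obtain ⟨h01, h10, h00⟩ := (Phi3_eq_smul h2 _ 1 h1).1
    obtain ⟨h01', h10', h00'⟩ := (Phi3_eq_smul h2 _ 1 h1').1
    apply Subtype.ext
    apply Units.ext
    ext i j
    fin_cases i <;> fin_cases j
    · exact h'
    · show g.1.1 0 1 = g'.1.1 0 1
      rw [h01, h01']
    · show g.1.1 1 0 = g'.1.1 1 0
      rw [h10, h10']
    · show g.1.1 1 1 = g'.1.1 1 1
      rw [← h00, ← h00', h']
  have := Nat.card_le_card_of_injective _ hinj
  refine this.trans (le_of_eq ?_)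
  rw [Nat.card_eq_fintype_card, Fintype.card_subtype_compl, Fintype.card_subtype_eq]

theorem index_range_Phi3 [Fintype F] (hodd : Odd (Fintype.card F)) (h2 : (2 : F) ≠ 0) :
    (Phi3 (F := F)).range.index = 2 := by
  classical
  set q := Fintype.card F with hq
  have hq1 : 1 < q := Fintype.one_lt_card
  have hO : Nat.card (Cfsg.isometryGroup F (Q3 (F := F))) = 2 * q * (q ^ 2 - 1) := by
    rw [← Nat.card_congr (E3 (F := F)).toEquiv, Cfsg.Agent.S0286.result rfl hodd 1]
    simp [hq]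
  have hGL : Nat.card (GL (Fin 2) F) = (q ^ 2 - 1) * (q ^ 2 - q) := by
    rw [Matrix.card_GL_field]
    simp [Fin.prod_univ_two, hq]
  have hk := card_ker_Phi3_le (F := F) h2
  have h1 : Nat.card (Phi3 (F := F)).ker * Nat.card (Phi3 (F := F)).range
      = Nat.card (GL (Fin 2) F) := by
    rw [← Subgroup.index_ker, Subgroup.card_mul_index]
  have h3 : Nat.card (Phi3 (F := F)).range * (Phi3 (F := F)).range.index
      = Nat.card (Cfsg.isometryGroup F (Q3 (F := F))) := Subgroup.card_mul_index _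
  have hne : (Phi3 (F := F)).range.index ≠ 1 := by
    intro h
    rw [Subgroup.index_eq_one] at h
    exact negOne3_not_mem_range h2 (h ▸ Subgroup.mem_top _)
  have hne0 : (Phi3 (F := F)).range.index ≠ 0 := by
    exact Subgroup.index_ne_zero_of_finite
  rw [hGL] at h1
  rw [hO] at h3
  generalize (Phi3 (F := F)).range.index = i at *
  generalize Nat.card (Phi3 (F := F)).range = r at *
  generalize Nat.card (Phi3 (F := F)).ker = k at *
  rw [← hq] at hk
  clear hO hGL
  clear_value q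
  obtain ⟨m, rfl⟩ : ∃ m, q = m + 2 := ⟨q - 2, by omega⟩
  have e1 : (m + 2) ^ 2 - 1 = (m + 1) * (m + 3) := by
    have : (m + 2) ^ 2 = (m + 1) * (m + 3) + 1 := by ring
    omega
  have e2 : (m + 2) ^ 2 - (m + 2) = (m + 2) * (m + 1) := by
    have : (m + 2) ^ 2 = (m + 2) * (m + 1) + (m + 2) := by ring
    omega
  have e3 : m + 2 - 1 = m + 1 := by omega
  rw [e1, e2] at h1
  rw [e1] at h3
  rw [e3] at hk
  have hr : (m + 1) * (m + 3) * (m + 2) ≤ r := by
    have : (m + 1) * ((m + 1) * (m + 3) * (m + 2)) ≤ (m + 1) * r := by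
      calc (m + 1) * ((m + 1) * (m + 3) * (m + 2)) = k * r := by rw [h1]; ring
        _ ≤ (m + 1) * r := Nat.mul_le_mul_right _ hk
    exact Nat.le_of_mul_le_mul_left this (by omega)
  have hr0 : 0 < r := lt_of_lt_of_le (by positivity) hr
  have hi : r * i ≤ r * 2 := by
    rw [h3]
    calc 2 * (m + 2) * ((m + 1) * (m + 3)) = ((m + 1) * (m + 3) * (m + 2)) * 2 := by ring
      _ ≤ r * 2 := Nat.mul_le_mul_right _ hr
  have := Nat.le_of_mul_le_mul_left hi hr0
  omega

theorem cover_Phi3 [Fintype F] (hodd : Odd (Fintype.card F)) (h2 : (2 : F) ≠ 0)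
    (x : Cfsg.isometryGroup F (Q3 (F := F))) :
    ∃ g, x = Phi3 g ∨ x = negOne3 * Phi3 g := by
  have hi := index_range_Phi3 hodd h2
  by_cases hx : x ∈ (Phi3 (F := F)).range
  · obtain ⟨g, hg⟩ := hx
    exact ⟨g, Or.inl hg.symm⟩
  · have h1 : negOne3⁻¹ * x ∈ (Phi3 (F := F)).range := by
      rw [Subgroup.mul_mem_iff_of_index_two hi, Subgroup.inv_mem_iff]
      exact ⟨fun h => absurd h (negOne3_not_mem_range h2), fun h => absurd h hx⟩
    obtain ⟨g, hg⟩ := h1
    exact ⟨g, Or.inr (by rw [hg]; group)⟩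

theorem pomega3_equiv_psl2 [Fintype F] (hodd : Odd (Fintype.card F)) :
    Nonempty (Cfsg.POmega F (Cfsg.quadFormOdd 1 F) ≃* PSL2) := by
  have h2 : (2 : F) ≠ 0 := by
    apply Ring.two_ne_zero
    intro hc
    have := FiniteField.even_card_of_char_two hc
    rcases hodd with ⟨k, hk⟩
    omega
  have hF : ∃ a : F, a ≠ 0 ∧ a ≠ 1 := by
    refine ⟨2, h2, ?_⟩
    intro h
    have : (1 : F) = 0 := by linear_combination h
    exact one_ne_zero this
  refine pomega_of_cover h2 hF ((E3 (F := F)).symm.toMonoidHom.comp Phi3) (E3.symm negOne3)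
    ?_ ?_ ?_
  · rw [Subgroup.mem_center_iff]
    intro y
    apply (E3 (F := F)).injective
    rw [map_mul, map_mul, MulEquiv.apply_symm_apply]
    exact Subgroup.mem_center_iff.mp negOne3_mem_center _
  · intro x
    obtain ⟨g, hg⟩ := cover_Phi3 hodd h2 (E3 x)
    refine ⟨g, ?_⟩
    rcases hg with hg | hg
    · left
      show x = E3.symm (Phi3 g)
      rw [← hg, MulEquiv.symm_apply_apply]
    · right
      show x = E3.symm negOne3 * E3.symm (Phi3 g)
      rw [← map_mul, ← hg, MulEquiv.symm_apply_apply]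
  · intro s
    rw [← Phi3_toGL_eq_one_iff h2]
    show E3.symm (Phi3 _) = 1 ↔ _
    rw [MulEquiv.map_eq_one_iff]


end Cfsg.Agent.H14
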