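import Mathlib
import Cfsg.Agent.H14.Klein6
import Cfsg.Agent.S0286
import Cfsg.Agent.S0245
import Cfsg.Agent.S0269

/-! # `PΩ₅(q) ≅ PSp₄(q)` for odd `q` -/

set_option autoImplicit false
set_option linter.unusedSimpArgs false
set_option linter.unusedVariables false
set_option linter.unusedSectionVars false

namespace Cfsg.Agent.H14

open Matrix

variable {F : Type*} [Field F]

def J4 : Matrix (Fin 4) (Fin 4) F := !![0, 0, -1, 0; 0, 0, 0, -1; 1, 0, 0, 0; 0, 1, 0, 0]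

def om6 : Fin 6 → F := ![0, 1, 0, 0, -1, 0]

def I65 (F : Type*) [Field F] : Matrix (Fin 6) (Fin 5) F :=
  !![0, 1, 0, 0, 0; 1, 0, 0, 0, 0; 0, 0, 1, 0, 0; 0, 0, 0, 1, 0; 1, 0, 0, 0, 0; 0, 0, 0, 0, 1]

def P56 (F : Type*) [Field F] : Matrix (Fin 5) (Fin 6) F :=
  !![0, 1, 0, 0, 0, 0; 1, 0, 0, 0, 0, 0; 0, 0, 1, 0, 0, 0; 0, 0, 0, 1, 0, 0; 0, 0, 0, 0, 0, 1]

def Q5 (x : Fin 5 → F) : F := x 0 ^ 2 + (x 1 * x 3 + x 2 * x 4)

def D5 (g : Matrix (Fin 4) (Fin 4) F) : Matrix (Fin 5) (Fin 5) F := P56 F * C6 g * I65 F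

theorem Q5_eq (x : Fin 5 → F) : Q5 x = Q6 (I65 F *ᵥ x) := by
  simp [Q5, Q6, I65, Matrix.mulVec, dotProduct, Fin.sum_univ_five]
  ring

theorem P56_I65 : P56 F * I65 F = 1 := by
  ext i j
  fin_cases i <;> fin_cases j <;>
    simp [P56, I65, Matrix.mul_apply, Fin.sum_univ_six, Matrix.one_apply]

theorem lam_C6 (g : Matrix (Fin 4) (Fin 4) F) (h : gᵀ * J4 * g = J4) (v : Fin 6 → F) :
    (C6 g *ᵥ v) 4 - (C6 g *ᵥ v) 1 = v 4 - v 1 := by
  have h01 := congrFun (congrFun h 0) 1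
  have h02 := congrFun (congrFun h 0) 2
  have h03 := congrFun (congrFun h 0) 3
  have h23 := congrFun (congrFun h 2) 3
  have h31 := congrFun (congrFun h 3) 1
  have h12 := congrFun (congrFun h 1) 2
  simp [Matrix.mul_apply, Fin.sum_univ_four, J4] at h01 h02 h03 h23 h31 h12
  simp only [C6, Matrix.mulVec, dotProduct, Fin.sum_univ_six, kr, ks, Matrix.of_apply]
  simp
  linear_combination v 0 * h01 + v 1 * h02 + v 2 * h03 + v 3 * h23 + v 4 * h31 + v 5 * h12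

theorem C6_om6 (g : Matrix (Fin 4) (Fin 4) F) (h : g * J4 * gᵀ = J4) :
    C6 g *ᵥ om6 = om6 := by
  have h01 := congrFun (congrFun h 0) 1
  have h02 := congrFun (congrFun h 0) 2
  have h03 := congrFun (congrFun h 0) 3
  have h23 := congrFun (congrFun h 2) 3
  have h31 := congrFun (congrFun h 3) 1
  have h12 := congrFun (congrFun h 1) 2
  simp [Matrix.mul_apply, Fin.sum_univ_four, J4] at h01 h02 h03 h23 h31 h12
  ext i
  fin_cases i <;>
    simp [C6, Matrix.mulVec, dotProduct, Fin.sum_univ_six, kr, ks, Matrix.of_apply, om6]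
  · linear_combination -h01
  · linear_combination -h02
  · linear_combination -h03
  · linear_combination -h23
  · linear_combination -h31
  · linear_combination -h12

theorem I65_D5 (g : Matrix (Fin 4) (Fin 4) F) (h : gᵀ * J4 * g = J4) :
    I65 F * D5 g = C6 g * I65 F := by
  have hrow : ∀ j, (C6 g * I65 F) 4 j = (C6 g * I65 F) 1 j := by
    intro j
    have := lam_C6 g h (fun k => I65 F k j)
    have e : I65 F 4 j - I65 F 1 j = 0 := by
      fin_cases j <;> simp [I65]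
    rw [e] at this
    exact sub_eq_zero.mp this
  rw [D5, Matrix.mul_assoc (P56 F)]
  generalize C6 g * I65 F = M at hrow ⊢
  ext i j
  fin_cases i <;>
    simp [Matrix.mul_apply, Fin.sum_univ_six, Fin.sum_univ_five, I65, P56, hrow,
      Matrix.vecMul, dotProduct]

theorem D5_mul (g h : Matrix (Fin 4) (Fin 4) F) (hh : hᵀ * J4 * h = J4) :
    D5 (g * h) = D5 g * D5 h := by
  rw [D5, C6_mul, Matrix.mul_assoc, Matrix.mul_assoc, ← I65_D5 h hh, D5, D5]
  simp only [Matrix.mul_assoc]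

theorem D5_one : D5 (1 : Matrix (Fin 4) (Fin 4) F) = 1 := by
  rw [D5, C6_one, Matrix.mul_one, P56_I65]

theorem Q5_D5 (g : Matrix (Fin 4) (Fin 4) F) (h : gᵀ * J4 * g = J4) (hd : g.det = 1)
    (x : Fin 5 → F) : Q5 (D5 g *ᵥ x) = Q5 x := by
  rw [Q5_eq, Q5_eq, Matrix.mulVec_mulVec, I65_D5 g h, ← Matrix.mulVec_mulVec, Q6_C6, hd, one_mul]

theorem C6_eq_one_of_D5 (h2 : (2 : F) ≠ 0) (g : Matrix (Fin 4) (Fin 4) F)
    (h : gᵀ * J4 * g = J4) (h' : g * J4 * gᵀ = J4) (hD : D5 g = 1) : C6 g = 1 := by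
  have h1 : C6 g * I65 F = I65 F := by rw [← I65_D5 g h, hD, Matrix.mul_one]
  apply Matrix.mulVec_injective
  funext v
  rw [Matrix.one_mulVec]
  have hv : v = I65 F *ᵥ ![(v 1 + v 4) / 2, v 0, v 2, v 3, v 5] + ((v 1 - v 4) / 2) • om6 := by
    ext i
    fin_cases i <;> simp [I65, om6, Matrix.mulVec, dotProduct, Fin.sum_univ_five] <;>
      field_simp <;> ring
  conv_lhs => rw [hv]
  rw [Matrix.mulVec_add, Matrix.mulVec_mulVec, h1, Matrix.mulVec_smul, C6_om6 g h', ← hv]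

/-- index bijection -/
def idx4 : Fin 2 ⊕ Fin 2 ≃ Fin 4 where
  toFun x := match x with
    | .inl i => ![0, 1] i
    | .inr i => ![2, 3] i
  invFun i := ![.inl 0, .inl 1, .inr 0, .inr 1] i
  left_inv x := by
    rcases x with x | x <;> fin_cases x <;> rfl
  right_inv i := by fin_cases i <;> rfl

/-- reindexing -/
def r4 (A : Matrix (Fin 2 ⊕ Fin 2) (Fin 2 ⊕ Fin 2) F) : Matrix (Fin 4) (Fin 4) F :=
  A.submatrix idx4.symm idx4.symm

theorem r4_mul (A B : Matrix (Fin 2 ⊕ Fin 2) (Fin 2 ⊕ Fin 2) F) : r4 (A * B) = r4 A * r4 B := by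
  rw [r4, r4, r4, Matrix.submatrix_mul_equiv]

theorem r4_one : r4 (1 : Matrix (Fin 2 ⊕ Fin 2) (Fin 2 ⊕ Fin 2) F) = 1 := by
  rw [r4, Matrix.submatrix_one_equiv]

theorem r4_transpose (A : Matrix (Fin 2 ⊕ Fin 2) (Fin 2 ⊕ Fin 2) F) : r4 Aᵀ = (r4 A)ᵀ := rfl

theorem r4_J : r4 (Matrix.J (Fin 2) F) = J4 := by
  ext i j
  fin_cases i <;> fin_cases j <;> simp [r4, Matrix.J, idx4, J4, Matrix.one_apply]

theorem r4_det (A : Matrix (Fin 2 ⊕ Fin 2) (Fin 2 ⊕ Fin 2) F) : (r4 A).det = A.det := by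
  rw [r4, Matrix.det_submatrix_equiv_self]

theorem r4_injective : Function.Injective (r4 (F := F)) := by
  intro A B h
  ext i j
  have := congrFun (congrFun h (idx4 i)) (idx4 j)
  simpa [r4] using this

local notation "Sp4" => Matrix.symplecticGroup (Fin 2) F

theorem r4_sp (A : Sp4) : (r4 A.1)ᵀ * J4 * r4 A.1 = J4 := by
  rw [← r4_transpose, ← r4_J, ← r4_mul, ← r4_mul, SymplecticGroup.mem_iff'.mp A.2]

theorem r4_sp' (A : Sp4) : r4 A.1 * J4 * (r4 A.1)ᵀ = J4 := by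
  rw [← r4_transpose, ← r4_J, ← r4_mul, ← r4_mul, SymplecticGroup.mem_iff.mp A.2]

theorem r4_sp_det (A : Sp4) : (r4 A.1).det = 1 := by
  rw [r4_det, SymplecticGroup.det_eq_one A.2]

def D5hom : Sp4 →* Matrix (Fin 5) (Fin 5) F where
  toFun A := D5 (r4 A.1)
  map_one' := by
    show D5 (r4 1) = 1
    rw [r4_one, D5_one]
  map_mul' A B := by
    show D5 (r4 (A.1 * B.1)) = _
    rw [r4_mul, D5_mul _ _ (r4_sp B)]

/-- the homomorphism `Sp₄ → O₅` -/
noncomputable def Psi5 : Sp4 →* Cfsg.isometryGroup F (Q5 (F := F)) :=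
  (D5hom (F := F)).toHomUnits.codRestrict _ (by
    intro A
    rw [Cfsg.Agent.Lib.Helper18.mem_isometryGroup_iff]
    intro v
    show Q5 (D5 (r4 A.1) *ᵥ v) = Q5 v
    exact Q5_D5 _ (r4_sp A) (r4_sp_det A) v)

theorem Psi5_coe (A : Sp4) : ((Psi5 A).1 : Matrix (Fin 5) (Fin 5) F) = D5 (r4 A.1) := rfl

/-- the index bijection -/
def idx5 : Unit ⊕ (Fin 2 ⊕ Fin 2) ≃ Fin 5 where
  toFun x := match x with
    | .inl _ => 0
    | .inr (.inl i) => ![1, 2] i
    | .inr (.inr i) => ![3, 4] i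
  invFun i := ![.inl (), .inr (.inl 0), .inr (.inl 1), .inr (.inr 0), .inr (.inr 1)] i
  left_inv x := by
    rcases x with _ | x | x
    · rfl
    · fin_cases x <;> rfl
    · fin_cases x <;> rfl
  right_inv i := by fin_cases i <;> rfl

noncomputable def E5 : Cfsg.isometryGroup F (Cfsg.quadFormOdd 2 F) ≃*
    Cfsg.isometryGroup F (Q5 (F := F)) :=
  Cfsg.Agent.Lib.Helper18.isoReindex idx5 Q5 (Cfsg.quadFormOdd 2 F) (by
    intro v
    simp only [Cfsg.quadFormOdd, Q5, Function.comp, Fin.sum_univ_two]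
    rfl)

theorem Psi5_ker (h2 : (2 : F) ≠ 0) (A : Sp4) (hA : A ∈ (Psi5 (F := F)).ker) :
    r4 A.1 0 0 ^ 2 = 1 ∧ r4 A.1 = r4 A.1 0 0 • (1 : Matrix (Fin 4) (Fin 4) F) := by
  apply C6_eq_one
  apply C6_eq_one_of_D5 h2 _ (r4_sp A) (r4_sp' A)
  rw [← Psi5_coe, MonoidHom.mem_ker.mp hA]
  rfl

theorem card_Psi5_ker [Fintype F] (h2 : (2 : F) ≠ 0) : Nat.card (Psi5 (F := F)).ker ≤ 2 := by
  refine (card_le_of_pm_one (fun s : (Psi5 (F := F)).ker => r4 s.1.1 0 0) ?_ ?_).1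
  · intro s t hst
    apply Subtype.ext
    apply Subtype.ext
    apply r4_injective
    rw [(Psi5_ker h2 s.1 s.2).2, (Psi5_ker h2 t.1 t.2).2]
    have : r4 s.1.1 0 0 = r4 t.1.1 0 0 := hst
    rw [this]
  · intro s
    exact (Psi5_ker h2 s.1 s.2).1

theorem pomega5_equiv_psp4 [Fintype F] (hodd : Odd (Fintype.card F)) :
    Nonempty (Cfsg.POmega F (Cfsg.quadFormOdd 2 F) ≃* Cfsg.PSp 2 F) := by
  classical
  have h2 : (2 : F) ≠ 0 := by
    apply Ring.two_ne_zero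
    intro hc
    have := FiniteField.even_card_of_char_two hc
    rcases hodd with ⟨k, hk⟩
    omega
  have hq3 : 3 ≤ Fintype.card F := by
    have : 1 < Fintype.card F := Fintype.one_lt_card
    rcases hodd with ⟨k, hk⟩
    omega
  have hperf : commutator Sp4 = ⊤ := Cfsg.Agent.S0269.result 2 (Or.inr (Or.inl ⟨rfl, hq3⟩))
  have hπ : Function.Surjective (QuotientGroup.mk' (Subgroup.center Sp4)) :=
    QuotientGroup.mk'_surjective _
  have hkψ : ((E5 (F := F)).symm.toMonoidHom.comp Psi5).ker = (Psi5 (F := F)).ker := by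
    ext s
    rw [MonoidHom.mem_ker, MonoidHom.mem_ker]
    show E5.symm (Psi5 s) = 1 ↔ _
    rw [MulEquiv.map_eq_one_iff]
  refine pomega_of_hom ((E5 (F := F)).symm.toMonoidHom.comp Psi5)
    (QuotientGroup.mk' (Subgroup.center Sp4)) hπ
    (center_eq_bot_of_perfect hperf _ hπ (QuotientGroup.ker_mk' _)) ?_ ?_ ?_ ?_
  · intro s
    have h1 : s ∈ commutator Sp4 := hperf ▸ Subgroup.mem_top s
    have h3 : (commutator Sp4).map
        ((E5 (F := F)).symm.toMonoidHom.comp Psi5) ≤ commutator _ := by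
      rw [commutator_def, Subgroup.map_commutator]
      exact Subgroup.commutator_mono le_top le_top
    exact h3 (Subgroup.mem_map_of_mem _ h1)
  · rw [hkψ, QuotientGroup.ker_mk']
    intro s hs
    obtain ⟨h1, h3⟩ := Psi5_ker h2 s hs
    rw [Subgroup.mem_center_iff]
    intro t
    apply Subtype.ext
    apply r4_injective
    show r4 (t.1 * s.1) = r4 (s.1 * t.1)
    rw [r4_mul, r4_mul, h3]
    simp
  · rw [QuotientGroup.ker_mk']
  · rw [hkψ]
    have hQ := Cfsg.Agent.Lib.Helper15.oddQ_nondegenerate (F := F) 2 h2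
    have hcard : Fintype.card (Unit ⊕ (Fin 2 ⊕ Fin 2)) = 5 := by simp
    have hO := Cfsg.Agent.S0286.result (F := F) rfl hodd 2
    have hidx := Subgroup.card_mul_index (Cfsg.Omega F (Cfsg.quadFormOdd 2 F))
    rw [hO] at hidx
    rw [Cfsg.Agent.S0245.result (F := F) rfl 2]
    have hk2 := card_Psi5_ker (F := F) h2
    show Nat.card (Cfsg.Omega F (Cfsg.quadFormOdd 2 F)) * _ ≤ _
    have hi := Cfsg.Agent.Lib.Helper15.index_Omega_odd (Cfsg.Agent.Lib.Helper15.oddQ 2 F) h2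
      (by omega) hQ
    rw [Cfsg.Agent.Lib.Helper15.coe_oddQ] at hi
    rw [hi] at hidx
    calc Nat.card (Cfsg.Omega F (Cfsg.quadFormOdd 2 F)) * Nat.card (Psi5 (F := F)).ker
        ≤ Nat.card (Cfsg.Omega F (Cfsg.quadFormOdd 2 F)) * 2 := Nat.mul_le_mul_left _ hk2
      _ = _ := by
        apply Nat.eq_of_mul_eq_mul_left (show 0 < 2 by norm_num)
        have : 2 * (Nat.card (Cfsg.Omega F (Cfsg.quadFormOdd 2 F)) * 2)
          = Nat.card (Cfsg.Omega F (Cfsg.quadFormOdd 2 F)) * 4 := by ring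
        rw [this, hidx]
        ring


end Cfsg.Agent.H14
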