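import Mathlib
import Cfsg.Agent.H14.Omega5
import Cfsg.Agent.H14.SL2b
import Cfsg.Agent.Lib.Helper18.GLComm

/-! # `PΩ₄⁺(q) ≅ PSL₂(q) × PSL₂(q)` -/

set_option autoImplicit false
set_option linter.unusedSimpArgs false
set_option linter.unusedVariables false
set_option linter.unusedSectionVars false

namespace Cfsg.Agent.H14

open Matrix

variable {F : Type*} [Field F]

local notation "SL2" => Matrix.SpecialLinearGroup (Fin 2) F
local notation "PSL2" => Matrix.ProjectiveSpecialLinearGroup (Fin 2) F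

theorem center_psl2_eq_bot' : Subgroup.center PSL2 = ⊥ := by
  rw [eq_bot_iff]
  intro x hx
  obtain ⟨s, rfl⟩ := QuotientGroup.mk_surjective x
  rw [Subgroup.mem_bot, QuotientGroup.eq_one_iff, mem_center_iff_isScal]
  rw [Subgroup.mem_center_iff] at hx
  have key : ∀ u : SL2, ∃ c : F, s.1 * u.1 = c • (u.1 * s.1) := by
    intro u
    have h1 : ((u * s : SL2) : PSL2) = ((s * u : SL2) : PSL2) := hx (u : PSL2)
    rw [QuotientGroup.eq, mem_center_iff_isScal] at h1
    refine ⟨((u * s)⁻¹ * (s * u)).1 0 0, ?_⟩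
    have h2 := h1.eq_smul
    have h3 : (s * u) = (u * s) * ((u * s)⁻¹ * (s * u)) := by group
    rw [← Matrix.SpecialLinearGroup.coe_mul, ← Matrix.SpecialLinearGroup.coe_mul]
    conv_lhs => rw [h3, Matrix.SpecialLinearGroup.coe_mul, h2]
    simp
  have hdet := sl2_det s
  obtain ⟨c, hc⟩ := key (mkSL !![1, 1; 0, 1] (by simp [Matrix.det_fin_two_of]))
  obtain ⟨c', hc'⟩ := key (mkSL !![1, 0; 1, 1] (by simp [Matrix.det_fin_two_of]))
  have a10 := congrFun (congrFun hc 1) 0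
  have a00 := congrFun (congrFun hc 0) 0
  have a01 := congrFun (congrFun hc 0) 1
  have b01 := congrFun (congrFun hc' 0) 1
  have b11 := congrFun (congrFun hc' 1) 1
  simp [mkSL, Matrix.mul_apply, Fin.sum_univ_two, Matrix.vecMul, dotProduct] at a10 a00 a01 b01 b11
  have h10 : s.1 1 0 = 0 ∧ s.1 0 0 = s.1 1 1 := by
    by_cases h1 : c = 1
    · subst h1
      exact ⟨by linear_combination -a00, by linear_combination a01⟩
    · exfalso
      have hne : 1 - c ≠ 0 := sub_ne_zero.mpr (Ne.symm h1)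
      have z10 : s.1 1 0 = 0 := by
        apply mul_left_cancel₀ hne
        linear_combination a10
      have z00 : s.1 0 0 = 0 := by
        apply mul_left_cancel₀ hne
        linear_combination a00 + c * z10
      rw [z10, z00] at hdet
      simp at hdet
  have h01 : s.1 0 1 = 0 := by
    by_cases h1 : c' = 1
    · subst h1
      linear_combination -b11
    · exfalso
      have hne : 1 - c' ≠ 0 := sub_ne_zero.mpr (Ne.symm h1)
      have z01 : s.1 0 1 = 0 := by
        apply mul_left_cancel₀ hne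
        linear_combination b01
      have z11 : s.1 1 1 = 0 := by
        apply mul_left_cancel₀ hne
        linear_combination b11 + c' * z01
      rw [z01, z11] at hdet
      simp at hdet
  exact ⟨h01, h10.1, h10.2⟩

/-- matrix of `X ↦ g X adj(h)` on `M₂(F)` -/
def T4 (g h : Matrix (Fin 2) (Fin 2) F) : Matrix (Fin 4) (Fin 4) F :=
  !![g 0 0 * h 1 1, -(g 0 0 * h 1 0), -(g 0 1 * h 1 0), -(g 0 1 * h 1 1);
     -(g 0 0 * h 0 1), g 0 0 * h 0 0, g 0 1 * h 0 0, g 0 1 * h 0 1;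
     -(g 1 0 * h 0 1), g 1 0 * h 0 0, g 1 1 * h 0 0, g 1 1 * h 0 1;
     -(g 1 0 * h 1 1), g 1 0 * h 1 0, g 1 1 * h 1 0, g 1 1 * h 1 1]

def Q4 (v : Fin 4 → F) : F := v 0 * v 2 + v 1 * v 3

theorem T4_mul (g h g' h' : Matrix (Fin 2) (Fin 2) F) :
    T4 (g * g') (h * h') = T4 g h * T4 g' h' := by
  ext i j
  fin_cases i <;> fin_cases j <;>
    simp [T4, Matrix.mul_apply, Fin.sum_univ_four, Fin.sum_univ_two] <;> ring

theorem T4_one : T4 (1 : Matrix (Fin 2) (Fin 2) F) 1 = 1 := by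
  ext i j
  fin_cases i <;> fin_cases j <;> simp [T4, Matrix.one_apply]

theorem Q4_T4 (g h : Matrix (Fin 2) (Fin 2) F) (v : Fin 4 → F) :
    Q4 (T4 g h *ᵥ v) = g.det * h.det * Q4 v := by
  simp [Q4, T4, Matrix.mulVec, dotProduct, Fin.sum_univ_four, Matrix.det_fin_two]
  ring

theorem Q4_smul (c : F) (v : Fin 4 → F) : Q4 (c • v) = c ^ 2 * Q4 v := by
  simp [Q4]; ring

/-- `(g,h) ↦ (X ↦ g X h⁻¹)` as a monoid hom into matrices -/
noncomputable def Th : GL (Fin 2) F × GL (Fin 2) F →* Matrix (Fin 4) (Fin 4) F where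
  toFun p := (p.2.1.det)⁻¹ • T4 p.1.1 p.2.1
  map_one' := by
    show ((1 : Matrix (Fin 2) (Fin 2) F).det)⁻¹ • T4 (1 : Matrix (Fin 2) (Fin 2) F) 1 = 1
    rw [T4_one, Matrix.det_one, inv_one, one_smul]
  map_mul' p p' := by
    show ((p.2.1 * p'.2.1).det)⁻¹ • T4 (p.1.1 * p'.1.1) (p.2.1 * p'.2.1) = _
    rw [T4_mul, Matrix.det_mul, Matrix.smul_mul, Matrix.mul_smul, smul_smul, _root_.mul_inv]

theorem Q4_Th (p : GL (Fin 2) F × GL (Fin 2) F) (hp : p.1.1.det = p.2.1.det) (v : Fin 4 → F) :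
    Q4 (Th p *ᵥ v) = Q4 v := by
  show Q4 (((p.2.1.det)⁻¹ • T4 p.1.1 p.2.1) *ᵥ v) = Q4 v
  rw [Matrix.smul_mulVec, Q4_smul, Q4_T4, hp]
  have : p.2.1.det ≠ 0 := (Matrix.GeneralLinearGroup.det p.2).ne_zero
  field_simp

def dmat : F →* Matrix (Fin 2) (Fin 2) F where
  toFun a := !![a, 0; 0, 1]
  map_one' := by
    ext i j
    fin_cases i <;> fin_cases j <;> simp
  map_mul' a b := by
    ext i j
    fin_cases i <;> fin_cases j <;> simp [Matrix.mul_apply, Fin.sum_univ_two]

/-- `g ↦ diag(det g, 1)` -/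
noncomputable def mdet : GL (Fin 2) F →* GL (Fin 2) F :=
  (Units.map dmat).comp Matrix.GeneralLinearGroup.det

theorem mdet_det (g : GL (Fin 2) F) : (mdet g).1.det = g.1.det := by
  show (!![g.1.det, 0; 0, 1] : Matrix (Fin 2) (Fin 2) F).det = _
  simp [Matrix.det_fin_two_of]

theorem mdet_toGL (s : SL2) : mdet (Matrix.SpecialLinearGroup.toGL s) = 1 := by
  apply Units.ext
  show (!![s.1.det, 0; 0, 1] : Matrix (Fin 2) (Fin 2) F) = 1
  rw [s.2]
  exact dmat.map_one

local notation "O4" => Cfsg.isometryGroup F (Q4 (F := F))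

noncomputable def lam4 : GL (Fin 2) F →* O4 :=
  ((Th (F := F)).toHomUnits.comp ((MonoidHom.id _).prod mdet)).codRestrict _ (by
    intro g
    rw [Cfsg.Agent.Lib.Helper18.mem_isometryGroup_iff]
    intro v
    exact Q4_Th (g, mdet g) (mdet_det g).symm v)

noncomputable def mu4 : GL (Fin 2) F →* O4 :=
  ((Th (F := F)).toHomUnits.comp (mdet.prod (MonoidHom.id _))).codRestrict _ (by
    intro g
    rw [Cfsg.Agent.Lib.Helper18.mem_isometryGroup_iff]
    intro v
    exact Q4_Th (mdet g, g) (mdet_det g) v)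

noncomputable def Psi4 : SL2 × SL2 →* O4 :=
  ((Th (F := F)).toHomUnits.comp
    (Matrix.SpecialLinearGroup.toGL.prodMap Matrix.SpecialLinearGroup.toGL)).codRestrict _ (by
    intro p
    rw [Cfsg.Agent.Lib.Helper18.mem_isometryGroup_iff]
    intro v
    exact Q4_Th (Matrix.SpecialLinearGroup.toGL p.1, Matrix.SpecialLinearGroup.toGL p.2)
      (p.1.2.trans p.2.2.symm) v)

theorem Psi4_coe (p : SL2 × SL2) : ((Psi4 p).1 : Matrix (Fin 4) (Fin 4) F) = T4 p.1.1 p.2.1 := by
  show (p.2.1.det)⁻¹ • T4 p.1.1 p.2.1 = _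
  rw [p.2.2, inv_one, one_smul]

theorem Psi4_left (s : SL2) : Psi4 (s, 1) = lam4 (Matrix.SpecialLinearGroup.toGL s) := by
  apply Subtype.ext
  show (Th (F := F)).toHomUnits (Matrix.SpecialLinearGroup.toGL s, Matrix.SpecialLinearGroup.toGL 1)
    = (Th (F := F)).toHomUnits (Matrix.SpecialLinearGroup.toGL s,
      mdet (Matrix.SpecialLinearGroup.toGL s))
  rw [mdet_toGL, map_one]

theorem Psi4_right (s : SL2) : Psi4 (1, s) = mu4 (Matrix.SpecialLinearGroup.toGL s) := by
  apply Subtype.ext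
  show (Th (F := F)).toHomUnits (Matrix.SpecialLinearGroup.toGL 1, Matrix.SpecialLinearGroup.toGL s)
    = (Th (F := F)).toHomUnits (mdet (Matrix.SpecialLinearGroup.toGL s),
      Matrix.SpecialLinearGroup.toGL s)
  rw [mdet_toGL, map_one]

theorem Psi4_mem_commutator (hF : ∃ a : F, a ≠ 0 ∧ a ≠ 1) (p : SL2 × SL2) :
    Psi4 p ∈ commutator O4 := by
  have hGL := Cfsg.Agent.Lib.Helper18.GL_commutator_eq_ker_det (F := F) 2 (fun _ => hF)
  have h1 : ∀ s : SL2, Matrix.SpecialLinearGroup.toGL s ∈ commutator (GL (Fin 2) F) := by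
    intro s
    rw [hGL, MonoidHom.mem_ker]
    apply Units.ext
    simp
  have h3 : ∀ f : GL (Fin 2) F →* O4, (commutator (GL (Fin 2) F)).map f ≤ commutator O4 := by
    intro f
    rw [commutator_def, Subgroup.map_commutator]
    exact Subgroup.commutator_mono le_top le_top
  have e : p = (p.1, 1) * (1, p.2) := by
    ext <;> simp
  rw [e, map_mul, Psi4_left, Psi4_right]
  exact mul_mem (h3 _ (Subgroup.mem_map_of_mem _ (h1 _))) (h3 _ (Subgroup.mem_map_of_mem _ (h1 _)))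

theorem Psi4_ker (p : SL2 × SL2) (hp : p ∈ (Psi4 (F := F)).ker) :
    p.1.1 0 0 ^ 2 = 1 ∧ IsScal p.1.1 ∧ IsScal p.2.1 ∧ p.2.1 0 0 = p.1.1 0 0 := by
  have h : T4 p.1.1 p.2.1 = 1 := by
    rw [← Psi4_coe, MonoidHom.mem_ker.mp hp]
    rfl
  obtain ⟨s, t⟩ := p
  have d1 := sl2_det s
  have e00 := congrFun (congrFun h 0) 0
  have e01 := congrFun (congrFun h 0) 1
  have e10 := congrFun (congrFun h 1) 0
  have e03 := congrFun (congrFun h 0) 3
  have e30 := congrFun (congrFun h 3) 0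
  have e11 := congrFun (congrFun h 1) 1
  have e22 := congrFun (congrFun h 2) 2
  simp only [T4, Matrix.of_apply, Matrix.cons_val', Matrix.cons_val_zero, Matrix.cons_val_one,
    Matrix.cons_val_fin_one, Matrix.cons_val, Matrix.one_apply] at e00 e01 e10 e03 e30 e11 e22
  norm_num at e00 e01 e10 e03 e30 e11 e22
  rw [if_neg (by decide)] at e03 e30
  have hs0 : s.1 0 0 ≠ 0 := left_ne_zero_of_mul (e00 ▸ one_ne_zero)
  have ht1 : t.1 1 1 ≠ 0 := right_ne_zero_of_mul (e00 ▸ one_ne_zero)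
  have ht0 : t.1 0 0 ≠ 0 := right_ne_zero_of_mul (e11 ▸ one_ne_zero)
  have t10 : t.1 1 0 = 0 := e01.resolve_left hs0
  have t01 : t.1 0 1 = 0 := e10.resolve_left hs0
  have s01 : s.1 0 1 = 0 := by
    have : s.1 0 1 * t.1 1 1 = 0 := by linear_combination -e03
    exact (mul_eq_zero.mp this).resolve_right ht1
  have s10 : s.1 1 0 = 0 := by
    have : s.1 1 0 * t.1 1 1 = 0 := by linear_combination -e30
    exact (mul_eq_zero.mp this).resolve_right ht1
  have s11 : s.1 0 0 = s.1 1 1 := by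
    apply mul_right_cancel₀ ht0
    rw [e11, e22]
  have t11 : t.1 0 0 = t.1 1 1 := by
    apply mul_left_cancel₀ hs0
    rw [e11, e00]
  have hsq : s.1 0 0 ^ 2 = 1 := by
    rw [s01, ← s11] at d1
    linear_combination d1
  refine ⟨hsq, ⟨s01, s10, s11⟩, ⟨t01, t10, t11⟩, ?_⟩
  show t.1 0 0 = s.1 0 0
  linear_combination (-(t.1 0 0)) * hsq + s.1 0 0 * e11

theorem card_Psi4_ker [Fintype F] :
    Nat.card (Psi4 (F := F)).ker ≤ 2 ∧ ((2 : F) = 0 → Nat.card (Psi4 (F := F)).ker ≤ 1) := by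
  apply card_le_of_pm_one (fun s : (Psi4 (F := F)).ker => s.1.1.1 0 0)
  · intro s t hst
    have hst' : s.1.1.1 0 0 = t.1.1.1 0 0 := hst
    obtain ⟨-, a1, a2, a3⟩ := Psi4_ker s.1 s.2
    obtain ⟨-, b1, b2, b3⟩ := Psi4_ker t.1 t.2
    apply Subtype.ext
    apply Prod.ext
    · apply Subtype.ext
      rw [a1.eq_smul, b1.eq_smul, hst']
    · apply Subtype.ext
      rw [a2.eq_smul, b2.eq_smul, a3, b3, hst']
  · intro s
    exact (Psi4_ker s.1 s.2).1

theorem card_SL2' [Fintype F] : Nat.card SL2 =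
    Fintype.card F * (Fintype.card F ^ 2 - 1) := by
  have h1 := Cfsg.Agent.Lib.Helper18.card_GL_eq (n := Fin 2) (F := F)
  rw [Matrix.card_GL_field] at h1
  simp only [Fin.prod_univ_two] at h1
  set q := Fintype.card F with hq
  have hq1 : 1 < q := Fintype.one_lt_card
  have e1 : q ^ 2 - q ^ ((1 : Fin 2) : ℕ) = q * (q - 1) := by
    rw [Nat.mul_sub]; simp; ring_nf
  have e0 : q ^ 2 - q ^ ((0 : Fin 2) : ℕ) = q ^ 2 - 1 := by simp
  rw [e0, e1] at h1
  have hpos : 0 < q - 1 := by omega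
  apply Nat.eq_of_mul_eq_mul_left hpos
  rw [← h1]
  ring

noncomputable def E4 : Cfsg.isometryGroup F (Cfsg.quadFormPlus 2 F) ≃* O4 :=
  Cfsg.Agent.Lib.Helper18.isoReindex idx4 Q4 (Cfsg.quadFormPlus 2 F) (by
    intro v
    simp only [Cfsg.quadFormPlus, Q4, Function.comp, Fin.sum_univ_two]
    rfl)

theorem pomega4_equiv [Fintype F] (hF : 3 ≤ Fintype.card F) :
    Nonempty (Cfsg.POmega F (Cfsg.quadFormPlus 2 F) ≃* PSL2 × PSL2) := by
  classical
  have hF' : ∃ a : F, a ≠ 0 ∧ a ≠ 1 := by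
    by_contra hcon
    push Not at hcon
    have : Fintype.card F ≤ ({0, 1} : Finset F).card := by
      rw [← Finset.card_univ]
      apply Finset.card_le_card
      intro a _
      by_cases ha : a = 0
      · simp [ha]
      · simp [hcon a ha]
    have h2 : ({0, 1} : Finset F).card ≤ 2 := Finset.card_le_two
    omega
  let π : SL2 × SL2 →* PSL2 × PSL2 :=
    (QuotientGroup.mk' (Subgroup.center SL2)).prodMap (QuotientGroup.mk' (Subgroup.center SL2))
  have hπ : Function.Surjective π := by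
    rintro ⟨a, b⟩
    obtain ⟨s, rfl⟩ := QuotientGroup.mk_surjective a
    obtain ⟨t, rfl⟩ := QuotientGroup.mk_surjective b
    exact ⟨(s, t), rfl⟩
  have hπk : ∀ p : SL2 × SL2, p ∈ π.ker ↔
      p.1 ∈ Subgroup.center SL2 ∧ p.2 ∈ Subgroup.center SL2 := by
    intro p
    rw [MonoidHom.mem_ker]
    show ((p.1 : PSL2), (p.2 : PSL2)) = 1 ↔ _
    rw [Prod.mk_eq_one, QuotientGroup.eq_one_iff, QuotientGroup.eq_one_iff]
  have hP : Subgroup.center (PSL2 × PSL2) = ⊥ := by
    rw [eq_bot_iff]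
    rintro ⟨a, b⟩ hab
    rw [Subgroup.mem_center_iff] at hab
    have ha : a ∈ Subgroup.center PSL2 := by
      rw [Subgroup.mem_center_iff]
      intro g
      exact congrArg Prod.fst (hab (g, 1))
    have hb : b ∈ Subgroup.center PSL2 := by
      rw [Subgroup.mem_center_iff]
      intro g
      exact congrArg Prod.snd (hab (1, g))
    rw [center_psl2_eq_bot', Subgroup.mem_bot] at ha hb
    rw [Subgroup.mem_bot, ha, hb]
    rfl
  have hkψ : ((E4 (F := F)).symm.toMonoidHom.comp Psi4).ker = (Psi4 (F := F)).ker := by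
    ext s
    rw [MonoidHom.mem_ker, MonoidHom.mem_ker]
    show E4.symm (Psi4 s) = 1 ↔ _
    rw [MulEquiv.map_eq_one_iff]
  refine pomega_of_hom ((E4 (F := F)).symm.toMonoidHom.comp Psi4) π hπ hP ?_ ?_ ?_ ?_
  · intro s
    have h1 := Psi4_mem_commutator hF' s
    have h3 : (commutator O4).map (E4 (F := F)).symm.toMonoidHom ≤ commutator _ := by
      rw [commutator_def, Subgroup.map_commutator]
      exact Subgroup.commutator_mono le_top le_top
    exact h3 (Subgroup.mem_map_of_mem _ h1)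
  · rw [hkψ]
    intro p hp
    obtain ⟨-, a1, a2, -⟩ := Psi4_ker p hp
    rw [hπk, mem_center_iff_isScal, mem_center_iff_isScal]
    exact ⟨a1, a2⟩
  · intro p hp
    rw [hπk] at hp
    rw [Subgroup.mem_center_iff]
    intro g
    exact Prod.ext (Subgroup.mem_center_iff.mp hp.1 g.1) (Subgroup.mem_center_iff.mp hp.2 g.2)
  · rw [hkψ]
    have hQ := Cfsg.Agent.Lib.Helper15.plusQ_nondegenerate (F := F) 2
    have hcard : Fintype.card (Fin 2 ⊕ Fin 2) = 4 := by simp
    have hO := Cfsg.Agent.S0287.result (F := F) rfl 2 (by omega)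
    have hidx := Subgroup.card_mul_index (Cfsg.Omega F (Cfsg.quadFormPlus 2 F))
    rw [hO] at hidx
    simp only [Finset.prod_range_succ, Finset.prod_range_zero] at hidx
    rw [Nat.card_prod, card_SL2']
    obtain ⟨hk2, hk1⟩ := card_Psi4_ker (F := F)
    show Nat.card (Cfsg.Omega F (Cfsg.quadFormPlus 2 F)) * _ ≤ _
    by_cases h2 : (2 : F) = 0
    · have : CharP F 2 := CharTwo.of_one_ne_zero_of_two_eq_zero one_ne_zero h2
      have hi := Cfsg.Agent.Lib.Helper15.index_Omega_two (Cfsg.Agent.Lib.Helper15.plusQ 2 F) hQ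
        (by omega) (Or.inl (by omega))
      rw [Cfsg.Agent.Lib.Helper15.coe_plusQ] at hi
      rw [hi] at hidx
      calc Nat.card (Cfsg.Omega F (Cfsg.quadFormPlus 2 F)) * Nat.card (Psi4 (F := F)).ker
          ≤ Nat.card (Cfsg.Omega F (Cfsg.quadFormPlus 2 F)) * 1 := Nat.mul_le_mul_left _ (hk1 h2)
        _ = _ := by
          apply Nat.eq_of_mul_eq_mul_left (show 0 < 2 by norm_num)
          rw [mul_one, mul_comm, hidx]
          ring_nf
    · have hi := Cfsg.Agent.Lib.Helper15.index_Omega_odd (Cfsg.Agent.Lib.Helper15.plusQ 2 F) h2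
        (by omega) hQ
      rw [Cfsg.Agent.Lib.Helper15.coe_plusQ] at hi
      rw [hi] at hidx
      calc Nat.card (Cfsg.Omega F (Cfsg.quadFormPlus 2 F)) * Nat.card (Psi4 (F := F)).ker
          ≤ Nat.card (Cfsg.Omega F (Cfsg.quadFormPlus 2 F)) * 2 := Nat.mul_le_mul_left _ hk2
        _ = _ := by
          apply Nat.eq_of_mul_eq_mul_left (show 0 < 2 by norm_num)
          have : 2 * (Nat.card (Cfsg.Omega F (Cfsg.quadFormPlus 2 F)) * 2)
            = Nat.card (Cfsg.Omega F (Cfsg.quadFormPlus 2 F)) * 4 := by ring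
          rw [this, hidx]
          ring_nf


end Cfsg.Agent.H14
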