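import Mathlib
import Cfsg.Agent.H14.Omega4
import Cfsg.Agent.Lib.Helper18.Herm6
import Cfsg.Agent.S0288

/-! # `PΩ₄⁻(q) ≅ PSL₂(q²)` -/

set_option autoImplicit false
set_option linter.unusedSimpArgs false
set_option linter.unusedVariables false
set_option linter.unusedSectionVars false

namespace Cfsg.Agent.H14

open Matrix Polynomial

theorem exists_quadratic_root {F K : Type*} [Field F] [Fintype F] [Field K] [Fintype K]
    (hK : Fintype.card K = Fintype.card F ^ 2) (a b : F)
    (hab : ∀ z₁ z₂ : F, z₁ ^ 2 + a * z₁ * z₂ + b * z₂ ^ 2 = 0 → z₁ = 0 ∧ z₂ = 0) :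
    ∃ (ι : F →+* K) (θ : K), θ ^ 2 - ι a * θ + ι b = 0 := by
  classical
  set f : F[X] := X ^ 2 - C a * X + C b with hf
  have hdeg : f.natDegree = 2 := by
    rw [hf]; compute_degree!
  have hmonic : f.Monic := by
    rw [hf]; monicity!
  have hirr : Irreducible f := by
    rw [hmonic.irreducible_iff_roots_eq_zero_of_degree_le_three (by omega) (by omega)]
    rw [Multiset.eq_zero_iff_forall_notMem]
    intro t ht
    rw [mem_roots hmonic.ne_zero, IsRoot.def, hf] at ht
    simp at ht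
    have := (hab (-t) 1 (by linear_combination ht)).2
    exact one_ne_zero this
  have : Fact (Irreducible f) := ⟨hirr⟩
  let pb := AdjoinRoot.powerBasis hmonic.ne_zero
  have : Module.Finite F (AdjoinRoot f) := pb.finite
  have : Finite (AdjoinRoot f) := Module.finite_of_finite F
  haveI : Fintype (AdjoinRoot f) := Fintype.ofFinite _
  have hcard : Fintype.card (AdjoinRoot f) = Fintype.card K := by
    rw [hK, Module.card_eq_pow_finrank (K := F) (V := AdjoinRoot f), pb.finrank,
      AdjoinRoot.powerBasis_dim, hdeg]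
  let e : AdjoinRoot f ≃+* K := FiniteField.ringEquivOfCardEq hcard
  refine ⟨e.toRingHom.comp (AdjoinRoot.of f), e (AdjoinRoot.root f), ?_⟩
  have h0 : (AdjoinRoot.root f) ^ 2 - AdjoinRoot.of f a * AdjoinRoot.root f + AdjoinRoot.of f b = 0 := by
    have := AdjoinRoot.eval₂_root f
    rw [hf] at this
    simpa [eval₂_add, eval₂_sub, eval₂_mul, eval₂_pow] using this
  have := congrArg e h0
  simpa using this

/-- data of a quadratic extension of finite fields with a chosen generator -/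
structure QData (F K : Type*) [Field F] [Fintype F] [Field K] [Fintype K] where
  q : ℕ
  hF : Fintype.card F = q
  hK : Fintype.card K = q ^ 2
  a : F
  b : F
  hab : ∀ z₁ z₂ : F, z₁ ^ 2 + a * z₁ * z₂ + b * z₂ ^ 2 = 0 → z₁ = 0 ∧ z₂ = 0
  ι : F →+* K
  θ : K
  hθ : θ ^ 2 - ι a * θ + ι b = 0

namespace QData

variable {F K : Type*} [Field F] [Fintype F] [Field K] [Fintype K] (D : QData F K)

/-- the Frobenius of `K / F` -/
def sig : K →+* K where
  toFun z := z ^ D.q
  map_one' := one_pow _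
  map_mul' x y := mul_pow x y _
  map_zero' := zero_pow (by have := Cfsg.Agent.Lib.Helper18.herm_q_pos D.hK; omega)
  map_add' x y := Cfsg.Agent.Lib.Helper18.herm_add_pow D.hK x y

theorem sig_apply (z : K) : D.sig z = z ^ D.q := rfl

theorem sig_sig (z : K) : D.sig (D.sig z) = z := Cfsg.Agent.Lib.Helper18.herm_pow_pow D.hK z

theorem sig_ι (x : F) : D.sig (D.ι x) = D.ι x := by
  rw [sig_apply, ← map_pow, ← D.hF, FiniteField.pow_card]

theorem fix_mem_range (z : K) (hz : D.sig z = z) : ∃ x, D.ι x = z := by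
  have hinj : Function.Injective (fun x : F => (⟨D.ι x, D.sig_ι x⟩ : {s : K // s ^ D.q = s})) := by
    intro x y h
    exact D.ι.injective (congrArg Subtype.val h)
  have hb := hinj.bijective_of_nat_card_le (by
    rw [Cfsg.Agent.Lib.Helper18.herm_card_fix D.hK, Nat.card_eq_fintype_card, D.hF])
  obtain ⟨x, hx⟩ := hb.2 ⟨z, hz⟩
  exact ⟨x, congrArg Subtype.val hx⟩

theorem theta_ne (t : F) : D.ι t ≠ D.θ := by
  intro h
  have h1 := D.hθ
  rw [← h, ← map_pow, ← map_mul, ← map_sub, ← map_add, map_eq_zero] at h1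
  have := (D.hab (-t) 1 (by linear_combination h1)).2
  exact one_ne_zero this

theorem sig_theta : D.sig D.θ = D.ι D.a - D.θ := by
  have h1 : D.sig D.θ ^ 2 - D.ι D.a * D.sig D.θ + D.ι D.b = 0 := by
    have := congrArg D.sig D.hθ
    simpa [sig_ι] using this
  have h2 : (D.sig D.θ - D.θ) * (D.sig D.θ - (D.ι D.a - D.θ)) = 0 := by
    linear_combination h1 - D.hθ
  rcases mul_eq_zero.mp h2 with h | h
  · exfalso
    obtain ⟨x, hx⟩ := D.fix_mem_range D.θ (sub_eq_zero.mp h)
    exact D.theta_ne x hx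
  · exact sub_eq_zero.mp h

theorem coords_unique {x y x' y' : F} (h : D.ι x + D.ι y * D.θ = D.ι x' + D.ι y' * D.θ) :
    x = x' ∧ y = y' := by
  have hy : y = y' := by
    by_contra hne
    have hne' : y - y' ≠ 0 := sub_ne_zero.mpr hne
    apply D.theta_ne ((x' - x) / (y - y'))
    have h3 : D.ι (y - y') ≠ 0 := (map_ne_zero D.ι).mpr hne'
    rw [map_div₀, div_eq_iff h3, map_sub, map_sub]
    linear_combination -h
  subst hy
  exact ⟨D.ι.injective (add_right_cancel h), rfl⟩

theorem exists_coords (z : K) : ∃ x y, z = D.ι x + D.ι y * D.θ := by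
  have hinj : Function.Injective (fun p : F × F => D.ι p.1 + D.ι p.2 * D.θ) := by
    intro p p' h
    obtain ⟨h1, h2⟩ := D.coords_unique h
    exact Prod.ext h1 h2
  have hb := hinj.bijective_of_nat_card_le (by
    rw [Nat.card_prod, Nat.card_eq_fintype_card, Nat.card_eq_fintype_card, D.hF, D.hK, pow_two])
  obtain ⟨p, hp⟩ := hb.2 z
  exact ⟨p.1, p.2, hp.symm⟩

/-- Hermitian matrix attached to a vector -/
def Hm (v : Fin 4 → F) : Matrix (Fin 2) (Fin 2) K :=
  !![D.ι (v 0), D.ι (v 2) + D.ι (v 3) * D.θ;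
     D.ι (v 2) + D.ι (v 3) * (D.ι D.a - D.θ), -D.ι (v 1)]

def Qm (v : Fin 4 → F) : F := v 0 * v 1 + (v 2 ^ 2 + D.a * v 2 * v 3 + D.b * v 3 ^ 2)

theorem det_Hm (v : Fin 4 → F) : (D.Hm v).det = -D.ι (D.Qm v) := by
  rw [Hm, Matrix.det_fin_two_of]
  simp only [Qm, map_add, map_mul, map_pow]
  linear_combination (D.ι (v 3)) ^ 2 * D.hθ

theorem Hm_add (v w : Fin 4 → F) : D.Hm (v + w) = D.Hm v + D.Hm w := by
  ext i j
  fin_cases i <;> fin_cases j <;> simp [Hm] <;> ring

theorem Hm_smul (c : F) (v : Fin 4 → F) : D.Hm (c • v) = D.ι c • D.Hm v := by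
  ext i j
  fin_cases i <;> fin_cases j <;> simp [Hm] <;> ring

theorem Hm_injective : Function.Injective D.Hm := by
  intro v w h
  have e00 := congrFun (congrFun h 0) 0
  have e01 := congrFun (congrFun h 0) 1
  have e11 := congrFun (congrFun h 1) 1
  simp [Hm] at e00 e01 e11
  obtain ⟨h2, h3⟩ := D.coords_unique e01
  ext i
  fin_cases i
  · exact D.ι.injective e00
  · exact D.ι.injective e11
  · exact h2
  · exact h3

/-- conjugate transpose -/
def star (g : Matrix (Fin 2) (Fin 2) K) : Matrix (Fin 2) (Fin 2) K := (g.map D.sig)ᵀ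

theorem star_mul (g h : Matrix (Fin 2) (Fin 2) K) : D.star (g * h) = D.star h * D.star g := by
  rw [star, star, star, Matrix.map_mul, Matrix.transpose_mul]

theorem star_star (g : Matrix (Fin 2) (Fin 2) K) : D.star (D.star g) = g := by
  ext i j
  simp [star, sig_sig]

theorem star_one : D.star 1 = 1 := by
  ext i j
  fin_cases i <;> fin_cases j <;> simp [star]

theorem det_star (g : Matrix (Fin 2) (Fin 2) K) : (D.star g).det = D.sig g.det := by
  rw [star, Matrix.det_transpose, RingHom.map_det]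
  rfl

theorem star_Hm (v : Fin 4 → F) : D.star (D.Hm v) = D.Hm v := by
  ext i j
  fin_cases i <;> fin_cases j <;> simp [star, Hm, sig_ι, sig_theta]

theorem mem_range_Hm (X : Matrix (Fin 2) (Fin 2) K) (hX : D.star X = X) : ∃ v, D.Hm v = X := by
  have e00 := congrFun (congrFun hX 0) 0
  have e10 := congrFun (congrFun hX 1) 0
  have e11 := congrFun (congrFun hX 1) 1
  simp [star] at e00 e10 e11
  obtain ⟨x, hx⟩ := D.fix_mem_range _ e00
  obtain ⟨y, hy⟩ := D.fix_mem_range _ e11
  obtain ⟨z₁, z₂, hz⟩ := D.exists_coords (X 0 1)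
  refine ⟨![x, -y, z₁, z₂], ?_⟩
  ext i j
  fin_cases i <;> fin_cases j
  · simpa [Hm] using hx
  · simpa [Hm] using hz.symm
  · simp [Hm]
    rw [← e10, hz]
    simp [sig_ι, sig_theta]
  · simpa [Hm] using hy

theorem exists_act (g : Matrix (Fin 2) (Fin 2) K) (v : Fin 4 → F) :
    ∃ w, D.Hm w = g * D.Hm v * D.star g := by
  apply D.mem_range_Hm
  rw [star_mul, star_mul, star_star, star_Hm, Matrix.mul_assoc]

noncomputable def actFun (g : Matrix (Fin 2) (Fin 2) K) (v : Fin 4 → F) : Fin 4 → F :=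
  Classical.choose (D.exists_act g v)

theorem Hm_actFun (g : Matrix (Fin 2) (Fin 2) K) (v : Fin 4 → F) :
    D.Hm (D.actFun g v) = g * D.Hm v * D.star g := Classical.choose_spec (D.exists_act g v)

noncomputable def actLin (g : Matrix (Fin 2) (Fin 2) K) : (Fin 4 → F) →ₗ[F] (Fin 4 → F) where
  toFun := D.actFun g
  map_add' v w := D.Hm_injective (by
    rw [Hm_actFun, Hm_add, Hm_add, Hm_actFun, Hm_actFun, Matrix.mul_add, Matrix.add_mul])
  map_smul' c v := D.Hm_injective (by
    rw [Hm_actFun, Hm_smul, RingHom.id_apply, Hm_smul, Hm_actFun, Matrix.mul_smul,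
      Matrix.smul_mul])

theorem actLin_apply (g : Matrix (Fin 2) (Fin 2) K) (v : Fin 4 → F) :
    D.actLin g v = D.actFun g v := rfl

noncomputable def actHom : Matrix.SpecialLinearGroup (Fin 2) K →* Matrix (Fin 4) (Fin 4) F where
  toFun g := LinearMap.toMatrix' (D.actLin g.1)
  map_one' := by
    have : D.actLin (1 : Matrix.SpecialLinearGroup (Fin 2) K).1 = LinearMap.id := by
      ext1 v
      apply LinearMap.ext
      intro c
      apply D.Hm_injective
      rw [LinearMap.comp_apply, LinearMap.comp_apply, actLin_apply, Hm_actFun]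
      simp [star_one]
    rw [this, LinearMap.toMatrix'_id]
  map_mul' g h := by
    have : D.actLin (g * h).1 = D.actLin g.1 ∘ₗ D.actLin h.1 := by
      apply LinearMap.ext
      intro v
      apply D.Hm_injective
      rw [LinearMap.comp_apply, actLin_apply, actLin_apply, actLin_apply, Hm_actFun, Hm_actFun,
        Hm_actFun, Matrix.SpecialLinearGroup.coe_mul, star_mul]
      simp only [Matrix.mul_assoc]
    rw [this, LinearMap.toMatrix'_comp]

theorem actHom_mulVec (g : Matrix.SpecialLinearGroup (Fin 2) K) (v : Fin 4 → F) :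
    D.actHom g *ᵥ v = D.actFun g.1 v := by
  show LinearMap.toMatrix' (D.actLin g.1) *ᵥ v = _
  rw [LinearMap.toMatrix'_mulVec]
  rfl

theorem Qm_act (g : Matrix.SpecialLinearGroup (Fin 2) K) (v : Fin 4 → F) :
    D.Qm (D.actFun g.1 v) = D.Qm v := by
  apply D.ι.injective
  apply neg_injective
  rw [← det_Hm, ← det_Hm, Hm_actFun, Matrix.det_mul, Matrix.det_mul, det_star, g.2]
  simp

end QData


section final

variable {F K : Type*} [Field F] [Fintype F] [Field K] [Fintype K] (D : QData F K)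

/-- the homomorphism `SL₂(K) → O₄⁻(F)` -/
noncomputable def Psi4m : Matrix.SpecialLinearGroup (Fin 2) K →* Cfsg.isometryGroup F D.Qm :=
  D.actHom.toHomUnits.codRestrict _ (by
    intro g
    rw [Cfsg.Agent.Lib.Helper18.mem_isometryGroup_iff]
    intro v
    show D.Qm (D.actHom g *ᵥ v) = D.Qm v
    rw [D.actHom_mulVec, D.Qm_act])

theorem Psi4m_ker (g : Matrix.SpecialLinearGroup (Fin 2) K) (hg : g ∈ (Psi4m D).ker) :
    g.1 0 0 ^ 2 = 1 ∧ IsScal g.1 := by
  have h1 : D.actHom g = 1 := by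
    have := congrArg (fun x => ((x : GL (Fin 4) F) : Matrix (Fin 4) (Fin 4) F))
      (congrArg Subtype.val (MonoidHom.mem_ker.mp hg))
    exact this
  have h2 : ∀ v, g.1 * D.Hm v * D.star g.1 = D.Hm v := by
    intro v
    rw [← D.Hm_actFun, ← D.actHom_mulVec, h1, Matrix.one_mulVec]
  have hdet := sl2_det g
  have hq : D.q ≠ 0 := by have := Cfsg.Agent.Lib.Helper18.herm_q_pos D.hK; omega
  have a := h2 ![1, 0, 0, 0]
  have b := h2 ![0, -1, 0, 0]
  have c := h2 ![0, 0, 1, 0]
  have a11 := congrFun (congrFun a 1) 1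
  have b00 := congrFun (congrFun b 0) 0
  have b11 := congrFun (congrFun b 1) 1
  have c01 := congrFun (congrFun c 0) 1
  simp [QData.Hm, QData.star, Matrix.mul_apply, Fin.sum_univ_two, QData.sig_apply] at a11 b00 b11 c01
  have g10 : g.1 1 0 = 0 := by rcases a11 with h | h; exacts [h, h.1]
  have g01 : g.1 0 1 = 0 := by rcases b00 with h | h; exacts [h, h.1]
  rw [g01, zero_mul, zero_add] at c01
  have hne : g.1 1 1 ^ D.q ≠ 0 := right_ne_zero_of_mul (b11 ▸ one_ne_zero)
  have g00 : g.1 0 0 = g.1 1 1 := by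
    apply mul_right_cancel₀ hne
    rw [c01, b11]
  refine ⟨?_, g01, g10, g00⟩
  rw [g01, ← g00] at hdet
  linear_combination hdet

theorem card_Psi4m_ker :
    Nat.card (Psi4m D).ker ≤ 2 ∧ ((2 : K) = 0 → Nat.card (Psi4m D).ker ≤ 1) := by
  apply card_le_of_pm_one (fun s : (Psi4m D).ker => s.1.1 0 0)
  · intro s t hst
    have hst' : s.1.1 0 0 = t.1.1 0 0 := hst
    apply Subtype.ext
    apply Subtype.ext
    rw [(Psi4m_ker D s.1 s.2).2.eq_smul, (Psi4m_ker D t.1 t.2).2.eq_smul, hst']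
  · intro s
    exact (Psi4m_ker D s.1 s.2).1

/-- index bijection -/
def idx4m : (Fin 1 ⊕ Fin 1) ⊕ Fin 2 ≃ Fin 4 where
  toFun x := match x with
    | .inl (.inl _) => 0
    | .inl (.inr _) => 1
    | .inr i => ![2, 3] i
  invFun i := ![.inl (.inl 0), .inl (.inr 0), .inr 0, .inr 1] i
  left_inv x := by
    rcases x with (x | x) | x <;> fin_cases x <;> rfl
  right_inv i := by fin_cases i <;> rfl

noncomputable def E4m : Cfsg.isometryGroup F (Cfsg.quadFormMinus 1 F D.a D.b) ≃*
    Cfsg.isometryGroup F D.Qm :=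
  Cfsg.Agent.Lib.Helper18.isoReindex idx4m D.Qm (Cfsg.quadFormMinus 1 F D.a D.b) (by
    intro v
    simp only [Cfsg.quadFormMinus, QData.Qm, Function.comp, Finset.univ_unique,
      Finset.sum_singleton]
    rfl)

theorem pomega4m_equiv_aux :
    Nonempty (Cfsg.POmega F (Cfsg.quadFormMinus 1 F D.a D.b) ≃*
      Matrix.ProjectiveSpecialLinearGroup (Fin 2) K) := by
  classical
  have hq1 := Cfsg.Agent.Lib.Helper18.herm_q_pos D.hK
  have hK4 : 4 ≤ Fintype.card K := by
    rw [D.hK]; nlinarith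
  obtain ⟨c, hc0, hc1⟩ : ∃ c : K, c ≠ 0 ∧ c ^ 2 ≠ 1 := by
    by_contra hcon
    push Not at hcon
    have : Fintype.card K ≤ ({0, 1, -1} : Finset K).card := by
      rw [← Finset.card_univ]
      apply Finset.card_le_card
      intro x _
      by_cases hx : x = 0
      · simp [hx]
      · rcases sq_eq_one_iff.mp (hcon x hx) with h | h <;> simp [h]
    have h3 : ({0, 1, -1} : Finset K).card ≤ 3 := Finset.card_le_three
    omega
  have hperf : commutator (Matrix.SpecialLinearGroup (Fin 2) K) = ⊤ :=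
    Matrix.SL2.commutator_eq_top hc0 hc1
  have hπ : Function.Surjective (QuotientGroup.mk' (Subgroup.center
      (Matrix.SpecialLinearGroup (Fin 2) K))) := QuotientGroup.mk'_surjective _
  have hkψ : ((E4m D).symm.toMonoidHom.comp (Psi4m D)).ker = (Psi4m D).ker := by
    ext s
    rw [MonoidHom.mem_ker, MonoidHom.mem_ker]
    show (E4m D).symm (Psi4m D s) = 1 ↔ _
    rw [MulEquiv.map_eq_one_iff]
  refine pomega_of_hom ((E4m D).symm.toMonoidHom.comp (Psi4m D))
    (QuotientGroup.mk' (Subgroup.center (Matrix.SpecialLinearGroup (Fin 2) K))) hπ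
    center_psl2_eq_bot' ?_ ?_ ?_ ?_
  · intro s
    have h1 : s ∈ commutator (Matrix.SpecialLinearGroup (Fin 2) K) := hperf ▸ Subgroup.mem_top s
    have h3 : (commutator (Matrix.SpecialLinearGroup (Fin 2) K)).map
        ((E4m D).symm.toMonoidHom.comp (Psi4m D)) ≤ commutator _ := by
      rw [commutator_def, Subgroup.map_commutator]
      exact Subgroup.commutator_mono le_top le_top
    exact h3 (Subgroup.mem_map_of_mem _ h1)
  · rw [hkψ, QuotientGroup.ker_mk']
    intro s hs
    rw [mem_center_iff_isScal]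
    exact (Psi4m_ker D s hs).2
  · rw [QuotientGroup.ker_mk']
  · rw [hkψ]
    have hQ := Cfsg.Agent.Lib.Helper15.minusQ_nondegenerate (F := F) 1 D.a D.b D.hab
    have hcard : Fintype.card ((Fin 1 ⊕ Fin 1) ⊕ Fin 2) = 4 := by simp
    have hO := Cfsg.Agent.S0288.result (F := F) D.hF 2 (by omega) D.a D.b D.hab
    have hidx := Subgroup.card_mul_index (Cfsg.Omega F (Cfsg.quadFormMinus 1 F D.a D.b))
    rw [show (2 - 1 : ℕ) = 1 from rfl] at hO
    rw [hO] at hidx
    simp only [Finset.prod_range_succ, Finset.prod_range_zero] at hidx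
    rw [card_SL2', D.hK]
    obtain ⟨hk2, hk1⟩ := card_Psi4m_ker D
    show Nat.card (Cfsg.Omega F (Cfsg.quadFormMinus 1 F D.a D.b)) * _ ≤ _
    have harith : D.q ^ 2 * ((D.q ^ 2) ^ 2 - 1) = D.q ^ (2 * (2 - 1)) * (D.q ^ 2 + 1) *
        (1 * (D.q ^ (2 * (0 + 1)) - 1)) := by
      obtain ⟨m, hm⟩ : ∃ m, D.q ^ 2 = m + 1 := ⟨D.q ^ 2 - 1, by
        have : 0 < D.q ^ 2 := by positivity
        omega⟩
      simp only [Nat.reduceSub, mul_one, zero_add, one_mul]
      rw [hm]
      have : (m + 1) ^ 2 - 1 = (m + 2) * m := by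
        have : (m + 1) ^ 2 = (m + 2) * m + 1 := by ring
        omega
      rw [this]
      simp
      ring
    by_cases h2 : (2 : F) = 0
    · have : CharP F 2 := CharTwo.of_one_ne_zero_of_two_eq_zero one_ne_zero h2
      have h2K : (2 : K) = 0 := by
        have := congrArg D.ι h2
        rwa [map_ofNat, map_zero] at this
      obtain ⟨v, hv⟩ := Cfsg.Agent.Lib.Helper15.exists_nonsingular
        (Cfsg.Agent.Lib.Helper15.minusQ 1 F D.a D.b) hQ (by omega)
      have hr := Cfsg.Agent.Lib.Helper15.refl_not_mem_Omega_two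
        (Cfsg.Agent.Lib.Helper15.minusQ 1 F D.a D.b) hQ v hv
      have hi : 2 ≤ (Cfsg.Omega F ⇑(Cfsg.Agent.Lib.Helper15.minusQ 1 F D.a D.b)).index := by
        have h0 : (Cfsg.Omega F ⇑(Cfsg.Agent.Lib.Helper15.minusQ 1 F D.a D.b)).index ≠ 0 :=
          Subgroup.index_ne_zero_of_finite
        have h1 : (Cfsg.Omega F ⇑(Cfsg.Agent.Lib.Helper15.minusQ 1 F D.a D.b)).index ≠ 1 := by
          intro h
          rw [Subgroup.index_eq_one] at h
          exact hr (h ▸ Subgroup.mem_top _)
        omega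
      rw [Cfsg.Agent.Lib.Helper15.coe_minusQ] at hi
      calc Nat.card (Cfsg.Omega F (Cfsg.quadFormMinus 1 F D.a D.b)) * Nat.card (Psi4m D).ker
          ≤ Nat.card (Cfsg.Omega F (Cfsg.quadFormMinus 1 F D.a D.b)) * 1 :=
            Nat.mul_le_mul_left _ (hk1 h2K)
        _ ≤ _ := by
          rw [harith, mul_one]
          have key : 2 * Nat.card (Cfsg.Omega F (Cfsg.quadFormMinus 1 F D.a D.b)) ≤
              2 * (D.q ^ (2 * (2 - 1)) * (D.q ^ 2 + 1) * (1 * (D.q ^ (2 * (0 + 1)) - 1))) := by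
            calc 2 * Nat.card (Cfsg.Omega F (Cfsg.quadFormMinus 1 F D.a D.b))
                ≤ Nat.card (Cfsg.Omega F (Cfsg.quadFormMinus 1 F D.a D.b)) *
                  (Cfsg.Omega F (Cfsg.quadFormMinus 1 F D.a D.b)).index := by
                  rw [mul_comm]; exact Nat.mul_le_mul_left _ hi
              _ = _ := by rw [hidx]; ring
          exact Nat.le_of_mul_le_mul_left key (by norm_num)
    · have hi := Cfsg.Agent.Lib.Helper15.index_Omega_odd
        (Cfsg.Agent.Lib.Helper15.minusQ 1 F D.a D.b) h2 (by omega) hQ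
      rw [Cfsg.Agent.Lib.Helper15.coe_minusQ] at hi
      rw [hi] at hidx
      calc Nat.card (Cfsg.Omega F (Cfsg.quadFormMinus 1 F D.a D.b)) * Nat.card (Psi4m D).ker
          ≤ Nat.card (Cfsg.Omega F (Cfsg.quadFormMinus 1 F D.a D.b)) * 2 :=
            Nat.mul_le_mul_left _ hk2
        _ = _ := by
          apply Nat.eq_of_mul_eq_mul_left (show 0 < 2 by norm_num)
          have : 2 * (Nat.card (Cfsg.Omega F (Cfsg.quadFormMinus 1 F D.a D.b)) * 2)
            = Nat.card (Cfsg.Omega F (Cfsg.quadFormMinus 1 F D.a D.b)) * 4 := by ring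
          rw [this, hidx, harith]
          ring

end final

theorem pomega4m_equiv {F K : Type*} [Field F] [Fintype F] [Field K] [Fintype K] {q : ℕ}
    (hF : Fintype.card F = q) (hK : Fintype.card K = q ^ 2) (a b : F)
    (hab : ∀ z₁ z₂ : F, z₁ ^ 2 + a * z₁ * z₂ + b * z₂ ^ 2 = 0 → z₁ = 0 ∧ z₂ = 0) :
    Nonempty (Cfsg.POmega F (Cfsg.quadFormMinus 1 F a b) ≃*
      Matrix.ProjectiveSpecialLinearGroup (Fin 2) K) := by
  obtain ⟨ι, θ, hθ⟩ := exists_quadratic_root (F := F) (K := K) (by rw [hK, hF]) a b hab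
  exact pomega4m_equiv_aux ⟨q, hF, hK, a, b, hab, ι, θ, hθ⟩


end Cfsg.Agent.H14
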