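import Mathlib
import Cfsg.Agent.H14.Omega4m
import Cfsg.Agent.H14.Omega6a
import Cfsg.Agent.S0278
import Cfsg.Agent.S0283

/-! # `PΩ₆⁻(q) ≅ PSU₄(q)` -/

set_option autoImplicit false
set_option linter.unusedSimpArgs false
set_option linter.unusedVariables false
set_option linter.unusedSectionVars false

namespace Cfsg.Agent.H14

open Matrix


/-- quadratic extension data together with two distinct elements of norm `-1` -/
structure UData (F K : Type*) [Field F] [Fintype F] [Field K] [Fintype K] extends QData F K where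
  c : K
  c' : K
  hc : c * toQData.sig c = -1
  hc' : c' * toQData.sig c' = -1
  hne : c ≠ c'

namespace UData

variable {F K : Type*} [Field F] [Fintype F] [Field K] [Fintype K] (D : UData F K)

local notation "σ" => D.toQData.sig

def Δ : K := D.θ - (D.ι D.a - D.θ)

def κ : K := 1 + D.c * σ D.c'

theorem Δ_ne : D.Δ ≠ 0 := by
  intro h
  have h1 : σ D.θ = D.θ := by
    rw [D.toQData.sig_theta]
    exact (sub_eq_zero.mp h).symm
  obtain ⟨x, hx⟩ := D.toQData.fix_mem_range _ h1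
  exact D.toQData.theta_ne x hx

theorem sig_Δ : σ D.Δ = -D.Δ := by
  simp [Δ, QData.sig_theta, QData.sig_ι]

theorem c_ne : D.c ≠ 0 := by
  intro h
  have := D.hc
  rw [h, zero_mul] at this
  exact one_ne_zero (neg_eq_zero.mp this.symm)

theorem κ_ne : D.κ ≠ 0 := by
  intro h
  apply D.hne
  have h1 : D.c * σ D.c' = D.c * σ D.c := by
    rw [D.hc]
    unfold κ at h
    linear_combination h
  have h2 := mul_left_cancel₀ D.c_ne h1
  have h3 := congrArg σ h2
  rw [QData.sig_sig, QData.sig_sig] at h3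
  exact h3.symm

theorem sig_κ_ne : σ D.κ ≠ 0 := (map_ne_zero _).mpr D.κ_ne

/-- the `τ`-fixed vector with parameters `s, t, u` -/
def W (s t u : K) : Fin 6 → K :=
  ![s + t, s * D.c + t * D.c', u, σ (s + t), σ (s * D.c + t * D.c'), σ u]

theorem Q6_W (s t u : K) : Q6 (D.W s t u) = D.κ * s * σ t + σ D.κ * σ s * t + u * σ u := by
  simp only [Q6, W, κ, map_add, map_mul, map_one, QData.sig_sig]
  simp
  linear_combination (s * σ s) * D.hc + (t * σ t) * D.hc'

def sOf (x : Fin 6 → F) : K := D.ι (x 0) + D.ι (x 1) * D.θ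
def rOf (x : Fin 6 → F) : K := D.ι (x 3) - D.ι (x 2) * (D.ι D.a - D.θ)
noncomputable def tOf (x : Fin 6 → F) : K := -σ (D.rOf x) / (D.Δ * σ D.κ)
def uOf (x : Fin 6 → F) : K := D.ι (x 4) + D.ι (x 5) * D.θ

noncomputable def Hv (x : Fin 6 → F) : Fin 6 → K := D.W (D.sOf x) (D.tOf x) (D.uOf x)

def Qm6 (x : Fin 6 → F) : F :=
  (x 0 * x 2 + x 1 * x 3) + (x 4 ^ 2 + D.a * x 4 * x 5 + D.b * x 5 ^ 2)

theorem sig_tOf (x : Fin 6 → F) : σ (D.tOf x) = D.rOf x / (D.Δ * D.κ) := by
  rw [tOf, map_div₀, map_neg, QData.sig_sig, map_mul, sig_Δ, QData.sig_sig]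
  have h1 := D.Δ_ne
  have h2 := D.κ_ne
  field_simp

theorem Q6_Hv (x : Fin 6 → F) : Q6 (D.Hv x) = D.ι (D.Qm6 x) := by
  rw [Hv, Q6_W, sig_tOf]
  have h1 := D.Δ_ne
  have h2 := D.κ_ne
  have h3 := D.sig_κ_ne
  have e1 : D.κ * D.sOf x * (D.rOf x / (D.Δ * D.κ)) + σ D.κ * σ (D.sOf x) * D.tOf x
      = D.ι (x 0 * x 2 + x 1 * x 3) := by
    rw [tOf]
    field_simp
    simp only [sOf, rOf, map_add, map_sub, map_mul, QData.sig_ι, QData.sig_theta, Δ]
    ring
  have e2 : D.uOf x * σ (D.uOf x) = D.ι (x 4 ^ 2 + D.a * x 4 * x 5 + D.b * x 5 ^ 2) := by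
    simp only [uOf, map_add, map_sub, map_mul, map_pow, QData.sig_ι, QData.sig_theta]
    linear_combination (-(D.ι (x 5)) ^ 2) * D.hθ
  rw [e1, e2, Qm6, ← map_add]

theorem Hv_add (x y : Fin 6 → F) : D.Hv (x + y) = D.Hv x + D.Hv y := by
  ext i
  fin_cases i <;>
    simp [Hv, W, sOf, tOf, rOf, uOf, map_add, map_sub, map_mul, map_neg, map_div₀] <;> ring

theorem Hv_smul (e : F) (x : Fin 6 → F) : D.Hv (e • x) = D.ι e • D.Hv x := by
  ext i
  fin_cases i <;>
    simp [Hv, W, sOf, tOf, rOf, uOf, map_add, map_sub, map_mul, map_neg, map_div₀,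
      QData.sig_ι] <;> ring

theorem W_injective {s t u s' t' u' : K} (h : D.W s t u = D.W s' t' u') :
    s = s' ∧ t = t' ∧ u = u' := by
  have e0 := congrFun h 0
  have e1 := congrFun h 1
  have e2 := congrFun h 2
  simp [W] at e0 e1 e2
  have hne : D.c - D.c' ≠ 0 := sub_ne_zero.mpr D.hne
  have hs : s = s' := by
    apply mul_right_cancel₀ hne
    linear_combination e1 - D.c' * e0
  subst hs
  exact ⟨rfl, add_left_cancel e0, e2⟩

theorem Hv_injective : Function.Injective D.Hv := by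
  intro x y h
  obtain ⟨hs, ht, hu⟩ := D.W_injective h
  obtain ⟨h0, h1⟩ := D.toQData.coords_unique hs
  obtain ⟨h4, h5⟩ := D.toQData.coords_unique hu
  have hr : D.rOf x = D.rOf y := by
    have h1 := D.Δ_ne
    have h3 := D.sig_κ_ne
    unfold tOf at ht
    have h6 : σ (D.rOf x) = σ (D.rOf y) := by
      field_simp at ht
      exact neg_injective ht
    have h7 := congrArg σ h6
    rwa [QData.sig_sig, QData.sig_sig] at h7
  have hr' : D.ι (x 3 - D.a * x 2) + D.ι (x 2) * D.θ = D.ι (y 3 - D.a * y 2) + D.ι (y 2) * D.θ := by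
    unfold rOf at hr
    simp only [map_sub, map_mul]
    linear_combination hr
  obtain ⟨h3, h2⟩ := D.toQData.coords_unique hr'
  rw [h2] at h3
  ext i
  fin_cases i
  · exact h0
  · exact h1
  · exact h2
  · exact sub_left_injective h3
  · exact h4
  · exact h5

/-- the semilinear involution -/
def tau (v : Fin 6 → K) : Fin 6 → K := P6 K *ᵥ (σ ∘ v)

theorem tau_apply (v : Fin 6 → K) :
    D.tau v = ![σ (v 3), σ (v 4), σ (v 5), σ (v 0), σ (v 1), σ (v 2)] := by
  ext i
  fin_cases i <;> simp [tau, P6, Matrix.mulVec, dotProduct, Fin.sum_univ_six]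

theorem mem_range_Hv (v : Fin 6 → K) (hv : D.tau v = v) : ∃ x, D.Hv x = v := by
  rw [tau_apply] at hv
  have e3 := congrFun hv 3
  have e4 := congrFun hv 4
  have e5 := congrFun hv 5
  simp at e3 e4 e5
  have hne : D.c - D.c' ≠ 0 := sub_ne_zero.mpr D.hne
  have h1 := D.Δ_ne
  have h3 := D.sig_κ_ne
  obtain ⟨x0, x1, hs⟩ := D.toQData.exists_coords ((v 1 - D.c' * v 0) / (D.c - D.c'))
  obtain ⟨p, p', hr⟩ := D.toQData.exists_coords
    (σ (-((D.c * v 0 - v 1) / (D.c - D.c')) * (D.Δ * σ D.κ)))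
  obtain ⟨x4, x5, hu⟩ := D.toQData.exists_coords (v 2)
  refine ⟨![x0, x1, p', p + D.a * p', x4, x5], ?_⟩
  have hs' : D.sOf ![x0, x1, p', p + D.a * p', x4, x5] = (v 1 - D.c' * v 0) / (D.c - D.c') := by
    rw [hs]; simp [sOf]
  have hr' : D.rOf ![x0, x1, p', p + D.a * p', x4, x5]
      = σ (-((D.c * v 0 - v 1) / (D.c - D.c')) * (D.Δ * σ D.κ)) := by
    rw [hr]; simp [rOf]; ring
  have ht' : D.tOf ![x0, x1, p', p + D.a * p', x4, x5] = (D.c * v 0 - v 1) / (D.c - D.c') := by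
    rw [tOf, hr', QData.sig_sig]
    field_simp
  have hu' : D.uOf ![x0, x1, p', p + D.a * p', x4, x5] = v 2 := by
    rw [hu]; simp [uOf]
  have a0 : (v 1 - D.c' * v 0) / (D.c - D.c') + (D.c * v 0 - v 1) / (D.c - D.c') = v 0 := by
    field_simp; ring
  have a1 : (v 1 - D.c' * v 0) / (D.c - D.c') * D.c + (D.c * v 0 - v 1) / (D.c - D.c') * D.c'
      = v 1 := by
    field_simp; ring
  rw [Hv, hs', ht', hu', W, a0, a1]
  ext i
  fin_cases i
  · rfl
  · rfl
  · rfl
  · exact e3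
  · exact e4
  · exact e5

theorem tau_Hv (x : Fin 6 → F) : D.tau (D.Hv x) = D.Hv x := by
  rw [tau_apply]
  ext i
  fin_cases i <;> simp [Hv, W, QData.sig_sig]


local notation "SU4" => Cfsg.SU 4 K D.q

theorem su_unitary (g : SU4) : (g.1.1)ᵀ * (g.1.1).map σ = 1 :=
  (Cfsg.Agent.Lib.Helper18.mem_SU_iff D.hK g.1).mp g.2

theorem tau_C6 (g : SU4) (v : Fin 6 → K) : D.tau (C6 g.1.1 *ᵥ v) = C6 g.1.1 *ᵥ D.tau v := by
  have h1 : σ ∘ (C6 g.1.1 *ᵥ v) = (C6 g.1.1).map σ *ᵥ (σ ∘ v) := by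
    funext i
    exact RingHom.map_mulVec σ _ _ i
  rw [tau, tau, h1, Matrix.mulVec_mulVec, Matrix.mulVec_mulVec,
    C6_unitary σ g.1.1 g.1.2 (D.su_unitary g)]

theorem exists_act (g : SU4) (x : Fin 6 → F) : ∃ y, D.Hv y = C6 g.1.1 *ᵥ D.Hv x := by
  apply D.mem_range_Hv
  rw [tau_C6, tau_Hv]

noncomputable def actFun (g : SU4) (x : Fin 6 → F) : Fin 6 → F :=
  Classical.choose (D.exists_act g x)

theorem Hv_actFun (g : SU4) (x : Fin 6 → F) : D.Hv (D.actFun g x) = C6 g.1.1 *ᵥ D.Hv x :=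
  Classical.choose_spec (D.exists_act g x)

noncomputable def actLin (g : SU4) : (Fin 6 → F) →ₗ[F] (Fin 6 → F) where
  toFun := D.actFun g
  map_add' v w := D.Hv_injective (by
    rw [Hv_actFun, Hv_add, Hv_add, Hv_actFun, Hv_actFun, Matrix.mulVec_add])
  map_smul' c v := D.Hv_injective (by
    rw [Hv_actFun, Hv_smul, RingHom.id_apply, Hv_smul, Hv_actFun, Matrix.mulVec_smul])

theorem actLin_apply (g : SU4) (v : Fin 6 → F) : D.actLin g v = D.actFun g v := rfl

noncomputable def actHom : SU4 →* Matrix (Fin 6) (Fin 6) F where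
  toFun g := LinearMap.toMatrix' (D.actLin g)
  map_one' := by
    have : D.actLin (1 : SU4) = LinearMap.id := by
      apply LinearMap.ext
      intro v
      apply D.Hv_injective
      rw [actLin_apply, Hv_actFun]
      show C6 (1 : Matrix (Fin 4) (Fin 4) K) *ᵥ _ = _
      rw [C6_one, Matrix.one_mulVec]
      rfl
    rw [this, LinearMap.toMatrix'_id]
  map_mul' g h := by
    have : D.actLin (g * h) = D.actLin g ∘ₗ D.actLin h := by
      apply LinearMap.ext
      intro v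
      apply D.Hv_injective
      rw [LinearMap.comp_apply, actLin_apply, actLin_apply, actLin_apply, Hv_actFun, Hv_actFun,
        Hv_actFun]
      show C6 (g.1.1 * h.1.1) *ᵥ _ = _
      rw [C6_mul, Matrix.mulVec_mulVec]
    rw [this, LinearMap.toMatrix'_comp]

theorem actHom_mulVec (g : SU4) (v : Fin 6 → F) : D.actHom g *ᵥ v = D.actFun g v := by
  show LinearMap.toMatrix' (D.actLin g) *ᵥ v = _
  rw [LinearMap.toMatrix'_mulVec]
  rfl

theorem Qm6_act (g : SU4) (v : Fin 6 → F) : D.Qm6 (D.actFun g v) = D.Qm6 v := by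
  apply D.ι.injective
  rw [← Q6_Hv, ← Q6_Hv, Hv_actFun, Q6_C6, g.1.2, one_mul]

/-- the homomorphism `SU₄(q) → O₆⁻(q)` -/
noncomputable def Psi : SU4 →* Cfsg.isometryGroup F D.Qm6 :=
  D.actHom.toHomUnits.codRestrict _ (by
    intro g
    rw [Cfsg.Agent.Lib.Helper18.mem_isometryGroup_iff]
    intro v
    show D.Qm6 (D.actHom g *ᵥ v) = D.Qm6 v
    rw [D.actHom_mulVec, D.Qm6_act])

theorem tau_add (v w : Fin 6 → K) : D.tau (v + w) = D.tau v + D.tau w := by
  rw [tau_apply, tau_apply, tau_apply]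
  ext i
  fin_cases i <;> simp

theorem tau_smul (e : K) (v : Fin 6 → K) : D.tau (e • v) = σ e • D.tau v := by
  rw [tau_apply, tau_apply]
  ext i
  fin_cases i <;> simp

theorem tau_tau (v : Fin 6 → K) : D.tau (D.tau v) = v := by
  rw [tau_apply, tau_apply]
  ext i
  fin_cases i <;> simp [QData.sig_sig]

theorem Psi_ker (g : SU4) (hg : g ∈ D.Psi.ker) :
    g.1.1 0 0 ^ 2 = 1 ∧ g.1.1 = g.1.1 0 0 • (1 : Matrix (Fin 4) (Fin 4) K) := by
  apply C6_eq_one
  have h1 : D.actHom g = 1 := by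
    have := congrArg (fun x => ((x : GL (Fin 6) F) : Matrix (Fin 6) (Fin 6) F))
      (congrArg Subtype.val (MonoidHom.mem_ker.mp hg))
    exact this
  have h2 : ∀ w, D.tau w = w → C6 g.1.1 *ᵥ w = w := by
    intro w hw
    obtain ⟨x, rfl⟩ := D.mem_range_Hv w hw
    rw [← D.Hv_actFun, ← D.actHom_mulVec, h1, Matrix.one_mulVec]
  apply Matrix.mulVec_injective
  funext v
  rw [Matrix.one_mulVec]
  have hA : D.tau (v + D.tau v) = v + D.tau v := by
    rw [tau_add, tau_tau, add_comm]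
  have hB : D.tau (D.θ • v + D.tau (D.θ • v)) = D.θ • v + D.tau (D.θ • v) := by
    rw [tau_add, tau_tau, add_comm]
  have hΔ := D.Δ_ne
  have hv : v = D.Δ⁻¹ • ((D.θ • v + D.tau (D.θ • v)) - σ D.θ • (v + D.tau v)) := by
    rw [tau_smul, QData.sig_theta]
    ext i
    simp only [Pi.smul_apply, Pi.sub_apply, Pi.add_apply, smul_eq_mul]
    unfold Δ at hΔ ⊢
    field_simp
    ring
  conv_lhs => rw [hv]
  rw [Matrix.mulVec_smul, Matrix.mulVec_sub, Matrix.mulVec_smul, h2 _ hA, h2 _ hB, ← hv]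

theorem card_Psi_ker :
    Nat.card D.Psi.ker ≤ 2 ∧ ((2 : K) = 0 → Nat.card D.Psi.ker ≤ 1) := by
  apply card_le_of_pm_one (fun s : D.Psi.ker => s.1.1.1 0 0)
  · intro s t hst
    have hst' : s.1.1.1 0 0 = t.1.1.1 0 0 := hst
    apply Subtype.ext
    apply Subtype.ext
    apply Subtype.ext
    rw [(D.Psi_ker s.1 s.2).2, (D.Psi_ker t.1 t.2).2, hst']
  · intro s
    exact (D.Psi_ker s.1 s.2).1


end UData


section perfect

open scoped commutatorElement

variable {K : Type*} [Field K] [Fintype K] {q : ℕ}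

def pX (K : Type*) [Field K] : Matrix (Fin 4) (Fin 4) K :=
  !![0, 0, 1, 0; 1, 0, 0, 0; 0, 1, 0, 0; 0, 0, 0, 1]

def pY (K : Type*) [Field K] : Matrix (Fin 4) (Fin 4) K :=
  !![0, 1, 0, 0; 1, 0, 0, 0; 0, 0, 0, 1; 0, 0, 1, 0]

theorem su4_perfect (hK : Fintype.card K = q ^ 2) : commutator (Cfsg.SU 4 K q) = ⊤ := by
  have hq0 : q ≠ 0 := by have := Cfsg.Agent.Lib.Helper18.herm_q_pos hK; omega
  rcases Cfsg.Agent.S0283.normal_le_center_or_eq_top hK (by norm_num) (by omega)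
    (commutator (Cfsg.SU 4 K q)) with h | h
  · exfalso
    let x : Cfsg.SU 4 K q := Cfsg.Agent.Lib.Helper18.mkSU (pX K) (by rw [det4]; simp [pX])
      ((Cfsg.Agent.Lib.Helper18.herm_preserve_iff hK _).mpr (by
        ext i j
        fin_cases i <;> fin_cases j <;>
          simp [pX, Matrix.mul_apply, Fin.sum_univ_four, hq0, Matrix.one_apply]))
    let y : Cfsg.SU 4 K q := Cfsg.Agent.Lib.Helper18.mkSU (pY K) (by rw [det4]; simp [pY])
      ((Cfsg.Agent.Lib.Helper18.herm_preserve_iff hK _).mpr (by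
        ext i j
        fin_cases i <;> fin_cases j <;>
          simp [pY, Matrix.mul_apply, Fin.sum_univ_four, hq0, Matrix.one_apply]))
    have hz : ⁅x, y⁆ ∈ Subgroup.center (Cfsg.SU 4 K q) :=
      h (Subgroup.commutator_mem_commutator (Subgroup.mem_top _) (Subgroup.mem_top _))
    have e : x * y = ⁅x, y⁆ * (y * x) := by
      rw [commutatorElement_def]; group
    have e' : pX K * pY K = (⁅x, y⁆ : Cfsg.SU 4 K q).1.1 * (pY K * pX K) :=
      congrArg (fun w : Cfsg.SU 4 K q => w.1.1) e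
    have e20 := congrFun (congrFun e' 2) 0
    have z20 := Cfsg.Agent.Lib.Helper18.center_SU_offdiag hK _ hz 2 0 (by decide)
    simp [pX, pY, Matrix.mul_apply, Fin.sum_univ_four] at e20
    rw [z20] at e20
    exact one_ne_zero e20
  · exact h

end perfect

theorem exists_UData {F K : Type*} [Field F] [Fintype F] [Field K] [Fintype K] (D : QData F K) :
    ∃ U : UData F K, U.toQData = D := by
  have hq := Cfsg.Agent.Lib.Helper18.herm_q_pos D.hK
  have hs : (-1 : K) ^ D.q = -1 := by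
    have : D.sig (-1) = -1 := by rw [map_neg, map_one]
    exact this
  obtain ⟨c, hc0, hc⟩ := Cfsg.Agent.Lib.Helper18.herm_norm_surj D.hK (-1) hs (by simp)
  have hcard := Cfsg.Agent.Lib.Helper18.herm_card_norm_one D.hK
  have hnt : Nontrivial {a : K // a ^ (D.q + 1) = 1} := by
    rw [← Finite.one_lt_card_iff_nontrivial, hcard]
    omega
  obtain ⟨e, he⟩ := exists_ne (⟨1, one_pow _⟩ : {a : K // a ^ (D.q + 1) = 1})
  have he1 : e.1 ≠ 1 := fun h => he (Subtype.ext h)
  refine ⟨⟨D, c, c * e.1, ?_, ?_, ?_⟩, rfl⟩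
  · rw [QData.sig_apply, ← pow_succ', hc]
  · rw [QData.sig_apply, ← pow_succ', mul_pow, hc, e.2, mul_one]
  · intro h
    apply he1
    have : c * 1 = c * e.1 := by rw [mul_one]; exact h
    exact (mul_left_cancel₀ hc0 this).symm


section final6

variable {F K : Type*} [Field F] [Fintype F] [Field K] [Fintype K] (D : UData F K)

/-- index bijection -/
def idx6m : (Fin 2 ⊕ Fin 2) ⊕ Fin 2 ≃ Fin 6 where
  toFun x := match x with
    | .inl (.inl i) => ![0, 1] i
    | .inl (.inr i) => ![2, 3] i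
    | .inr i => ![4, 5] i
  invFun i := ![.inl (.inl 0), .inl (.inl 1), .inl (.inr 0), .inl (.inr 1), .inr 0, .inr 1] i
  left_inv x := by
    rcases x with (x | x) | x <;> fin_cases x <;> rfl
  right_inv i := by fin_cases i <;> rfl

noncomputable def E6m : Cfsg.isometryGroup F (Cfsg.quadFormMinus 2 F D.a D.b) ≃*
    Cfsg.isometryGroup F D.Qm6 :=
  Cfsg.Agent.Lib.Helper18.isoReindex idx6m D.Qm6 (Cfsg.quadFormMinus 2 F D.a D.b) (by
    intro v
    simp only [Cfsg.quadFormMinus, UData.Qm6, Function.comp, Fin.sum_univ_two]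
    rfl)

theorem card_SU4 : Nat.card (Cfsg.SU 4 K D.q) =
    D.q ^ 6 * (D.q ^ 2 - 1) * (D.q ^ 3 + 1) * (D.q ^ 4 - 1) := by
  have h := Cfsg.Agent.S0278.result D.hK 4 (by norm_num)
  simp only [Finset.prod_range_succ, Finset.prod_range_zero] at h
  norm_num [Nat.even_iff] at h
  have hpos : 0 < D.q + 1 := by omega
  apply Nat.eq_of_mul_eq_mul_left hpos
  rw [h]
  ring

theorem pomega6m_equiv_aux :
    Nonempty (Cfsg.POmega F (Cfsg.quadFormMinus 2 F D.a D.b) ≃* Cfsg.PSU 4 K D.q) := by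
  classical
  have hperf : commutator (Cfsg.SU 4 K D.q) = ⊤ := su4_perfect D.hK
  have hπ : Function.Surjective (QuotientGroup.mk' (Subgroup.center (Cfsg.SU 4 K D.q))) :=
    QuotientGroup.mk'_surjective _
  have hkψ : ((E6m D).symm.toMonoidHom.comp D.Psi).ker = D.Psi.ker := by
    ext s
    rw [MonoidHom.mem_ker, MonoidHom.mem_ker]
    show (E6m D).symm (D.Psi s) = 1 ↔ _
    rw [MulEquiv.map_eq_one_iff]
  refine pomega_of_hom ((E6m D).symm.toMonoidHom.comp D.Psi)
    (QuotientGroup.mk' (Subgroup.center (Cfsg.SU 4 K D.q))) hπ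
    (center_eq_bot_of_perfect hperf _ hπ (QuotientGroup.ker_mk' _)) ?_ ?_ ?_ ?_
  · intro s
    have h1 : s ∈ commutator (Cfsg.SU 4 K D.q) := hperf ▸ Subgroup.mem_top s
    have h3 : (commutator (Cfsg.SU 4 K D.q)).map
        ((E6m D).symm.toMonoidHom.comp D.Psi) ≤ commutator _ := by
      rw [commutator_def, Subgroup.map_commutator]
      exact Subgroup.commutator_mono le_top le_top
    exact h3 (Subgroup.mem_map_of_mem _ h1)
  · rw [hkψ, QuotientGroup.ker_mk']
    intro s hs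
    obtain ⟨h1, h3⟩ := D.Psi_ker s hs
    rw [Subgroup.mem_center_iff]
    intro t
    apply Subtype.ext
    apply Subtype.ext
    show t.1.1 * s.1.1 = s.1.1 * t.1.1
    rw [h3]
    simp
  · rw [QuotientGroup.ker_mk']
  · rw [hkψ]
    have hQ := Cfsg.Agent.Lib.Helper15.minusQ_nondegenerate (F := F) 2 D.a D.b D.hab
    have hcard : Fintype.card ((Fin 2 ⊕ Fin 2) ⊕ Fin 2) = 6 := by simp
    have hO := Cfsg.Agent.S0288.result (F := F) D.hF 3 (by omega) D.a D.b D.hab
    have hidx := Subgroup.card_mul_index (Cfsg.Omega F (Cfsg.quadFormMinus 2 F D.a D.b))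
    rw [show (3 - 1 : ℕ) = 2 from rfl] at hO
    rw [hO] at hidx
    simp only [Finset.prod_range_succ, Finset.prod_range_zero] at hidx
    rw [card_SU4]
    obtain ⟨hk2, hk1⟩ := D.card_Psi_ker
    show Nat.card (Cfsg.Omega F (Cfsg.quadFormMinus 2 F D.a D.b)) * _ ≤ _
    by_cases h2 : (2 : F) = 0
    · have : CharP F 2 := CharTwo.of_one_ne_zero_of_two_eq_zero one_ne_zero h2
      have h2K : (2 : K) = 0 := by
        have := congrArg D.ι h2
        rwa [map_ofNat, map_zero] at this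
      have hi := Cfsg.Agent.Lib.Helper15.index_Omega_two
        (Cfsg.Agent.Lib.Helper15.minusQ 2 F D.a D.b) hQ (by omega) (Or.inr (by omega))
      rw [Cfsg.Agent.Lib.Helper15.coe_minusQ] at hi
      rw [hi] at hidx
      calc Nat.card (Cfsg.Omega F (Cfsg.quadFormMinus 2 F D.a D.b)) * Nat.card D.Psi.ker
          ≤ Nat.card (Cfsg.Omega F (Cfsg.quadFormMinus 2 F D.a D.b)) * 1 :=
            Nat.mul_le_mul_left _ (hk1 h2K)
        _ = _ := by
          apply Nat.eq_of_mul_eq_mul_left (show 0 < 2 by norm_num)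
          rw [mul_one, mul_comm, hidx]
          ring_nf
    · have hi := Cfsg.Agent.Lib.Helper15.index_Omega_odd
        (Cfsg.Agent.Lib.Helper15.minusQ 2 F D.a D.b) h2 (by omega) hQ
      rw [Cfsg.Agent.Lib.Helper15.coe_minusQ] at hi
      rw [hi] at hidx
      calc Nat.card (Cfsg.Omega F (Cfsg.quadFormMinus 2 F D.a D.b)) * Nat.card D.Psi.ker
          ≤ Nat.card (Cfsg.Omega F (Cfsg.quadFormMinus 2 F D.a D.b)) * 2 :=
            Nat.mul_le_mul_left _ hk2
        _ = _ := by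
          apply Nat.eq_of_mul_eq_mul_left (show 0 < 2 by norm_num)
          have : 2 * (Nat.card (Cfsg.Omega F (Cfsg.quadFormMinus 2 F D.a D.b)) * 2)
            = Nat.card (Cfsg.Omega F (Cfsg.quadFormMinus 2 F D.a D.b)) * 4 := by ring
          rw [this, hidx]
          ring_nf

end final6

theorem pomega6m_equiv {F K : Type*} [Field F] [Fintype F] [Field K] [Fintype K] {q : ℕ}
    (hF : Fintype.card F = q) (hK : Fintype.card K = q ^ 2) (a b : F)
    (hab : ∀ z₁ z₂ : F, z₁ ^ 2 + a * z₁ * z₂ + b * z₂ ^ 2 = 0 → z₁ = 0 ∧ z₂ = 0) :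
    Nonempty (Cfsg.POmega F (Cfsg.quadFormMinus 2 F a b) ≃* Cfsg.PSU 4 K q) := by
  obtain ⟨ι, θ, hθ⟩ := exists_quadratic_root (F := F) (K := K) (by rw [hK, hF]) a b hab
  obtain ⟨U, hU⟩ := exists_UData (⟨q, hF, hK, a, b, hab, ι, θ, hθ⟩ : QData F K)
  have h := pomega6m_equiv_aux U
  rw [hU] at h
  exact h


end Cfsg.Agent.H14
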