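import Mathlib
import Cfsg.Agent.H14.PSL2Aut3

set_option autoImplicit false

/-! Automorphisms of `PSL₂(F)`: every automorphism is inner * diagonal * field. -/

namespace Cfsg.Agent.H14

open Matrix

variable {F : Type*} [Field F]

local notation "SL2" => Matrix.SpecialLinearGroup (Fin 2) F
local notation "PSL2" => Matrix.ProjectiveSpecialLinearGroup (Fin 2) F
local notation "M2" => Matrix (Fin 2) (Fin 2) F

theorem mult_of_sq_rel [Finite F] (φ : F →+ F) (h1 : φ 1 = 1)
    (h : ∀ t s, φ (t ^ 2 * s) = φ t ^ 2 * φ s) : ∀ r s, φ (r * s) = φ r * φ s := by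
  have hsq : ∀ t s, φ (t ^ 2 * s) = φ (t ^ 2) * φ s := by
    intro t s
    have := h t 1
    rw [mul_one, h1, mul_one] at this
    rw [h, this]
  intro r s
  by_cases h2 : (2 : F) = 0
  · haveI : CharP F 2 := CharTwo.of_one_ne_zero_of_two_eq_zero one_ne_zero h2
    obtain ⟨t, rfl⟩ := FiniteField.isSquare_of_char_two (ringChar.eq F 2) r
    rw [← pow_two]
    exact hsq t s
  · have hr : r = ((r + 1) / 2) ^ 2 - ((r - 1) / 2) ^ 2 := by
      field_simp
      ring
    have e1 : r * s = ((r + 1) / 2) ^ 2 * s - ((r - 1) / 2) ^ 2 * s := by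
      rw [← sub_mul, ← hr]
    have e2 : φ r = φ (((r + 1) / 2) ^ 2) - φ (((r - 1) / 2) ^ 2) := by
      rw [← map_sub, ← hr]
    rw [e1, map_sub, hsq, hsq, e2]
    ring

theorem normalized_form [Finite F] (β : MulAut PSL2) (hu : ∀ t, ∃ t', β (ub t) = ub t')
    (hl : ∀ s, ∃ s', β (lb s) = lb s') :
    ∃ (c : Fˣ) (σ : F ≃+* F), β = descend (twist c) * descend (fieldAut σ) := by
  choose f hf using hu
  choose g hg using hl
  have fadd : ∀ s t, f (s + t) = f s + f t := by
    intro s t
    apply ub_injective
    rw [← hf, ub_add, map_mul, hf, hf, ub_add]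
  have gadd : ∀ s t, g (s + t) = g s + g t := by
    intro s t
    apply lb_injective
    rw [← hg, lb_add, map_mul, hg, hg, lb_add]
  have finj : Function.Injective f := by
    intro s t hst
    apply ub_injective
    apply β.injective
    rw [hf, hf, hst]
  have ginj : Function.Injective g := by
    intro s t hst
    apply lb_injective
    apply β.injective
    rw [hg, hg, hst]
  have f0 : f 0 = 0 := by
    have := fadd 0 0
    rw [add_zero] at this
    linear_combination -this
  have g0 : g 0 = 0 := by
    have := gadd 0 0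
    rw [add_zero] at this
    linear_combination -this
  have fneg : ∀ t, f (-t) = - f t := by
    intro t
    have := fadd t (-t)
    rw [add_neg_cancel, f0] at this
    linear_combination -this
  have key : ∀ t s, f (t ^ 2 * s) = f t ^ 2 * g s := by
    intro t s
    by_cases ht : t = 0
    · subst ht
      simp [f0]
    by_cases hs : s = 0
    · subst hs
      simp [f0, g0]
    have hgs : g s ≠ 0 := by
      intro h0
      exact hs (ginj (h0.trans g0.symm))
    have h1 := congrArg (fun x => β (pj x)) (weyl_rel t ht s)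
    simp only [pj_mul, map_mul] at h1
    rw [hf, hf, hg, hg] at h1
    simp only [← pj_mul] at h1
    have h2 := (weyl_rel_conv _ _ _ _ hgs h1).2
    rw [fneg] at h2
    linear_combination -h2
  have hc : f 1 ≠ 0 := by
    intro h0
    exact one_ne_zero (finj (h0.trans f0.symm))
  have hg' : ∀ s, f s = f 1 ^ 2 * g s := by
    intro s
    have := key 1 s
    rwa [one_pow, one_mul] at this
  let φ : F →+ F :=
    { toFun := fun t => (f 1)⁻¹ * f t
      map_zero' := by simp [f0]
      map_add' := by
        intro s t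
        simp only [fadd]
        ring }
  have hφ : ∀ t, φ t = (f 1)⁻¹ * f t := fun _ => rfl
  have hφ1 : φ 1 = 1 := by rw [hφ]; exact inv_mul_cancel₀ hc
  have hφm := mult_of_sq_rel φ hφ1 (by
    intro t s
    rw [hφ, hφ, hφ, key, hg' s]
    field_simp)
  let ψ : F →+* F :=
    { toFun := φ
      map_one' := hφ1
      map_mul' := hφm
      map_zero' := map_zero φ
      map_add' := map_add φ }
  have hψ : Function.Bijective ψ := Finite.injective_iff_bijective.mp ψ.injective
  let σ : F ≃+* F := RingEquiv.ofBijective ψ hψ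
  have hσ : ∀ t, σ t = (f 1)⁻¹ * f t := fun _ => rfl
  refine ⟨Units.mk0 (f 1) hc, σ, ?_⟩
  apply aut_ext
  · intro t
    rw [MulAut.mul_apply, descend_pj, descend_pj, fieldAut_bm, twist_bm, hf, hσ]
    congr 2
    simp only [Units.val_mk0]
    field_simp
  · intro s
    rw [MulAut.mul_apply, descend_pj, descend_pj, fieldAut_lm, twist_lm, hg, hσ]
    congr 2
    rw [hg' s]
    simp only [Units.val_inv_eq_inv_val, Units.val_mk0]
    field_simp

variable [Fintype F] {p f : ℕ} [Fact p.Prime]

theorem aut_decomp (hf : 1 ≤ f) (hF : Fintype.card F = p ^ f) (α : MulAut PSL2) :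
    ∃ (g : PSL2) (c : Fˣ) (σ : F ≃+* F),
      α = MulAut.conj g * descend (twist c) * descend (fieldAut σ) := by
  obtain ⟨g, h1, h2⟩ := exists_normalize hf hF α
  obtain ⟨c, σ, h⟩ := normalized_form _ h1 h2
  refine ⟨g⁻¹, c, σ, ?_⟩
  rw [mul_assoc, ← h, map_inv, inv_mul_cancel_left]

end Cfsg.Agent.H14
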