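import Mathlib

set_option autoImplicit false

/-! The automorphism group of a finite field is cyclic of order `f`. -/

namespace Cfsg.Agent.H14

theorem charP_of_card_eq {F : Type*} [Field F] [Fintype F] {p f : ℕ} [Fact p.Prime]
    (hF : Fintype.card F = p ^ f) : CharP F p := by
  obtain ⟨p', hp'⟩ := CharP.exists F
  obtain ⟨b, hpp', hb⟩ := FiniteField.card F p'
  have hpe : p' = p := by
    have h1 : p' ∣ p ^ f := by
      rw [← hF, hb]
      exact dvd_pow_self _ b.pos.ne'
    exact (Nat.prime_dvd_prime_iff_eq hpp' Fact.out).mp (hpp'.dvd_of_dvd_pow h1)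
  subst hpe
  exact hp'

theorem ringAut_equiv_zmod {F : Type*} [Field F] [Fintype F] {p f : ℕ} [Fact p.Prime] (hf : 1 ≤ f)
    (hF : Fintype.card F = p ^ f) : Nonempty ((F ≃+* F) ≃* Multiplicative (ZMod f)) := by
  haveI := charP_of_card_eq hF
  letI := ZMod.algebra F p
  have hfin : Module.finrank (ZMod p) F = f := by
    apply Nat.pow_right_injective (Fact.out : p.Prime).two_le
    simp only
    rw [FiniteField.pow_finrank_eq_card p F, hF]
  have hcard : Nat.card (F ≃ₐ[ZMod p] F) = f := by
    rw [← Nat.card_congr (Equiv.ofBijective _ (FiniteField.bijective_frobeniusAlgEquivOfAlgebraic_pow (ZMod p) F)),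
      Nat.card_eq_fintype_card, Fintype.card_fin, hfin]
  haveI : NeZero f := ⟨by omega⟩
  let e1 : (F ≃ₐ[ZMod p] F) ≃* (F ≃+* F) :=
    { toFun := fun e => e.toRingEquiv
      invFun := fun r => AlgEquiv.ofRingEquiv (f := r) (fun x => by
        have : (r : F →+* F).comp (algebraMap (ZMod p) F) = algebraMap (ZMod p) F := Subsingleton.elim _ _
        exact DFunLike.congr_fun this x)
      left_inv := fun e => by ext x; rfl
      right_inv := fun r => by ext x; rfl
      map_mul' := fun a b => rfl }
  have e2 : (F ≃ₐ[ZMod p] F) ≃* Multiplicative (ZMod f) :=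
    mulEquivOfCyclicCardEq (by rw [hcard, Nat.card_eq_fintype_card, Fintype.card_multiplicative, ZMod.card])
  exact ⟨e1.symm.trans e2⟩

end Cfsg.Agent.H14
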