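import Mathlib
import Cfsg.Prelude.Def_KGroupFacts
import Cfsg.Agent.H14.PSL2Aut4
import Cfsg.Agent.H14.RingAutFin

set_option autoImplicit false

/-! The outer automorphism group of `PSL₂(F)`. -/

namespace Cfsg.Agent.H14

open Matrix

variable {F : Type*} [Field F]

local notation "SL2" => Matrix.SpecialLinearGroup (Fin 2) F
local notation "PSL2" => Matrix.ProjectiveSpecialLinearGroup (Fin 2) F
local notation "M2" => Matrix (Fin 2) (Fin 2) F

theorem ringEquiv_ext_of_sq [Finite F] (σ ρ : F ≃+* F) (h : ∀ t, σ (t ^ 2) = ρ (t ^ 2)) : σ = ρ := by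
  ext r
  by_cases h2 : (2 : F) = 0
  · haveI : CharP F 2 := CharTwo.of_one_ne_zero_of_two_eq_zero one_ne_zero h2
    obtain ⟨t, rfl⟩ := FiniteField.isSquare_of_char_two (ringChar.eq F 2) r
    rw [← pow_two]
    exact h t
  · have hr : r = ((r + 1) / 2) ^ 2 - ((r - 1) / 2) ^ 2 := by
      field_simp
      ring
    rw [hr, map_sub, map_sub, h, h]

theorem TrRel.unique [Finite F] {α : MulAut PSL2} {σ ρ : F ≃+* F} (h1 : TrRel α σ) (h2 : TrRel α ρ) :
    σ = ρ := by
  apply ringEquiv_ext_of_sq
  intro t
  have e1 := h1 (bm 1 (t - 2) * lm 1)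
  have e2 := h2 (bm 1 (t - 2) * lm 1)
  have ht : (bm 1 (t - 2) * lm 1 : SL2).1.trace = t := by
    rw [Matrix.trace_fin_two]
    simp [lm, Matrix.mul_apply, Fin.sum_univ_two]
    ring
  rw [ht] at e1 e2
  rw [← e1, e2]

theorem fieldAut_one : fieldAut (1 : F ≃+* F) = 1 := by
  apply MulEquiv.ext
  intro x
  apply Subtype.ext
  ext i j
  rfl

theorem descend_one : descend (1 : MulAut SL2) = 1 := by
  ext y
  obtain ⟨x, rfl⟩ := QuotientGroup.mk_surjective y
  rfl

/-- the diagonal automorphisms in `Out` -/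
noncomputable def diagOut : Fˣ →* Cfsg.Out PSL2 where
  toFun c := QuotientGroup.mk (descend (twist c))
  map_one' := by
    have : (twist (1 : Fˣ) : MulAut SL2) = 1 := by
      have := twist_sq (1 : Fˣ) (F := F)
      rw [mul_one] at this
      rw [this]
      have h1 : (dg (1 : Fˣ) : SL2) = 1 := by
        apply Subtype.ext
        ext i j
        fin_cases i <;> fin_cases j <;> simp [dg]
      rw [h1, map_one]
    rw [this, descend_one]
    rfl
  map_mul' c d := by
    rw [twist_mul', descend_mul]
    rfl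

theorem diagOut_apply (c : Fˣ) : diagOut c = QuotientGroup.mk (descend (twist c)) := rfl

theorem ker_diagOut : (diagOut (F := F)).ker = (powMonoidHom 2 : Fˣ →* Fˣ).range := by
  ext c
  rw [MonoidHom.mem_ker, diagOut_apply, QuotientGroup.eq_one_iff, MonoidHom.mem_range, MonoidHom.mem_range]
  constructor
  · rintro ⟨g, hg⟩
    obtain ⟨h, rfl⟩ := QuotientGroup.mk_surjective g
    have h1 := congrArg (fun a : MulAut PSL2 => a (ub 1)) hg
    simp only [descend_pj, twist_bm, mul_one] at h1
    have h2 : pj (h * bm 1 1 * h⁻¹) = pj (bm 1 (c : F)) := h1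
    have h3 : pj (h * bm 1 1) = pj (bm 1 (c : F) * h) := by
      rw [pj_mul (bm 1 (c : F)), ← h2, ← pj_mul, inv_mul_cancel_right]
    have hdet := sl2_det h
    rcases pj_eq_cases' h3 with h4 | ⟨h2', h4⟩
    · have e00 := congrFun (congrFun h4 0) 0
      have e01 := congrFun (congrFun h4 0) 1
      simp [Matrix.mul_apply, Fin.sum_univ_two] at e00 e01
      rw [e00] at hdet
      have hA : h.1 0 0 ≠ 0 := by
        intro h0
        rw [h0] at hdet
        simp at hdet
      refine ⟨Units.mk0 _ hA, ?_⟩
      apply Units.ext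
      simp only [powMonoidHom_apply, Units.val_pow_eq_pow_val, Units.val_mk0]
      linear_combination (c : F) * hdet - h.1 0 0 * e01
    · exfalso
      have e10 := congrFun (congrFun h4 1) 0
      have e11 := congrFun (congrFun h4 1) 1
      simp [Matrix.mul_apply, Fin.sum_univ_two] at e10 e11
      have hC : h.1 1 0 = 0 := by
        have : (2 : F) * h.1 1 0 = 0 := by linear_combination e10
        exact (mul_eq_zero.mp this).resolve_left h2'
      have hD : h.1 1 1 = 0 := by
        have : (2 : F) * h.1 1 1 = 0 := by linear_combination e11 - hC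
        exact (mul_eq_zero.mp this).resolve_left h2'
      rw [hC, hD] at hdet
      simp at hdet
  · rintro ⟨e, rfl⟩
    refine ⟨pj (dg e), ?_⟩
    rw [powMonoidHom_apply, pow_two, twist_sq, descend_conj]

variable [Fintype F] {p f : ℕ} [Fact p.Prime]

theorem exists_trRel (hf : 1 ≤ f) (hF : Fintype.card F = p ^ f) (α : MulAut PSL2) :
    ∃ σ : F ≃+* F, TrRel α σ := by
  obtain ⟨g, c, σ, rfl⟩ := aut_decomp hf hF α
  exact ⟨_, ((trRel_conj g).mul (trRel_twist c)).mul (trRel_fieldAut σ)⟩

/-- the field automorphism attached to an automorphism of `PSL₂` -/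
noncomputable def autToField (hf : 1 ≤ f) (hF : Fintype.card F = p ^ f) : MulAut PSL2 →* (F ≃+* F) :=
  MonoidHom.mk' (fun α => (exists_trRel hf hF α).choose) (by
    intro α β
    exact TrRel.unique (exists_trRel hf hF (α * β)).choose_spec
      ((exists_trRel hf hF α).choose_spec.mul (exists_trRel hf hF β).choose_spec))

theorem autToField_spec (hf : 1 ≤ f) (hF : Fintype.card F = p ^ f) (α : MulAut PSL2) :
    TrRel α (autToField hf hF α) := (exists_trRel hf hF α).choose_spec

theorem autToField_eq (hf : 1 ≤ f) (hF : Fintype.card F = p ^ f) {α : MulAut PSL2} {σ : F ≃+* F}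
    (h : TrRel α σ) : autToField hf hF α = σ := (autToField_spec hf hF α).unique h

/-- the induced map on `Out` -/
noncomputable def outToField (hf : 1 ≤ f) (hF : Fintype.card F = p ^ f) : Cfsg.Out PSL2 →* (F ≃+* F) :=
  QuotientGroup.lift (Cfsg.Inn PSL2) (autToField hf hF) (by
    rintro _ ⟨g, rfl⟩
    exact autToField_eq hf hF (trRel_conj g))

theorem outToField_mk (hf : 1 ≤ f) (hF : Fintype.card F = p ^ f) (α : MulAut PSL2) :
    outToField hf hF (QuotientGroup.mk α) = autToField hf hF α := rfl

theorem outToField_surjective (hf : 1 ≤ f) (hF : Fintype.card F = p ^ f) :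
    Function.Surjective (outToField (F := F) hf hF) := by
  intro σ
  exact ⟨QuotientGroup.mk (descend (fieldAut σ)), autToField_eq hf hF (trRel_fieldAut σ)⟩

theorem ker_outToField (hf : 1 ≤ f) (hF : Fintype.card F = p ^ f) :
    (outToField (F := F) hf hF).ker = (diagOut (F := F)).range := by
  ext y
  obtain ⟨α, rfl⟩ := QuotientGroup.mk_surjective y
  rw [MonoidHom.mem_ker, outToField_mk, MonoidHom.mem_range]
  constructor
  · intro h
    obtain ⟨g, c, σ, rfl⟩ := aut_decomp hf hF α
    have h1 := autToField_eq hf hF (((trRel_conj g).mul (trRel_twist c)).mul (trRel_fieldAut σ))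
    rw [h, one_mul, one_mul] at h1
    refine ⟨c, ?_⟩
    rw [← h1, fieldAut_one, descend_one, mul_one, diagOut_apply]
    symm
    rw [QuotientGroup.eq]
    refine ⟨(descend (twist c))⁻¹ (g⁻¹), ?_⟩
    apply MulEquiv.ext
    intro x
    simp [MulAut.conj_apply, MulAut.mul_apply, MulAut.inv_apply]
  · rintro ⟨c, hc⟩
    rw [diagOut_apply] at hc
    rw [← outToField_mk, ← hc, outToField_mk]
    exact autToField_eq hf hF (trRel_twist c)

theorem out_psl2_structure (hf : 1 ≤ f) (hF : Fintype.card F = p ^ f) :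
    ∃ φ : Cfsg.Out PSL2 →* Multiplicative (ZMod f), Function.Surjective φ ∧ IsCyclic φ.ker ∧
      Nat.card φ.ker = Nat.gcd 2 (p ^ f - 1) := by
  obtain ⟨e⟩ := ringAut_equiv_zmod (F := F) hf hF
  have hker : (e.toMonoidHom.comp (outToField (F := F) hf hF)).ker = (diagOut (F := F)).range := by
    rw [← ker_outToField hf hF]
    ext y
    simp [MonoidHom.mem_ker]
  refine ⟨e.toMonoidHom.comp (outToField hf hF), ?_, ?_, ?_⟩
  · exact e.surjective.comp (outToField_surjective hf hF)
  · rw [hker]
    exact isCyclic_of_surjective (diagOut (F := F)).rangeRestrict (diagOut (F := F)).rangeRestrict_surjective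
  · rw [hker, ← Subgroup.index_ker, ker_diagOut, IsCyclic.index_powMonoidHom_range, Nat.card_units,
      Nat.card_eq_fintype_card, hF, Nat.gcd_comm]

end Cfsg.Agent.H14
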