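import Mathlib
import Cfsg.Agent.H14.PSL2A4

set_option autoImplicit false

/-! `S₄` inside `PSL₂(q)`. -/

namespace Cfsg.Agent.H14

open Matrix Finset

theorem A4Data.mem_closure_of_comm {G : Type*} [Group G] [Finite G] {a b w : G} (h : A4Data a b w) {g : G}
    (hg : g ∈ (Subgroup.zpowers w ⊔ Subgroup.closure ({a, b} : Set G) : Subgroup G))
    (h1 : a * g = g * a) : g ∈ Subgroup.closure ({a, b} : Set G) := by
  obtain ⟨z, hz, v, hv, rfl⟩ := Cfsg.Agent.Lib.Helper13.mem_sup_of_le_normalizer h.le_normalizer hg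
  have haV : a ∈ Subgroup.closure ({a, b} : Set G) := Subgroup.subset_closure (by simp)
  have hK := isKleinFour_closure h.ha h.hb h.hc h.ha1 h.hb1 h.hab
  have h2 : v * a = a * v := klein_comm' hK hv haV
  have h3 : z * a * z⁻¹ = a := by
    have : a * z * v = z * a * v := by
      calc a * z * v = a * (z * v) := by group
        _ = z * v * a := h1
        _ = z * (v * a) := by group
        _ = z * a * v := by rw [h2]; group
    have := mul_right_cancel this
    rw [← this]; group
  rw [h.eq_one_of_fix hz h3, one_mul]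
  exact hv

variable {F : Type*} [Field F]

local notation "SL2" => Matrix.SpecialLinearGroup (Fin 2) F
local notation "PSL2" => Matrix.ProjectiveSpecialLinearGroup (Fin 2) F
local notation "M2" => Matrix (Fin 2) (Fin 2) F

theorem QPair.inv_conj {x y : SL2} (h : QPair x y) : y⁻¹ * x * y = x⁻¹ := by
  have h1 := h.2
  have : x = y⁻¹ * x⁻¹ * y := by rw [← h1]; group
  calc y⁻¹ * x * y = (y⁻¹ * x⁻¹ * y)⁻¹ := by group
    _ = x⁻¹ := by rw [← this]

theorem QPair.centralizer_aux {x y k : SL2} (h : QPair x y) (h2 : (2 : F) ≠ 0)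
    (hk : k ∈ Subgroup.centralizer ({x} : Set SL2)) (hy : pj (k * y * k⁻¹) = pj y) :
    pj k = 1 ∨ pj k = pj x := by
  have htx := trace_zero_of_mul_self x h.1
  rw [h.conj_torus h2 hk] at hy
  rcases (pj_eq_iff _ _).mp hy.symm with h3 | h3
  · left
    have : k * k = 1 := by
      have : k * k * y = 1 * y := by rw [h3, one_mul]
      exact mul_right_cancel this
    rw [pj_eq_one_iff]
    exact (sq_eq_one_iff h2 k).mp (by rw [sq]; exact this)
  · right
    have hkk : k * k = dg (-1) := mul_right_cancel h3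
    have htk := trace_zero_of_mul_self k hkk
    rcases eq_or_eq_inv_of_trace h2 x k (trace_zero_sq_ne h2 htx) hk (by rw [htk, htx]) with rfl | h4
    · rfl
    · rw [h4, inv_eq_of_mul_self h.1, pj_mul, pj_dg_neg_one, one_mul]

/-- the four-group is self-centralising -/
theorem QPair.centralizer_le {x y : SL2} (h : QPair x y) (h2 : (2 : F) ≠ 0) {n : PSL2}
    (hx : pj x * n = n * pj x) (hy : pj y * n = n * pj y) : n ∈ Kl x y := by
  obtain ⟨k, rfl⟩ := QuotientGroup.mk_surjective n
  change pj x * pj k = pj k * pj x at hx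
  change pj y * pj k = pj k * pj y at hy
  change pj k ∈ _
  have mem := mem_closure_four (pj_mul_self_of_mul_self h.1) (pj_mul_self_of_mul_self (h.sq_right h2)) h.pj_comm
  have hx' : pj (k * x * k⁻¹) = pj x := by
    rw [pj_mul, pj_mul, pj_inv, ← hx]; group
  have hy' : pj (k * y * k⁻¹) = pj y := by
    rw [pj_mul, pj_mul, pj_inv, ← hy]; group
  rw [mem]
  rcases (pj_eq_iff _ _).mp hx'.symm with h3 | h3
  · have hk : k ∈ Subgroup.centralizer ({x} : Set SL2) := by
      rw [Subgroup.mem_centralizer_singleton_iff]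
      exact mul_inv_eq_iff_eq_mul.mp h3
    rcases h.centralizer_aux h2 hk hy' with h4 | h4
    · left; exact h4
    · right; left; exact h4
  · have hk : k * y⁻¹ ∈ Subgroup.centralizer ({x} : Set SL2) := by
      rw [Subgroup.mem_centralizer_singleton_iff]
      have e2 : k * x * k⁻¹ = x⁻¹ := by rw [h3, inv_eq_of_mul_self h.1]
      calc k * y⁻¹ * x = k * (y⁻¹ * x * y) * y⁻¹ := by group
        _ = (k * x * k⁻¹)⁻¹ * (k * y⁻¹) := by rw [h.inv_conj]; group
        _ = x * (k * y⁻¹) := by rw [e2, inv_inv]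
    have hy'' : pj (k * y⁻¹ * y * (k * y⁻¹)⁻¹) = pj y := by
      have : k * y⁻¹ * y * (k * y⁻¹)⁻¹ = k * y * k⁻¹ := by group
      rw [this]; exact hy'
    have e : pj k = pj (k * y⁻¹) * pj y := by rw [← pj_mul]; congr 1; group
    rcases h.centralizer_aux h2 hk hy'' with h4 | h4
    · right; right; left; rw [e, h4, one_mul]
    · right; right; right; rw [e, h4]

variable [Fintype F]

local notation "q" => Fintype.card F

theorem QPair.card_normalizer_le {x y : SL2} (h : QPair x y) (h2 : (2 : F) ≠ 0) :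
    Nat.card (Subgroup.normalizer ((Kl x y : Subgroup PSL2) : Set PSL2)) ≤ 24 := by
  classical
  set V := Kl x y with hV
  have hK : IsKleinFour V := h.isKleinFour h2
  have haV : pj x ∈ V := Subgroup.subset_closure (by simp)
  have hbV : pj y ∈ V := Subgroup.subset_closure (by simp)
  set S : Finset PSL2 := ((Subgroup.normalizer (V : Set PSL2) : Subgroup PSL2) : Set PSL2).toFinset with hS
  have hScard : Nat.card (Subgroup.normalizer (V : Set PSL2)) = S.card := by
    rw [hS, Set.toFinset_card, Nat.card_eq_fintype_card]; rfl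
  let f : PSL2 → PSL2 × PSL2 := fun n => (n * pj x * n⁻¹, n * pj y * n⁻¹)
  have himg : S.image f ⊆ (kleinPairs V).toFinset := by
    intro p hp
    obtain ⟨n, hn, rfl⟩ := Finset.mem_image.mp hp
    rw [hS, Set.mem_toFinset, SetLike.mem_coe, Subgroup.mem_normalizer_iff] at hn
    rw [Set.mem_toFinset]
    refine ⟨(hn _).mp haV, (hn _).mp hbV, ?_, ?_, ?_⟩
    · intro h1
      change n * pj x * n⁻¹ = 1 at h1
      apply pj_ne_one_of_mul_self h2 h.1
      have : pj x = n⁻¹ * (n * pj x * n⁻¹) * n := by group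
      rw [this, h1]; group
    · intro h1
      change n * pj y * n⁻¹ = 1 at h1
      apply pj_ne_one_of_mul_self h2 (h.sq_right h2)
      have : pj y = n⁻¹ * (n * pj y * n⁻¹) * n := by group
      rw [this, h1]; group
    · intro h1
      change n * pj x * n⁻¹ = n * pj y * n⁻¹ at h1
      exact h.pj_ne h2 (mul_left_cancel (mul_right_cancel h1))
  have hc6 : (S.image f).card ≤ 6 := by
    refine le_trans (Finset.card_le_card himg) ?_
    rw [Set.toFinset_card, ← Nat.card_eq_fintype_card, card_kleinPairs V hK.card_four]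
  have hfib : ∀ p ∈ S.image f, (S.filter (fun n => f n = p)).card ≤ 4 := by
    intro p hp
    obtain ⟨n₀, hn₀, rfl⟩ := Finset.mem_image.mp hp
    have hsub : S.filter (fun n => f n = f n₀) ⊆ ((V : Set PSL2).toFinset).image (fun v => n₀ * v) := by
      intro n hn
      rw [Finset.mem_filter] at hn
      have h1 : n * pj x * n⁻¹ = n₀ * pj x * n₀⁻¹ := congrArg Prod.fst hn.2
      have h3 : n * pj y * n⁻¹ = n₀ * pj y * n₀⁻¹ := congrArg Prod.snd hn.2
      rw [Finset.mem_image]
      refine ⟨n₀⁻¹ * n, ?_, by group⟩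
      rw [Set.mem_toFinset]
      apply h.centralizer_le h2
      · calc pj x * (n₀⁻¹ * n) = n₀⁻¹ * (n₀ * pj x * n₀⁻¹) * n := by group
          _ = n₀⁻¹ * n * pj x := by rw [← h1]; group
      · calc pj y * (n₀⁻¹ * n) = n₀⁻¹ * (n₀ * pj y * n₀⁻¹) * n := by group
          _ = n₀⁻¹ * n * pj y := by rw [← h3]; group
    refine le_trans (Finset.card_le_card hsub) (le_trans Finset.card_image_le ?_)
    rw [Set.toFinset_card, ← Nat.card_eq_fintype_card]
    exact hK.card_four.le
  have := Finset.card_le_mul_card_image S 4 hfib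
  rw [hScard]
  omega

theorem exists_S4 (hodd : Odd q) (h8 : q % 8 = 1 ∨ q % 8 = 7) :
    ∃ H : Subgroup PSL2, Nonempty (H ≃* Equiv.Perm (Fin 4)) := by
  have h2 : (2 : F) ≠ 0 := odd_two_ne_zero (Nat.odd_iff.mp hodd)
  obtain ⟨x, hx⟩ := exists_mul_self_eq (F := F)
  obtain ⟨y, hy⟩ := exists_inverting x (trace_zero_sq_ne h2 (trace_zero_of_mul_self x hx))
  have h0 : QPair x y := ⟨hx, hy⟩
  obtain ⟨ω, hω1, hω2⟩ := exists_omega h2 x y h0.1 (h0.sq_right h2) h0.2
  have hA := h0.a4data h2 hω1 hω2
  obtain ⟨u, hu, hxu⟩ := isSqIn_self hodd h8 hx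
  have hK : IsKleinFour (Kl x y) := h0.isKleinFour h2
  refine ⟨Subgroup.normalizer ((Kl x y : Subgroup PSL2) : Set PSL2), ?_⟩
  have hle : (Subgroup.zpowers (pj ω) ⊔ Kl x y : Subgroup PSL2) ≤
      Subgroup.normalizer ((Kl x y : Subgroup PSL2) : Set PSL2) :=
    sup_le hA.le_normalizer Subgroup.le_normalizer
  have h12 := hA.card_sup
  have hdvd := Subgroup.card_dvd_of_le hle
  rw [h12] at hdvd
  have h24 := h0.card_normalizer_le h2
  -- the extra element
  have hs1 : pj u * pj x * (pj u)⁻¹ = pj x := by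
    rw [← pj_inv, ← pj_mul, ← pj_mul, Subgroup.mem_centralizer_singleton_iff.mp hu]
    congr 1; group
  have hs2 : pj u * pj y * (pj u)⁻¹ = pj x * pj y := by
    rw [← pj_inv, ← pj_mul, ← pj_mul, h0.conj_torus h2 hu, ← hxu, pj_mul]
  have hsN : pj u ∈ Subgroup.normalizer ((Kl x y : Subgroup PSL2) : Set PSL2) := by
    apply mem_normalizer_of_conj_mem'
    intro v hv
    have mem := mem_closure_four hA.ha hA.hb hA.hc
    rw [mem]
    rcases (mem v).mp hv with rfl | rfl | rfl | rfl
    · left; group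
    · right; left; exact hs1
    · right; right; right; exact hs2
    · right; right; left
      calc pj u * (pj x * pj y) * (pj u)⁻¹ = (pj u * pj x * (pj u)⁻¹) * (pj u * pj y * (pj u)⁻¹) := by group
        _ = pj x * pj x * pj y := by rw [hs1, hs2]; group
        _ = pj y := by rw [hA.ha, one_mul]
  have hsn : pj u ∉ (Subgroup.zpowers (pj ω) ⊔ Kl x y : Subgroup PSL2) := by
    intro hmem
    have h3 := hA.mem_closure_of_comm hmem (by
      calc pj x * pj u = (pj u * pj x * (pj u)⁻¹) * pj u := by rw [hs1]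
        _ = pj u * pj x := by group)
    have h4 : pj u * pj y = pj y * pj u := klein_comm' hK h3 (Subgroup.subset_closure (by simp))
    rw [h4] at hs2
    have : pj y = pj x * pj y := by rw [← hs2]; group
    apply hA.ha1
    have h5 : 1 * pj y = pj x * pj y := by rw [one_mul]; exact this
    exact (mul_right_cancel h5).symm
  have hcard : Nat.card (Subgroup.normalizer ((Kl x y : Subgroup PSL2) : Set PSL2)) = 24 := by
    obtain ⟨c, hc⟩ := hdvd
    have hpos : 0 < Nat.card (Subgroup.normalizer ((Kl x y : Subgroup PSL2) : Set PSL2)) := Nat.card_pos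
    have hc12 : c = 1 ∨ c = 2 := by omega
    rcases hc12 with rfl | rfl
    · exfalso
      apply hsn
      rw [Subgroup.eq_of_le_of_card_ge hle (by rw [h12, hc])]
      exact hsN
    · rw [hc]
  exact (recog_subgroup _ (Kl x y) Subgroup.le_normalizer le_rfl hK.card_four (by
    intro n _ hcomm
    exact h0.centralizer_le h2 (hcomm _ (Subgroup.subset_closure (by simp)))
      (hcomm _ (Subgroup.subset_closure (by simp))))).2 hcard

end Cfsg.Agent.H14
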