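import Mathlib
import Cfsg.Agent.H14.PGL2
import Cfsg.Agent.H14.PSL2KleinCount

set_option autoImplicit false

/-! Subfield subgroups of `PSL₂(q)`. -/

namespace Cfsg.Agent.H14

open Matrix

theorem exists_ringHom_of_card_pow {K F : Type*} [Field K] [Fintype K] [Field F] [Fintype F] {m : ℕ}
    (h : Fintype.card K ^ m = Fintype.card F) : Nonempty (K →+* F) := by
  obtain ⟨p, hp⟩ := CharP.exists K
  obtain ⟨a, hpp, ha⟩ := FiniteField.card K p
  haveI : Fact p.Prime := ⟨hpp⟩
  obtain ⟨p', hp'⟩ := CharP.exists F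
  obtain ⟨b, hpp', hb⟩ := FiniteField.card F p'
  have hpe : p' = p := by
    have h1 : p' ∣ p ^ ((a : ℕ) * m) := by
      rw [pow_mul, ← ha, h, hb]
      exact dvd_pow_self _ b.pos.ne'
    exact (Nat.prime_dvd_prime_iff_eq hpp' hpp).mp (hpp'.dvd_of_dvd_pow h1)
  subst hpe
  letI := ZMod.algebra K p'
  letI := ZMod.algebra F p'
  have h1 := FiniteField.pow_finrank_eq_card p' K
  have h2 := FiniteField.pow_finrank_eq_card p' F
  have h3 : Module.finrank (ZMod p') K * m = Module.finrank (ZMod p') F := by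
    apply Nat.pow_right_injective hpp.two_le
    simp only
    rw [pow_mul, h1, h2, h]
  obtain ⟨f⟩ := FiniteField.nonempty_algHom_of_finrank_dvd (F := ZMod p') (K := K) (L := F) ⟨m, h3.symm⟩
  exact ⟨f.toRingHom⟩

theorem pow_two_mul_eq (t m : ℕ) : ∃ s, (t + 1) ^ m = t * s + 1 ∧ (Even t → s % 2 = m % 2) := by
  induction m with
  | zero => exact ⟨0, by simp, fun _ => rfl⟩
  | succ m ih =>
    obtain ⟨s, hs, hpar⟩ := ih
    refine ⟨(t + 1) * s + 1, by rw [pow_succ, hs]; ring, fun ht => ?_⟩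
    have := hpar ht
    obtain ⟨u, rfl⟩ := ht
    have e : (u + u + 1) * s + 1 = 2 * (u * s) + (s + 1) := by ring
    rw [e]
    omega

section homs

variable {K F : Type*} [Field K] [Field F] (f : K →+* F)

theorem map_sl2_injective : Function.Injective (Matrix.SpecialLinearGroup.map (n := Fin 2) f) := by
  intro x y h
  apply Subtype.ext
  ext i j
  have := congrFun (congrFun (congrArg Subtype.val h) i) j
  exact f.injective (by simpa using this)

theorem map_dg_neg_one :
    Matrix.SpecialLinearGroup.map (n := Fin 2) f (dg (-1)) = dg (-1) := by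
  apply Subtype.ext
  rw [coe_dg_neg_one]
  change f.mapMatrix (dg (-1) : Matrix.SpecialLinearGroup (Fin 2) K).1 = -1
  rw [coe_dg_neg_one, map_neg, map_one]

include f in
theorem exists_psl2_subfield :
    ∃ H : Subgroup (Matrix.ProjectiveSpecialLinearGroup (Fin 2) F),
      Nonempty (H ≃* Matrix.ProjectiveSpecialLinearGroup (Fin 2) K) := by
  let ψ : Matrix.SpecialLinearGroup (Fin 2) K →* Matrix.ProjectiveSpecialLinearGroup (Fin 2) F :=
    (QuotientGroup.mk' (Subgroup.center (Matrix.SpecialLinearGroup (Fin 2) F))).comp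
      (Matrix.SpecialLinearGroup.map f)
  have hker : ψ.ker = Subgroup.center (Matrix.SpecialLinearGroup (Fin 2) K) := by
    ext x
    rw [MonoidHom.mem_ker, mem_center_iff_eq]
    change pj (Matrix.SpecialLinearGroup.map f x) = 1 ↔ _
    rw [pj_eq_one_iff, ← map_dg_neg_one f, (map_sl2_injective f).eq_iff, ← map_one
      (Matrix.SpecialLinearGroup.map (n := Fin 2) f), (map_sl2_injective f).eq_iff]
  exact ⟨ψ.range, ⟨((QuotientGroup.quotientMulEquivOfEq hker).symm.trans
    (QuotientGroup.quotientKerEquivRange ψ)).symm⟩⟩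

theorem pj_eq_of_smul {x y : Matrix.SpecialLinearGroup (Fin 2) F} {c : F} (h : y.1 = c • x.1) :
    pj x = pj y := by
  have hdet := congrArg Matrix.det h
  rw [Matrix.det_smul, x.2, y.2, Fintype.card_fin, mul_one] at hdet
  have hc : (c - 1) * (c + 1) = 0 := by linear_combination -hdet
  rw [pj_eq_iff]
  rcases mul_eq_zero.mp hc with h1 | h1
  · left
    apply Subtype.ext
    rw [h, sub_eq_zero.mp h1, one_smul]
  · right
    apply Subtype.ext
    rw [h, Matrix.SpecialLinearGroup.coe_mul, coe_dg_neg_one, eq_neg_of_add_eq_zero_left h1]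
    simp

theorem exists_pgl2_subfield (hsq : ∀ x : K, IsSquare (f x)) :
    ∃ H : Subgroup (Matrix.ProjectiveSpecialLinearGroup (Fin 2) F),
      Nonempty (H ≃* Matrix.ProjGenLinGroup (Fin 2) K) := by
  classical
  choose δ hδ using hsq
  have hdet0 : ∀ g : GL (Fin 2) K, (g : Matrix (Fin 2) (Fin 2) K).det ≠ 0 :=
    fun g => (Matrix.isUnits_det_units g).ne_zero
  have hδ0 : ∀ g : GL (Fin 2) K, δ (g : Matrix (Fin 2) (Fin 2) K).det ≠ 0 := by
    intro g h0
    have := hδ (g : Matrix (Fin 2) (Fin 2) K).det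
    rw [h0, mul_zero] at this
    exact hdet0 g ((map_eq_zero f).mp this)
  let s : GL (Fin 2) K → Matrix.SpecialLinearGroup (Fin 2) F := fun g =>
    ⟨(δ (g : Matrix (Fin 2) (Fin 2) K).det)⁻¹ • f.mapMatrix (g : Matrix (Fin 2) (Fin 2) K), by
      rw [Matrix.det_smul, Fintype.card_fin, ← RingHom.map_det, hδ]
      have := hδ0 g
      field_simp⟩
  have hs : ∀ g, (s g).1 = (δ (g : Matrix (Fin 2) (Fin 2) K).det)⁻¹ •
      f.mapMatrix (g : Matrix (Fin 2) (Fin 2) K) := fun g => rfl
  let φ : GL (Fin 2) K →* Matrix.ProjectiveSpecialLinearGroup (Fin 2) F :=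
    MonoidHom.mk' (fun g => pj (s g)) (by
      intro g h
      rw [← pj_mul]
      symm
      apply pj_eq_of_smul (c := (δ ((g * h : GL (Fin 2) K) : Matrix (Fin 2) (Fin 2) K).det)⁻¹ *
        (δ (g : Matrix (Fin 2) (Fin 2) K).det * δ (h : Matrix (Fin 2) (Fin 2) K).det))
      rw [Matrix.SpecialLinearGroup.coe_mul, hs, hs, hs, Units.val_mul, map_mul, smul_mul_smul_comm, smul_smul]
      congr 1
      have h1 := hδ0 g
      have h2 := hδ0 h
      field_simp)
  have hker : φ.ker = Subgroup.center (GL (Fin 2) K) := by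
    ext g
    rw [MonoidHom.mem_ker, gl_mem_center_iff_isScal]
    change pj (s g) = 1 ↔ _
    rw [pj_eq_one_iff, ← isScal_iff_eq, hs]
    have h1 := hδ0 g
    unfold IsScal
    simp only [Matrix.smul_apply, RingHom.mapMatrix_apply, Matrix.map_apply, smul_eq_mul, mul_eq_zero,
      inv_eq_zero, h1, false_or, map_eq_zero]
    constructor
    · rintro ⟨a, b, c⟩
      exact ⟨a, b, f.injective (mul_left_cancel₀ (inv_ne_zero h1) c)⟩
    · rintro ⟨a, b, c⟩
      exact ⟨a, b, by rw [c]⟩
  exact ⟨φ.range, ⟨((QuotientGroup.quotientMulEquivOfEq hker).symm.trans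
    (QuotientGroup.quotientKerEquivRange φ)).symm⟩⟩

end homs

theorem isSquare_of_even_degree {K F : Type*} [Field K] [Fintype K] [Field F] [Fintype F] (f : K →+* F) {m : ℕ}
    (h : Fintype.card K ^ m = Fintype.card F) (hm : Even m) (hodd : Odd (Fintype.card F)) (x : K) :
    IsSquare (f x) := by
  by_cases hx : x = 0
  · rw [hx, map_zero]; exact IsSquare.zero
  have hch : ringChar F ≠ 2 := by
    intro h2
    have := FiniteField.even_card_iff_char_two.mp h2
    have := Nat.odd_iff.mp hodd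
    omega
  rw [FiniteField.isSquare_iff hch ((map_ne_zero f).mpr hx)]
  obtain ⟨j, rfl⟩ := hm
  have hr : Odd (Fintype.card K) := by
    rw [← h] at hodd
    by_cases h1 : j + j = 0
    · rw [h1, pow_zero] at h
      have : 1 < Fintype.card F := Fintype.one_lt_card
      omega
    · exact (Nat.odd_pow_iff h1).mp hodd
  obtain ⟨u, hu⟩ := hr
  obtain ⟨s, hs, -⟩ := pow_two_mul_eq ((Fintype.card K - 1) * (Fintype.card K + 1)) j
  have e1 : (Fintype.card K - 1) * (Fintype.card K + 1) + 1 = Fintype.card K ^ 2 := by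
    rw [hu]
    simp only [Nat.add_sub_cancel]
    ring
  rw [e1, ← pow_mul, two_mul, h] at hs
  have e2 : Fintype.card F / 2 = (Fintype.card K - 1) * ((u + 1) * s) := by
    rw [hs, hu]
    simp only [Nat.add_sub_cancel]
    have : 2 * u * (2 * u + 1 + 1) * s + 1 = 2 * (2 * u * ((u + 1) * s)) + 1 := by ring
    omega
  rw [e2, pow_mul, ← map_pow, FiniteField.pow_card_sub_one_eq_one x hx, map_one, one_pow]

theorem not_pgl2_of_odd_degree {K F : Type*} [Field K] [Fintype K] [Field F] [Fintype F] {m : ℕ}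
    (h : Fintype.card K ^ m = Fintype.card F) (hm : ¬ Even m) (hodd : Odd (Fintype.card F))
    (H : Subgroup (Matrix.ProjectiveSpecialLinearGroup (Fin 2) F))
    (e : H ≃* Matrix.ProjGenLinGroup (Fin 2) K) : False := by
  classical
  have h2 : (2 : F) ≠ 0 := odd_two_ne_zero (Nat.odd_iff.mp hodd)
  have hr : Odd (Fintype.card K) := by
    rw [← h] at hodd
    by_cases h1 : m = 0
    · rw [h1] at hm
      exact absurd Even.zero hm
    · exact (Nat.odd_pow_iff h1).mp hodd
  have hcH : Nat.card H = Fintype.card K * (Fintype.card K - 1) * (Fintype.card K + 1) := by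
    rw [Nat.card_congr e.toEquiv]
    exact card_pg2
  have hdvd := Subgroup.card_subgroup_dvd_card H
  have hG := card_psl2_mul_two (F := F) h2
  rw [Nat.card_eq_fintype_card (α := Matrix.SpecialLinearGroup (Fin 2) F), card_sl2] at hG
  obtain ⟨u, hu⟩ := hr
  obtain ⟨s, hs, hpar⟩ := pow_two_mul_eq ((Fintype.card K - 1) * (Fintype.card K + 1)) m
  have e1 : (Fintype.card K - 1) * (Fintype.card K + 1) + 1 = Fintype.card K ^ 2 := by
    rw [hu]
    simp only [Nat.add_sub_cancel]
    ring
  have hte : Even ((Fintype.card K - 1) * (Fintype.card K + 1)) := by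
    rw [hu]
    simp only [Nat.add_sub_cancel]
    exact ⟨u * (2 * u + 1 + 1), by ring⟩
  have hspar := hpar hte
  rw [e1, ← pow_mul, mul_comm 2 m, pow_mul, h] at hs
  have hq1 : 1 < Fintype.card F := Fintype.one_lt_card
  have e3 : (Fintype.card F - 1) * (Fintype.card F + 1) = (Fintype.card K - 1) * (Fintype.card K + 1) * s := by
    obtain ⟨v, hv⟩ : ∃ v, Fintype.card F = v + 1 := ⟨Fintype.card F - 1, by omega⟩
    rw [hv] at hs ⊢
    simp only [Nat.add_sub_cancel]
    have : (v + 1) ^ 2 = v * (v + 1 + 1) + 1 := by ring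
    omega
  obtain ⟨c, hc⟩ := hdvd
  rw [hc, hcH, mul_assoc (Fintype.card F), e3] at hG
  have hK1 : 1 < Fintype.card K := Fintype.one_lt_card
  have ht0 : 0 < (Fintype.card K - 1) * (Fintype.card K + 1) := Nat.mul_pos (by omega) (by omega)
  have e4 : (Fintype.card K - 1) * (Fintype.card K + 1) * (Fintype.card K * c * 2) =
      (Fintype.card K - 1) * (Fintype.card K + 1) * (Fintype.card F * s) := by
    rw [← mul_assoc, ← mul_assoc] at hG ⊢
    linarith [hG]
  have e5 := Nat.eq_of_mul_eq_mul_left ht0 e4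
  have hodd2 : Odd (Fintype.card F * s) := hodd.mul (Nat.odd_iff.mpr (by
    rw [hspar]; exact Nat.odd_iff.mp (Nat.not_even_iff_odd.mp hm)))
  rw [← e5] at hodd2
  exact (Nat.not_even_iff_odd.mpr hodd2) ⟨Fintype.card K * c, by ring⟩

end Cfsg.Agent.H14
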