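import Mathlib
import Cfsg.Agent.H14.PSL2Class

set_option autoImplicit false

/-! The class number of the Borel subgroup of `SL₂(q)`, `q` odd. -/

namespace Cfsg.Agent.H14

open Matrix Finset Cfsg.Agent.CharLib

theorem card_centralizer_subgroup {G : Type*} [Group G] (H : Subgroup G) (b : H)
    (h : Subgroup.centralizer ({b.1} : Set G) ≤ H) :
    Nat.card (Subgroup.centralizer ({b} : Set H)) = Nat.card (Subgroup.centralizer ({b.1} : Set G)) := by
  apply Nat.card_congr
  refine ⟨fun x => ⟨x.1.1, ?_⟩, fun y => ⟨⟨y.1, h y.2⟩, ?_⟩, fun x => rfl, fun y => rfl⟩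
  · have := Subgroup.mem_centralizer_singleton_iff.mp x.2
    rw [Subgroup.mem_centralizer_singleton_iff]
    exact congrArg Subtype.val this
  · have := Subgroup.mem_centralizer_singleton_iff.mp y.2
    rw [Subgroup.mem_centralizer_singleton_iff]
    exact Subtype.ext this

variable {F : Type*} [Field F]

local notation "SL2" => Matrix.SpecialLinearGroup (Fin 2) F
local notation "M2" => Matrix (Fin 2) (Fin 2) F
local notation "q" => Fintype.card F

theorem centralizer_bm_le_borel (a : Fˣ) (c : F) (hs : ¬ IsScal (bm a c).1) :
    Subgroup.centralizer ({bm a c} : Set SL2) ≤ borel F := by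
  intro g hg
  obtain ⟨c', d', h⟩ := exists_lin_of_comm (bm a c) g hs (Subgroup.mem_centralizer_singleton_iff.mp hg)
  rw [mem_borel, h]
  simp [lin]

variable [Fintype F]

theorem sum_borel' [DecidableEq F] {M : Type*} [AddCommMonoid M] [Fintype (borel F)] (Φ : borel F → M) :
    ∑ b : borel F, Φ b = ∑ a : Fˣ, ∑ c : F, Φ ⟨bm a c, bm_mem a c⟩ := by
  rw [← Fintype.sum_prod_type']
  exact Fintype.sum_equiv borelEquiv _ _ (fun b => by
    congr 1
    exact (borelEquiv.left_inv b).symm)

theorem card_conjClasses_borel (h2 : (2 : F) ≠ 0) : Nat.card (ConjClasses (borel F)) = q + 3 := by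
  classical
  let _ : Fintype (borel F) := Fintype.ofFinite _
  have h1q : 1 < q := Fintype.one_lt_card
  have hsum := sum_card_centralizer (G := borel F)
  rw [sum_borel', card_borel] at hsum
  have v : ∀ (a : Fˣ) (c : F), Nat.card (Subgroup.centralizer ({(⟨bm a c, bm_mem a c⟩ : borel F)} : Set (borel F))) =
      if a ^ 2 = 1 then (if c = 0 then q * (q - 1) else 2 * q) else q - 1 := by
    intro a c
    split_ifs with ha hc
    · have : Subgroup.centralizer ({(⟨bm a c, bm_mem a c⟩ : borel F)} : Set (borel F)) = ⊤ := by
        rw [eq_top_iff]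
        intro x _
        rw [Subgroup.mem_centralizer_singleton_iff]
        apply Subtype.ext
        have hz : bm a c ∈ Subgroup.center SL2 := by
          rw [hc, bm_zero]
          exact (mem_center_iff_isScal _).mpr ((isScal_dg_iff a).mpr ha)
        exact Subgroup.mem_center_iff.mp hz x.1
      rw [this, Subgroup.card_top, card_borel]
    · rw [card_centralizer_subgroup _ _ (centralizer_bm_le_borel a c (not_isScal_bm a hc)),
        card_centralizer_bm a ha c hc, card_sq_eq_one_odd h2]
    · have hconj := bm_isConj_dg a c ha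
      have hs : ¬ IsScal (bm a c).1 := by
        intro hs
        have := sl2_eq_of_isConj_of_isScal hconj hs
        rw [← this] at hs
        exact ha ((isScal_dg_iff a).mp hs)
      rw [card_centralizer_subgroup _ _ (centralizer_bm_le_borel a c hs),
        card_centralizer_of_isConj hconj.symm, card_centralizer_dg a ha]
  simp only [v] at hsum
  have inner : ∀ a : Fˣ, ∑ c : F, (if a ^ 2 = 1 then (if c = 0 then q * (q - 1) else 2 * q) else q - 1) =
      q * (q - 1) + if a ^ 2 = 1 then 2 * (q * (q - 1)) else 0 := by
    intro a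
    split_ifs with ha
    · rw [← Finset.add_sum_erase univ _ (Finset.mem_univ (0 : F)), if_pos rfl,
        Finset.sum_congr rfl (g := fun _ => 2 * q)]
      · simp [Finset.card_erase_of_mem]
        ring
      · intro c hc
        rw [if_neg (Finset.ne_of_mem_erase hc)]
    · simp
  simp only [inner] at hsum
  rw [Finset.sum_add_distrib, ← Finset.sum_filter] at hsum
  have hcard : (univ.filter (fun a : Fˣ => a ^ 2 = 1)).card = 2 := by
    have := card_sq_eq_one_odd h2
    rw [Nat.card_eq_fintype_card, Fintype.card_subtype] at this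
    exact this
  simp only [Finset.sum_const, Finset.card_univ, Fintype.card_units, hcard, smul_eq_mul] at hsum
  have hpos : 0 < q * (q - 1) := Nat.mul_pos (by omega) (by omega)
  have : (q * (q - 1)) * (q + 3) = (q * (q - 1)) * Nat.card (ConjClasses (borel F)) := by
    rw [mul_comm _ (Nat.card _), ← hsum]
    obtain ⟨k, hk⟩ : ∃ k, q = k + 1 := ⟨q - 1, by omega⟩
    rw [hk]
    simp only [Nat.add_sub_cancel]
    ring
  exact (Nat.eq_of_mul_eq_mul_left hpos this).symm

end Cfsg.Agent.H14
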