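import Mathlib
import Cfsg.Agent.H14.OddGL2
import Cfsg.Agent.H14.SL2Syl2
import Cfsg.Agent.Tr.SL23
import Cfsg.Agent.Lib.Helper18.Quat

set_option autoImplicit false

/-! A `p`-element of `SL₂(q)` acting on a `p'`-subgroup. -/

namespace Cfsg.Agent.H14

open Matrix
open scoped Pointwise

theorem coe_pow_eq_one {G : Type*} [Group G] {R : Subgroup G} {b : R} {n : ℕ} (h : b ^ n = 1) :
    (b : G) ^ n = 1 := by
  rw [← Subgroup.coe_pow, h, Subgroup.coe_one]

variable {F : Type*} [Field F]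

local notation "SL2" => Matrix.SpecialLinearGroup (Fin 2) F
local notation "M2" => Matrix (Fin 2) (Fin 2) F

theorem two_ne_zero_of_char (p : ℕ) [Fact p.Prime] [CharP F p] (hp : p ≠ 2) : (2 : F) ≠ 0 := by
  intro h
  have h3 : ((2 : ℕ) : F) = 0 := by exact_mod_cast h
  rw [CharP.cast_eq_zero_iff F p] at h3
  exact hp ((Nat.prime_dvd_prime_iff_eq (Fact.out : p.Prime) Nat.prime_two).mp h3)

theorem conj_eq_self_of_odd' (h2 : (2 : F) ≠ 0) (x g : SL2) (hg : Odd (orderOf g))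
    (htr : x.1.trace ^ 2 ≠ 4)
    (hc : (g * x * g⁻¹) * x = x * (g * x * g⁻¹)) : g * x * g⁻¹ = x := by
  have ht : (g * x * g⁻¹).1.trace = x.1.trace :=
    (sl2_trace_eq_of_isConj (isConj_iff.mpr ⟨g, rfl⟩)).symm
  rcases eq_or_eq_inv_of_comm h2 x _ hc ht htr with h | h
  · exact h
  · have h3 : Commute (g ^ 2) x := by
      have : g ^ 2 * x * (g ^ 2)⁻¹ = x := by
        have e : g ^ 2 * x * (g ^ 2)⁻¹ = g * (g * x * g⁻¹) * g⁻¹ := by
          rw [pow_two, _root_.mul_inv_rev]; simp only [mul_assoc]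
        rw [e, h]
        have e' : g * x⁻¹ * g⁻¹ = (g * x * g⁻¹)⁻¹ := by group
        rw [e', h, inv_inv]
      exact mul_inv_eq_iff_eq_mul.mp this
    obtain ⟨m, hm⟩ := hg
    have h4 : (g ^ 2) ^ (m + 1) = g := by
      rw [← pow_mul]
      have : 2 * (m + 1) = orderOf g + 1 := by omega
      rw [this, pow_succ, pow_orderOf_eq_one, one_mul]
    have h5 : Commute g x := by
      have := h3.pow_left (m + 1)
      rwa [h4] at this
    exact mul_inv_eq_iff_eq_mul.mpr h5

theorem not_isScal_of_pElement (p : ℕ) [Fact p.Prime] [CharP F p] (hp : p ≠ 2) (b : SL2) (k : ℕ)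
    (hb : b ^ p ^ k = 1) (hb1 : b ≠ 1) : ¬ IsScal b.1 := by
  have htr := trace_two_of_pow_eq_one p b k hb
  have h2 := two_ne_zero_of_char (F := F) p hp
  intro hs
  rcases (isScal_iff_eq _).mp hs with h | h
  · exact hb1 h
  · rw [h, coe_dg_neg_one] at htr
    simp at htr
    have h2' : (2 : F) * 2 = 0 := by linear_combination -htr
    exact h2 (mul_self_eq_zero.mp h2')

theorem not_comm_conj_of_pElement (p : ℕ) [Fact p.Prime] [CharP F p] (hp : p ≠ 2) (b x : SL2) (k : ℕ)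
    (hb : b ^ p ^ k = 1) (hb1 : b ≠ 1) (hx : x.1.trace ^ 2 ≠ 4) :
    (b * x * b⁻¹) * x ≠ x * (b * x * b⁻¹) := by
  intro hc
  have h2 := two_ne_zero_of_char (F := F) p hp
  have hodd : Odd (orderOf b) := by
    have hpodd : Odd p := (Fact.out : p.Prime).odd_of_ne_two hp
    exact Odd.of_dvd_nat hpodd.pow (orderOf_dvd_of_pow_eq_one hb)
  have h1 := conj_eq_self_of_odd' h2 x b hodd hx hc
  have h3 : x * b = b * x := (mul_inv_eq_iff_eq_mul.mp h1).symm
  obtain ⟨c, d, hcd⟩ := exists_lin_of_comm b x (not_isScal_of_pElement p hp b k hb hb1) h3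
  have htr := trace_two_of_pow_eq_one p b k hb
  apply hx
  have e1 : x.1.trace = 2 * c + d * 2 := by rw [hcd, trace_lin, htr]
  have e2 : c ^ 2 + c * d * 2 + d ^ 2 = 1 := by rw [← htr, ← det_lin, ← hcd]; exact x.2
  rw [e1]
  linear_combination 4 * e2

theorem trace_sq_ne_four_of_two_elt (p : ℕ) [Fact p.Prime] [CharP F p] (hp : p ≠ 2) (x : SL2) (k : ℕ)
    (hx : x ^ 2 ^ k = 1) (hx2 : x ^ 2 ≠ 1) : x.1.trace ^ 2 ≠ 4 := by
  intro h
  apply hx2
  have h1 : (x ^ 2).1.trace = 2 := by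
    rw [sl2_pow_two_coe, Matrix.trace_sub, Matrix.trace_smul, Matrix.trace_one]
    simp only [smul_eq_mul, Fintype.card_fin, Nat.cast_ofNat]
    linear_combination h
  have h3 := pow_char_of_trace_two p (x ^ 2) h1
  have h4 : (x ^ 2) ^ 2 ^ k = 1 := by rw [← pow_mul, mul_comm, pow_mul, hx, one_pow]
  have h5 : Nat.Coprime p (2 ^ k) :=
    Nat.Coprime.pow_right _ ((Nat.coprime_primes (Fact.out : p.Prime) Nat.prime_two).mpr hp)
  have := pow_gcd_eq_one.mpr ⟨h3, h4⟩
  rwa [h5, pow_one] at this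

theorem dg_neg_one_comm (g : SL2) : dg (-1) * g = g * dg (-1) := by
  have : (dg (-1) : SL2) ∈ Subgroup.center SL2 := (mem_center_iff_eq _).mpr (Or.inr rfl)
  exact (Subgroup.mem_center_iff.mp this g).symm

/-- structure of a subgroup of exponent 4 -/
theorem exp_four_inverts (h2 : (2 : F) ≠ 0) (R : Subgroup SL2) (hexp : ∀ c ∈ R, c ^ 4 = 1) (u v : SL2)
    (hu : u ∈ R) (hv : v ∈ R) (huv : v * u ≠ u * v) :
    u ^ 2 = dg (-1) ∧ v ^ 2 = dg (-1) ∧ v * u * v⁻¹ = u⁻¹ := by
  have hsq : ∀ c ∈ R, c ^ 2 = 1 ∨ c ^ 2 = dg (-1) := by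
    intro c hc
    apply (sq_eq_one_iff h2 _).mp
    rw [← pow_mul]
    exact hexp c hc
  have hu2 : u ^ 2 = dg (-1) := by
    rcases hsq u hu with h | h
    · exfalso
      apply huv
      rcases (sq_eq_one_iff h2 u).mp h with h | h
      · rw [h]; simp
      · rw [h]; exact (dg_neg_one_comm v).symm
    · exact h
  have hv2 : v ^ 2 = dg (-1) := by
    rcases hsq v hv with h | h
    · exfalso
      apply huv
      rcases (sq_eq_one_iff h2 v).mp h with h | h
      · rw [h]; simp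
      · rw [h]; exact dg_neg_one_comm u
    · exact h
  have huv2 : (u * v) ^ 2 = dg (-1) := by
    rcases hsq _ (mul_mem hu hv) with h | h
    · exfalso
      apply huv
      rcases (sq_eq_one_iff h2 _).mp h with h | h
      · have : v = u⁻¹ := eq_inv_of_mul_eq_one_right h
        rw [this]; simp
      · have : v = u⁻¹ * dg (-1) := by rw [← h]; group
        rw [this, mul_assoc, dg_neg_one_comm u, ← mul_assoc, ← mul_assoc]
        simp
    · exact h
  refine ⟨hu2, hv2, ?_⟩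
  have e1 : v⁻¹ = v * dg (-1) := by
    rw [inv_eq_iff_mul_eq_one, ← mul_assoc, ← pow_two, hv2, dg_neg_one_mul_self]
  have e2 : v * u * v = u⁻¹ * dg (-1) := by
    rw [← huv2, pow_two]; group
  rw [e1, ← mul_assoc, e2, mul_assoc, dg_neg_one_mul_self, mul_one]

theorem exp_four_centralizer (h2 : (2 : F) ≠ 0) (R : Subgroup SL2) (hexp : ∀ c ∈ R, c ^ 4 = 1) (x g : SL2)
    (hx2 : x ^ 2 = dg (-1)) (hg : g ∈ R) (hgx : g * x = x * g) : ∃ k : ℕ, g = x ^ k := by
  have hsq : g ^ 2 = 1 ∨ g ^ 2 = dg (-1) := by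
    apply (sq_eq_one_iff h2 _).mp
    rw [← pow_mul]
    exact hexp g hg
  rcases hsq with h | h
  · rcases (sq_eq_one_iff h2 g).mp h with h | h
    · exact ⟨0, by rw [h, pow_zero]⟩
    · exact ⟨2, by rw [h, hx2]⟩
  · have h3 : (g * x⁻¹) ^ 2 = 1 := by
      have hc : Commute g x⁻¹ := (show Commute g x from hgx).inv_right
      rw [hc.mul_pow, h, inv_pow, hx2, mul_inv_cancel]
    rcases (sq_eq_one_iff h2 _).mp h3 with h4 | h4
    · exact ⟨1, by rw [pow_one]; exact mul_inv_eq_one.mp h4⟩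
    · refine ⟨3, ?_⟩
      have : g = dg (-1) * x := mul_inv_eq_iff_eq_mul.mp h4
      rw [this, ← hx2]; group

theorem isPGroup_zpowers_of_pow {G : Type*} [Group G] {p : ℕ} {x : G} (k : ℕ) (h : x ^ p ^ k = 1) :
    IsPGroup p (Subgroup.zpowers x) := by
  rintro ⟨y, hy⟩
  obtain ⟨m, rfl⟩ := Subgroup.mem_zpowers_iff.mp hy
  refine ⟨k, Subtype.ext ?_⟩
  change (x ^ m) ^ p ^ k = 1
  rw [← zpow_natCast, ← _root_.zpow_mul, mul_comm, _root_.zpow_mul, zpow_natCast, h, _root_.one_zpow]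

theorem card_eq_eight (h2 : (2 : F) ≠ 0) (R : Subgroup SL2) [Finite R] (hexp : ∀ c ∈ R, c ^ 4 = 1)
    (x y : SL2) (hx : x ∈ R) (hy : y ∈ R) (hxy : y * x ≠ x * y) :
    Nat.card R = 8 ∧ Nonempty (R ≃* QuaternionGroup 2) := by
  obtain ⟨hx2, hy2, hinv⟩ := exp_four_inverts h2 R hexp x y hx hy hxy
  let c : R := ⟨x, hx⟩
  let w : R := ⟨y, hy⟩
  have hc4 : orderOf c = 4 := by
    have := orderOf_eq_prime_pow (p := 2) (n := 1) (x := c) (by
      intro h
      have h' : x ^ 2 = 1 := by simpa using congrArg Subtype.val h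
      rw [hx2] at h'
      exact dg_neg_one_ne_one h2 h') (Subtype.ext (by simpa using hexp x hx))
    simpa using this
  have hmem : ∀ b : R, b ∈ Subgroup.zpowers c ↔ (b : SL2) * x = x * b := by
    intro b
    constructor
    · intro hb
      obtain ⟨m, rfl⟩ := Subgroup.mem_zpowers_iff.mp hb
      have : Commute (x ^ m) x := (Commute.refl x).zpow_left m
      exact this
    · intro hb
      obtain ⟨k, hk⟩ := exp_four_centralizer h2 R hexp x b hx2 b.2 hb
      exact Subgroup.mem_zpowers_iff.mpr ⟨k, Subtype.ext (by simpa using hk.symm)⟩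
  have hw : w ∉ Subgroup.zpowers c := fun h => hxy ((hmem w).mp h)
  have hidx : (Subgroup.zpowers c).index = 2 := by
    rw [Subgroup.index_eq_two_iff]
    refine ⟨w, fun b => ?_⟩
    by_cases hb : b ∈ Subgroup.zpowers c
    · refine Or.inr ⟨hb, fun h => hw ?_⟩
      have := mul_mem (inv_mem hb) h
      rwa [inv_mul_cancel_left] at this
    · refine Or.inl ⟨?_, hb⟩
      have hb' : (b : SL2) * x ≠ x * b := fun h => hb ((hmem b).mpr h)
      obtain ⟨-, -, hinv'⟩ := exp_four_inverts h2 R hexp x b hx b.2 hb'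
      rw [hmem]
      have e : ((b * w : R) : SL2) * x * ((b * w : R) : SL2)⁻¹ = x := by
        have e1 : ((b * w : R) : SL2) * x * ((b * w : R) : SL2)⁻¹ =
            (b : SL2) * (y * x * y⁻¹) * (b : SL2)⁻¹ := by
          change ((b : SL2) * y) * x * ((b : SL2) * y)⁻¹ = _
          group
        rw [e1, hinv]
        have e2 : (b : SL2) * x⁻¹ * (b : SL2)⁻¹ = ((b : SL2) * x * (b : SL2)⁻¹)⁻¹ := by group
        rw [e2, hinv', inv_inv]
      exact mul_inv_eq_iff_eq_mul.mp e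
  have hcard : Nat.card R = 8 := by
    rw [← Subgroup.card_mul_index (Subgroup.zpowers c), hidx, Nat.card_zpowers, hc4]
  refine ⟨hcard, ?_⟩
  apply Cfsg.Agent.Lib.Helper18.mulEquiv_quaternion 2 c w hc4 hw
  · apply Subtype.ext
    change y ^ 2 = x ^ 2
    rw [hx2, hy2]
  · apply Subtype.ext
    exact hinv
  · exact hcard

variable [Fintype F]

theorem isPGroup_two_of_normalized (p : ℕ) [Fact p.Prime] [CharP F p] (hp : p ≠ 2) (a : SL2)
    (hap : a ^ p = 1) (ha1 : a ≠ 1) (R : Subgroup SL2) (hR : (Nat.card R).Coprime p)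
    (haR : a ∈ Subgroup.normalizer (R : Set SL2)) : IsPGroup 2 R := by
  classical
  have hpR : ¬ p ∣ Nat.card R := (Nat.Prime.coprime_iff_not_dvd Fact.out).mp hR.symm
  have hcard : Nat.card R = 2 ^ (Nat.card R).primeFactorsList.length := by
    apply Nat.eq_prime_pow_of_unique_prime_dvd Nat.card_pos.ne'
    intro r hr hrR
    by_contra hne
    haveI : Fact r.Prime := ⟨hr⟩
    have hrp : r ≠ p := by
      rintro rfl
      exact hpR hrR
    let α : MulAut R := R.normalizerMonoidHom ⟨a, haR⟩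
    have hα : ∀ y : R, ((α y : R) : SL2) = a * y * a⁻¹ := fun _ => rfl
    have hαp : α ^ p ^ 1 = 1 := by
      rw [pow_one, ← map_pow]
      have : (⟨a, haR⟩ : Subgroup.normalizer (R : Set SL2)) ^ p = 1 := Subtype.ext hap
      rw [this, map_one]
    have hA : IsPGroup p (Subgroup.zpowers α) := isPGroup_zpowers_of_pow 1 hαp
    have hnd : ¬ p ∣ Nat.card (Sylow r R) := by
      intro h
      obtain ⟨Q⟩ : Nonempty (Sylow r R) := inferInstance
      exact hpR ((h.trans Q.card_dvd_index).trans (Subgroup.index_dvd_card _))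
    obtain ⟨Q, hQ⟩ := hA.nonempty_fixed_point_of_prime_not_dvd_card (Sylow r R) hnd
    have hαQ : α • Q = Q := hQ ⟨α, Subgroup.mem_zpowers α⟩
    have hQbot : (Q : Subgroup R) ≠ ⊥ := by
      intro h
      have := Q.dvd_card_of_dvd_card hrR
      rw [h, Subgroup.card_bot] at this
      exact hr.one_lt.ne' (Nat.dvd_one.mp this)
    obtain ⟨z, hzQ, hz1, hzc⟩ := exists_central_elt (Q : Subgroup R) Q.2 hQbot
    have hαz : α z ∈ (Q : Subgroup R) := by
      have h1 : α • z ∈ α • (Q : Subgroup R) := Subgroup.smul_mem_pointwise_smul z α Q hzQ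
      have h2 : α • (Q : Subgroup R) = ((α • Q : Sylow r R) : Subgroup R) := rfl
      rw [h2, hαQ] at h1
      exact h1
    have hcomm := hzc _ hαz
    have hz1' : (z : SL2) ≠ 1 := fun h => hz1 (Subtype.ext h)
    obtain ⟨k, hk⟩ := IsPGroup.iff_orderOf.mp Q.2 ⟨z, hzQ⟩
    have hord : orderOf (z : SL2) = r ^ k := by
      rw [Subgroup.orderOf_coe, ← Subgroup.orderOf_mk z hzQ, hk]
    have hodd : Odd (orderOf (z : SL2)) := by
      rw [hord]; exact (hr.odd_of_ne_two hne).pow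
    have hcop : (orderOf (z : SL2)).Coprime p := by
      rw [hord]
      exact Nat.Coprime.pow_left _ ((Nat.coprime_primes hr (Fact.out : p.Prime)).mpr hrp)
    have hc1 : ((α z * z : R) : SL2) = ((z * α z : R) : SL2) := congrArg Subtype.val hcomm
    rw [Subgroup.coe_mul, Subgroup.coe_mul, hα] at hc1
    exact not_comm_conj_of_pElement p hp a (z : SL2) 1 (by rw [pow_one]; exact hap) ha1
      (trace_sq_ne_four_of_coprime p (z : SL2) hz1' hodd hcop) hc1
  exact IsPGroup.of_card hcard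

theorem pow_four_of_normalized (p : ℕ) [Fact p.Prime] [CharP F p] (hp : p ≠ 2) (a : SL2)
    (hap : a ^ p = 1) (ha1 : a ≠ 1) (R : Subgroup SL2) (hR2 : IsPGroup 2 R)
    (haR : a ∈ Subgroup.normalizer (R : Set SL2)) : ∀ c ∈ R, c ^ 4 = 1 := by
  have h2 := two_ne_zero_of_char (F := F) p hp
  have hodd : Odd (Fintype.card F) := by
    obtain ⟨n, -, hn⟩ := FiniteField.card F p
    rw [hn]
    exact ((Fact.out : p.Prime).odd_of_ne_two hp).pow
  obtain ⟨S, hS⟩ := hR2.exists_le_sylow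
  obtain ⟨y, hy, hle, -⟩ := sylow2_le_normalizer hodd S
  have key : ∀ s ∈ S, s ^ 4 ≠ 1 → s ∈ Subgroup.centralizer ({y} : Set SL2) := by
    intro s hs h4
    rcases (mem_normalizer_centralizer_iff h2 y hy s).mp (hle hs) with h | h
    · exact h
    · exfalso
      apply h4
      have := sq_of_inverting h2 y s hy h
      have e : s ^ 4 = (s * s) * (s * s) := by
        rw [show (4 : ℕ) = 2 + 2 by rfl, pow_add, pow_two]
      rw [e, this, dg_neg_one_mul_self]
  intro c hc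
  by_contra h4
  have hc' : a * c * a⁻¹ ∈ R := (Subgroup.mem_normalizer_iff.mp haR c).mp hc
  have h4' : (a * c * a⁻¹) ^ 4 ≠ 1 := by
    rw [conj_pow]
    intro h
    apply h4
    have := mul_inv_eq_iff_eq_mul.mp h
    rw [one_mul] at this
    exact mul_left_cancel (this.trans (mul_one a).symm)
  have k1 := key c (hS hc) h4
  have k2 := key _ (hS hc') h4'
  have hcomm := centralizer_comm y (not_isScal_of_trace_sq_ne y hy) k2 k1
  obtain ⟨k, hk⟩ := hR2 ⟨c, hc⟩
  have htr := trace_sq_ne_four_of_two_elt p hp c k (coe_pow_eq_one hk)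
    (fun h => h4 (by rw [show 4 = 2 * 2 by rfl, pow_mul, h, one_pow]))
  exact not_comm_conj_of_pElement p hp a c 1 (by rw [pow_one]; exact hap) ha1 htr hcomm

theorem eq_three_of_card_eight (p : ℕ) [Fact p.Prime] [CharP F p] (hp : p ≠ 2) (a : SL2)
    (hap : a ^ p = 1) (ha1 : a ≠ 1) (R : Subgroup SL2) (hR2 : IsPGroup 2 R)
    (haR : a ∈ Subgroup.normalizer (R : Set SL2)) (hcard : Nat.card R = 8) (hζ : dg (-1) ∈ R) :
    p = 3 := by
  have h2 := two_ne_zero_of_char (F := F) p hp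
  let α : MulAut R := R.normalizerMonoidHom ⟨a, haR⟩
  have hα : ∀ y : R, ((α y : R) : SL2) = a * y * a⁻¹ := fun _ => rfl
  have hαp : α ^ p ^ 1 = 1 := by
    rw [pow_one, ← map_pow]
    have : (⟨a, haR⟩ : Subgroup.normalizer (R : Set SL2)) ^ p = 1 := Subtype.ext hap
    rw [this, map_one]
  have hA : IsPGroup p (Subgroup.zpowers α) := isPGroup_zpowers_of_pow 1 hαp
  have hfix : MulAction.fixedPoints (Subgroup.zpowers α) R = ({1, ⟨dg (-1), hζ⟩} : Set R) := by
    ext b
    constructor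
    · intro hb
      have h1 : α b = b := hb ⟨α, Subgroup.mem_zpowers α⟩
      have h3 : a * b * a⁻¹ = (b : SL2) := by rw [← hα, h1]
      have h4 : (b : SL2) ^ 2 = 1 := by
        by_contra hne
        obtain ⟨k, hk⟩ := hR2 b
        have htr := trace_sq_ne_four_of_two_elt p hp (b : SL2) k (coe_pow_eq_one hk) hne
        apply not_comm_conj_of_pElement p hp a (b : SL2) 1 (by rw [pow_one]; exact hap) ha1 htr
        rw [h3]
      rcases (sq_eq_one_iff h2 _).mp h4 with h | h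
      · left; exact Subtype.ext h
      · right; exact Subtype.ext h
    · intro hb
      have h1 : α • b = b := by
        rcases hb with rfl | rfl
        · exact map_one α
        · apply Subtype.ext
          change a * dg (-1) * a⁻¹ = dg (-1)
          rw [← dg_neg_one_comm, mul_assoc, mul_inv_cancel, mul_one]
      intro β
      exact (Subgroup.zpowers_le.mpr (MulAction.mem_stabilizer_iff.mpr h1)) β.2
  have h1 := hA.card_modEq_card_fixedPoints R
  have h3 : Nat.card (MulAction.fixedPoints (Subgroup.zpowers α) R) = 2 := by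
    rw [hfix, Nat.card_coe_set_eq, Set.ncard_pair]
    intro h
    exact dg_neg_one_ne_one h2 (congrArg Subtype.val h).symm
  rw [hcard, h3] at h1
  have h4 : p ∣ 8 - 2 := (Nat.modEq_iff_dvd' (by norm_num)).mp h1.symm
  have h5 : p ∣ 2 * 3 := by simpa using h4
  rcases (Nat.Prime.dvd_mul Fact.out).mp h5 with h | h
  · exact absurd ((Nat.prime_dvd_prime_iff_eq Fact.out Nat.prime_two).mp h) hp
  · exact (Nat.prime_dvd_prime_iff_eq Fact.out Nat.prime_three).mp h

theorem mem_sup_zpowers_of_normalizer {G : Type*} [Group G] (R : Subgroup G) (a : G)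
    (haR : a ∈ Subgroup.normalizer (R : Set G)) (h : G) (hh : h ∈ R ⊔ Subgroup.zpowers a) :
    ∃ y ∈ R, ∃ k : ℤ, h = y * a ^ k := by
  have hn : ∀ (k : ℤ) (y : G), y ∈ R → a ^ k * y * (a ^ k)⁻¹ ∈ R := by
    intro k y hy
    exact (Subgroup.mem_normalizer_iff.mp (zpow_mem haR k) y).mp hy
  rw [Subgroup.sup_eq_closure] at hh
  induction hh using Subgroup.closure_induction with
  | mem x hx =>
    rcases hx with hx | hx
    · exact ⟨x, hx, 0, by simp⟩
    · obtain ⟨k, rfl⟩ := Subgroup.mem_zpowers_iff.mp hx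
      exact ⟨1, one_mem _, k, by simp⟩
  | one => exact ⟨1, one_mem _, 0, by simp⟩
  | mul x y _ _ hx hy =>
    obtain ⟨y1, hy1, k1, rfl⟩ := hx
    obtain ⟨y2, hy2, k2, rfl⟩ := hy
    refine ⟨y1 * (a ^ k1 * y2 * (a ^ k1)⁻¹), mul_mem hy1 (hn k1 y2 hy2), k1 + k2, ?_⟩
    rw [_root_.zpow_add]; group
  | inv x _ hx =>
    obtain ⟨y1, hy1, k1, rfl⟩ := hx
    refine ⟨a ^ (-k1) * y1⁻¹ * (a ^ (-k1))⁻¹, hn _ _ (inv_mem hy1), -k1, ?_⟩
    group

theorem pElement_action (p : ℕ) [Fact p.Prime] [CharP F p] (hp : p ≠ 2) (a : SL2)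
    (ha : IsPGroup p ↥(Subgroup.zpowers a)) (R : Subgroup SL2) (hR : (Nat.card R).Coprime p)
    (haR : a ∈ Subgroup.normalizer (R : Set SL2)) (hnt : ⁅R, Subgroup.zpowers a⁆ ≠ ⊥) :
    p = 3 ∧ Nonempty (↥R ≃* QuaternionGroup 2) ∧
      Nonempty (↥(R ⊔ Subgroup.zpowers a) ≃* Matrix.SpecialLinearGroup (Fin 2) (ZMod 3)) := by
  have h2 := two_ne_zero_of_char (F := F) p hp
  obtain ⟨k, hk⟩ := ha ⟨a, Subgroup.mem_zpowers a⟩
  have hak : a ^ p ^ k = 1 := coe_pow_eq_one hk
  have hap : a ^ p = 1 := pow_char_of_trace_two p a (trace_two_of_pow_eq_one p a k hak)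
  obtain ⟨x, hx, hxa⟩ : ∃ x ∈ R, a * x * a⁻¹ ≠ x := by
    by_contra hall
    push Not at hall
    apply hnt
    rw [Subgroup.commutator_eq_bot_iff_le_centralizer]
    intro x hx
    rw [Subgroup.mem_centralizer_iff]
    intro b hb
    obtain ⟨m, rfl⟩ := Subgroup.mem_zpowers_iff.mp hb
    have : Commute a x := mul_inv_eq_iff_eq_mul.mp (hall x hx)
    exact this.zpow_left m
  have ha1 : a ≠ 1 := by
    rintro rfl
    apply hxa
    simp
  have hR2 := isPGroup_two_of_normalized p hp a hap ha1 R hR haR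
  have hexp := pow_four_of_normalized p hp a hap ha1 R hR2 haR
  have hx2 : x ^ 2 ≠ 1 := by
    intro h
    apply hxa
    rcases (sq_eq_one_iff h2 x).mp h with h | h
    · rw [h]; simp
    · rw [h, ← dg_neg_one_comm, mul_assoc, mul_inv_cancel, mul_one]
  obtain ⟨j, hj⟩ := hR2 ⟨x, hx⟩
  have htr := trace_sq_ne_four_of_two_elt p hp x j (coe_pow_eq_one hj) hx2
  have hy : a * x * a⁻¹ ∈ R := (Subgroup.mem_normalizer_iff.mp haR x).mp hx
  have hxy := not_comm_conj_of_pElement p hp a x 1 (by rw [pow_one]; exact hap) ha1 htr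
  obtain ⟨hcard, ⟨e0⟩⟩ := card_eq_eight h2 R hexp x _ hx hy hxy
  obtain ⟨hxx, -, -⟩ := exp_four_inverts h2 R hexp x _ hx hy hxy
  have hζ : dg (-1) ∈ R := by rw [← hxx]; exact pow_mem hx 2
  have hp3 := eq_three_of_card_eight p hp a hap ha1 R hR2 haR hcard hζ
  refine ⟨hp3, ⟨e0⟩, ?_⟩
  have hKN : R ⊔ Subgroup.zpowers a ≤ Subgroup.normalizer (R : Set SL2) :=
    sup_le Subgroup.le_normalizer (Subgroup.zpowers_le.mpr haR)
  haveI : (R.subgroupOf (R ⊔ Subgroup.zpowers a)).Normal :=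
    Subgroup.normal_subgroupOf_of_le_normalizer hKN
  let e : R.subgroupOf (R ⊔ Subgroup.zpowers a) ≃* QuaternionGroup 2 :=
    (Subgroup.subgroupOfEquivOfLe le_sup_left).trans e0
  let g : ↥(R ⊔ Subgroup.zpowers a) := ⟨a, Subgroup.mem_sup_right (Subgroup.mem_zpowers a)⟩
  have hg3 : orderOf g = 3 := by
    have : orderOf g = orderOf a := Subgroup.orderOf_mk a _
    rw [this]
    subst hp3
    exact orderOf_eq_prime hap ha1
  have htop : ∀ h : ↥(R ⊔ Subgroup.zpowers a), ∃ y ∈ R.subgroupOf (R ⊔ Subgroup.zpowers a),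
      ∃ k : ℤ, h = y * g ^ k := by
    intro h
    obtain ⟨y, hy, k, hk⟩ := mem_sup_zpowers_of_normalizer R a haR h h.2
    refine ⟨⟨y, Subgroup.mem_sup_left hy⟩, Subgroup.mem_subgroupOf.mpr hy, k, ?_⟩
    apply Subtype.ext
    rw [hk]
    rfl
  obtain ⟨ψ, hψ⟩ := Cfsg.Agent.Tr.SL23.exists_surj (R.subgroupOf (R ⊔ Subgroup.zpowers a)) e g
    (by rw [hg3]; decide)
    ⟨⟨x, Subgroup.mem_sup_left hx⟩, Subgroup.mem_subgroupOf.mpr hx, fun h => hxa (congrArg Subtype.val h)⟩
    htop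
  have hsup : R.subgroupOf (R ⊔ Subgroup.zpowers a) ⊔ Subgroup.zpowers g = ⊤ := by
    rw [eq_top_iff]
    intro h _
    obtain ⟨y, hy, k, rfl⟩ := htop h
    exact mul_mem (Subgroup.mem_sup_left hy) (Subgroup.mem_sup_right (zpow_mem (Subgroup.mem_zpowers g) k))
  have hidx : (R.subgroupOf (R ⊔ Subgroup.zpowers a)).index ∣ 3 := by
    rw [← Subgroup.relIndex_top_right, ← hsup, Subgroup.relIndex_sup_left, ← hg3, ← Nat.card_zpowers]
    exact Subgroup.relIndex_dvd_card _ _
  have hcardK : Nat.card ↥(R ⊔ Subgroup.zpowers a) ≤ 24 := by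
    rw [← Subgroup.card_mul_index (R.subgroupOf (R ⊔ Subgroup.zpowers a)),
      Nat.card_congr (Subgroup.subgroupOfEquivOfLe (le_sup_left : R ≤ R ⊔ Subgroup.zpowers a)).toEquiv, hcard]
    have := Nat.le_of_dvd (by norm_num) hidx
    omega
  have hbij : Function.Bijective ψ := by
    apply hψ.bijective_of_nat_card_le
    rw [Cfsg.Agent.Tr.SL23.cardS]
    exact hcardK
  exact ⟨MulEquiv.ofBijective ψ hbij⟩

end Cfsg.Agent.H14
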