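import Mathlib
import Cfsg.Agent.H14.SL2PAct
import Cfsg.Agent.Lib.Helper18.SL2Quat

set_option autoImplicit false

/-! Subgroups of `SL₂(F)` with several Sylow `p`-subgroups have quaternion Sylow 2-subgroups. -/

namespace Cfsg.Agent.H14

open Matrix

variable {F : Type*} [Field F]

local notation "SL2" => Matrix.SpecialLinearGroup (Fin 2) F
local notation "M2" => Matrix (Fin 2) (Fin 2) F

theorem normalizer_le_centralizer_of_odd' (p : ℕ) [Fact p.Prime] [CharP F p] (hp2 : p ≠ 2)
    {G : Type*} [Group G] [Finite G] (ι : G →* SL2) (hι : Function.Injective ι)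
    (hodd : Odd (Nat.card G)) (r : ℕ) [Fact r.Prime] (hr : r ≠ p) (R : Sylow r G) :
    Subgroup.normalizer ((R : Subgroup G) : Set G) ≤ Subgroup.centralizer ((R : Subgroup G) : Set G) := by
  have h2 := two_ne_zero_of_char (F := F) p hp2
  have hoddall : ∀ y : G, Odd (orderOf (ι y)) := by
    intro y
    rw [orderOf_injective ι hι]
    exact Odd.of_dvd_nat hodd (orderOf_dvd_natCard y)
  have hcop : ∀ y : G, y ∈ R → (orderOf (ι y)).Coprime p := by
    intro y hy
    obtain ⟨k, hk⟩ := IsPGroup.iff_orderOf.mp R.2 ⟨y, hy⟩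
    rw [orderOf_injective ι hι, ← Subgroup.orderOf_mk y hy, hk]
    exact Nat.Coprime.pow_left _ ((Nat.coprime_primes (Fact.out : r.Prime) (Fact.out : p.Prime)).mpr hr)
  intro g hg
  rw [Subgroup.mem_centralizer_iff]
  intro x hx
  have hx' : x ∈ R := hx
  by_cases hbot : (R : Subgroup G) = ⊥
  · have : x = 1 := by
      have : x ∈ (R : Subgroup G) := hx'
      rw [hbot] at this
      exact Subgroup.mem_bot.mp this
    rw [this]; simp
  obtain ⟨z, hzR, hz1, hzc⟩ := exists_central_elt (R : Subgroup G) R.2 hbot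
  have hy : g * x * g⁻¹ ∈ R := (Subgroup.mem_normalizer_iff.mp hg x).mp hx'
  have hz1' : ι z ≠ 1 := fun h => hz1 (hι (h.trans (map_one ι).symm))
  have hzs : ¬ IsScal (ι z).1 :=
    not_isScal_of_trace_sq_ne _ (trace_sq_ne_four_of_coprime p _ hz1' (hoddall z) (hcop z hzR))
  have c1 : ι x ∈ Subgroup.centralizer ({ι z} : Set SL2) := by
    rw [Subgroup.mem_centralizer_singleton_iff, ← map_mul, ← map_mul, hzc x hx']
  have c2 : ι (g * x * g⁻¹) ∈ Subgroup.centralizer ({ι z} : Set SL2) := by
    rw [Subgroup.mem_centralizer_singleton_iff, ← map_mul, ← map_mul, hzc _ hy]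
  have hcomm := centralizer_comm _ hzs c2 c1
  rw [map_mul, map_mul, map_inv] at hcomm
  have := conj_eq_self_of_odd p h2 (ι x) (ι g) (hoddall g) (hoddall x) (hcop x hx') hcomm
  have h5 : g * x * g⁻¹ = x := by
    apply hι
    rw [map_mul, map_mul, map_inv, this]
  exact (mul_inv_eq_iff_eq_mul.mp h5).symm

/-- a finite subgroup of `SL₂(F)` with cyclic Sylow 2-subgroups has a unique Sylow `p`-subgroup -/
theorem subsingleton_sylow_of_cyclic (p : ℕ) [Fact p.Prime] [CharP F p] (hp : p ≠ 2)
    {H : Type*} [Group H] [Finite H] (ι : H →* SL2) (hι : Function.Injective ι)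
    (S : Sylow 2 H) (hS : IsCyclic (S : Subgroup H)) : Subsingleton (Sylow p H) := by
  haveI : Fact (Nat.Prime 2) := ⟨Nat.prime_two⟩
  -- a normal subgroup of odd order containing all `p`-elements
  obtain ⟨K, hKodd, hKp⟩ : ∃ K : Subgroup H, Odd (Nat.card K) ∧
      ∀ (u : H) (k : ℕ), u ^ p ^ k = 1 → u ∈ K := by
    by_cases h2 : 2 ∣ Nat.card H
    · have hmin : (Nat.card H).minFac = 2 := (Nat.minFac_eq_two_iff _).mpr h2
      have hle := hS.normalizer_le_centralizer hmin
      refine ⟨(MonoidHom.transferSylow S hle).ker, ?_, ?_⟩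
      · rw [← Nat.not_even_iff_odd, even_iff_two_dvd]
        exact MonoidHom.not_dvd_card_ker_transferSylow S hle
      · intro u k hk
        rw [MonoidHom.mem_ker]
        have h1 : (MonoidHom.transferSylow S hle u) ^ p ^ k = 1 := by rw [← map_pow, hk, map_one]
        obtain ⟨j, hj⟩ := S.2 (MonoidHom.transferSylow S hle u)
        have h3 : Nat.Coprime (p ^ k) (2 ^ j) :=
          Nat.Coprime.pow _ _ ((Nat.coprime_primes (Fact.out : p.Prime) Nat.prime_two).mpr hp)
        have := pow_gcd_eq_one.mpr ⟨h1, hj⟩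
        rwa [h3, pow_one] at this
    · refine ⟨⊤, ?_, fun _ _ _ => trivial⟩
      rw [Subgroup.card_top, ← Nat.not_even_iff_odd, even_iff_two_dvd]
      exact h2
  have hN := isPGroup_closure_pElements (G := K) p
    (fun r _ hr R => normalizer_le_centralizer_of_odd' p hp (ι.comp K.subtype)
      (hι.comp K.subtype_injective) hKodd r hr R)
  have hN' := hN.map K.subtype
  have hall : ∀ P : Sylow p H, (P : Subgroup H) =
      (Subgroup.closure {u : K | ∃ k : ℕ, u ^ p ^ k = 1}).map K.subtype := by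
    intro P
    symm
    apply P.3 hN'
    intro u hu
    obtain ⟨k, hk⟩ := P.2 ⟨u, hu⟩
    have hk' : u ^ p ^ k = 1 := coe_pow_eq_one hk
    refine ⟨⟨u, hKp u k hk'⟩, Subgroup.subset_closure ⟨k, Subtype.ext hk'⟩, rfl⟩
  exact ⟨fun P Q => Sylow.ext ((hall P).trans (hall Q).symm)⟩

theorem quaternion_sylow_of_nonnormal [Fintype F] (p : ℕ) [Fact p.Prime] [CharP F p] (hp : p ≠ 2)
    (H : Subgroup SL2) (hH : 1 < Nat.card (Sylow p H)) (S : Sylow 2 H) :
    ∃ k : ℕ, 1 ≤ k ∧ Nonempty ((S : Subgroup H) ≃* QuaternionGroup (2 ^ k)) := by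
  have h2ne := two_ne_zero_of_char (F := F) p hp
  let K := AlgebraicClosure F
  have hinj : Function.Injective (algebraMap F K) := (algebraMap F K).injective
  have h2K : (2 : K) ≠ 0 := by
    intro h0
    apply h2ne
    apply hinj
    rw [map_ofNat, h0, map_zero]
  let ρ : (S : Subgroup H) →* Matrix.SpecialLinearGroup (Fin 2) K :=
    (Matrix.SpecialLinearGroup.map (algebraMap F K)).comp (H.subtype.comp (S : Subgroup H).subtype)
  have hρ : Function.Injective ρ := by
    intro x y hxy
    apply Subtype.ext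
    apply Subtype.ext
    ext i j
    have := congrArg (fun g : Matrix.SpecialLinearGroup (Fin 2) K => g i j) hxy
    simp only [ρ, MonoidHom.comp_apply, Subgroup.subtype_apply, Matrix.SpecialLinearGroup.map_apply_coe,
      RingHom.mapMatrix_apply, Matrix.map_apply] at this
    exact hinj this
  rcases Cfsg.Agent.Lib.Helper18.cyclic_or_quaternion h2K S.isPGroup' ρ hρ with h | h
  · exfalso
    haveI := subsingleton_sylow_of_cyclic p hp H.subtype H.subtype_injective S h
    have : Nat.card (Sylow p H) ≤ 1 := Finite.card_le_one_iff_subsingleton.mpr inferInstance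
    omega
  · exact h

end Cfsg.Agent.H14
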