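import Mathlib
import Cfsg.Agent.Lib.Helper18.SLGen

set_option autoImplicit false

namespace Cfsg.Agent.H14

variable {K : Type*} [Field K] {n : ℕ}

local notation "SLn" => Matrix.SpecialLinearGroup (Fin (n + 1)) K
local notation "Mn" => Matrix (Fin (n + 1)) (Fin (n + 1)) K
local notation "tv" => Matrix.SpecialLinearGroup.transvection

lemma shift_ne {i j : Fin (n + 1)} (hij : i ≠ j) : i + 1 ≠ j + 1 := fun h => hij (add_right_cancel h)

lemma shift_conj (w : SLn) (d : Fin (n + 1) → K) (hd : ∀ i, d i ≠ 0)
    (hw : (w : Mn) = Matrix.of (fun i j => if j = i + 1 then d i else 0))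
    {i j : Fin (n + 1)} (hij : i ≠ j) (c : K) :
    w * tv (shift_ne hij) c = tv hij (d i * c / d j) * w := by
  have key : ((w * tv (shift_ne hij) c : SLn) : Mn) =
      ((tv hij (d i * c / d j) * w : SLn) : Mn) := by
    simp only [Matrix.SpecialLinearGroup.coe_mul, Matrix.SpecialLinearGroup.transvection_coe,
      mul_add, add_mul, mul_one, one_mul]
    congr 1
    rw [hw]
    ext a b
    simp only [Matrix.mul_apply, Matrix.of_apply, Matrix.single_apply]
    have hdj := hd j
    by_cases ha : a = i
    · subst ha
      by_cases hb : b = j + 1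
      · subst hb
        simp
        field_simp
      · simp [Ne.symm hb]
        symm
        apply Finset.sum_eq_zero
        intro x _
        split_ifs with h1 h2
        · exact absurd (by rw [h1, h2]) hb
        · rfl
        · rfl
    · have : ¬ (i + 1 = a + 1) := fun h => ha (add_right_cancel h).symm
      simp [Ne.symm ha]
      apply Finset.sum_eq_zero
      intro x _
      split_ifs with h1 h2
      · exact absurd (by rw [h1.1, h2]) this
      · rfl
      · rfl
  exact Subtype.ext key

/-- If `H` contains the monomial shift `w` and the whole root subgroup `X₀₁`, then `H = ⊤`. -/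
theorem eq_top_of_shift (hn : 1 ≤ n) (H : Subgroup SLn) (w : SLn) (d : Fin (n + 1) → K)
    (hd : ∀ i, d i ≠ 0)
    (hw : (w : Mn) = Matrix.of (fun i j => if j = i + 1 then d i else 0)) (hwH : w ∈ H)
    (h01 : ∀ (h : (0 : Fin (n + 1)) ≠ 1) (c : K), tv h c ∈ H) :
    H = ⊤ := by
  have : Nontrivial (Fin (n + 1)) := Fin.nontrivial_iff_two_le.mpr (by omega)
  -- shifting up
  have up : ∀ i j : Fin (n + 1), (∀ (h : i ≠ j) (c : K), tv h c ∈ H) →
      ∀ (h : i + 1 ≠ j + 1) (c : K), tv h c ∈ H := by
    intro i j hP h c
    have hij : i ≠ j := fun e => h (by rw [e])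
    have e := shift_conj w d hd hw hij c
    have : tv h c = w⁻¹ * tv hij (d i * c / d j) * w := by
      rw [mul_assoc, ← e, inv_mul_cancel_left]
    rw [this]
    exact H.mul_mem (H.mul_mem (H.inv_mem hwH) (hP _ _)) hwH
  have step1 : ∀ i : Fin (n + 1), ∀ (h : i ≠ i + 1) (c : K), tv h c ∈ H := by
    intro i
    induction i using Fin.induction with
    | zero =>
      intro h c
      have := h01 (by simpa using h) c
      convert this using 2; simp
    | succ i ih =>
      intro h c
      have := up _ _ ih (by simpa using h) c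
      convert this using 2 <;> simp
  have hne1 : ∀ i : Fin (n + 1), i ≠ i + 1 := by
    intro i h
    have : (1 : Fin (n + 1)) = 0 := by
      have := h.symm
      rwa [add_eq_left] at this
    have h1 := congrArg Fin.val this
    rw [Fin.val_one', Fin.val_zero, Nat.mod_eq_of_lt (by omega)] at h1
    omega
  have step2 : ∀ e : Fin (n + 1), ∀ i : Fin (n + 1), ∀ (h : i ≠ i + e) (c : K), tv h c ∈ H := by
    intro e
    induction e using Fin.induction with
    | zero => intro i h; exact absurd (by simp) h
    | succ e ih =>
      intro i h c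
      have es : e.succ = e.castSucc + 1 := (Fin.coeSucc_eq_succ).symm
      by_cases hk : i = i + e.castSucc
      · have h' : i ≠ i + 1 := hne1 i
        have e1 : i + e.succ = i + 1 := by
          rw [es, ← add_assoc, ← hk]
        have := step1 i h' c
        convert this using 2
      · have e1 : i + e.succ = (i + e.castSucc) + 1 := by
          rw [es, ← add_assoc]
        have h2 : i ≠ (i + e.castSucc) + 1 := by rwa [e1] at h
        have := Cfsg.Agent.Lib.Helper18.transvection_eq_commutator h2 hk (hne1 _) c
        have hm : tv h2 c ∈ H := by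
          rw [this, commutatorElement_def]
          exact H.mul_mem (H.mul_mem (H.mul_mem (ih _ _ _) (step1 _ _ _)) (H.inv_mem (ih _ _ _)))
            (H.inv_mem (step1 _ _ _))
        convert hm using 2
  refine le_antisymm le_top (fun A _ => ?_)
  refine Cfsg.Agent.Lib.Helper18.SL_transvection_induction (fun A => A ∈ H) ?_
    (fun _ _ => H.mul_mem) A
  intro i j hij c
  have e1 : j = i + (j - i) := by abel
  have := step2 (j - i) i (by rwa [← e1]) c
  convert this using 2

/-- the nonzero entries of the Coxeter-type monomial matrix -/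
def dW (n : ℕ) (K : Type*) [Field K] : Fin (n + 1) → K := fun i => if i.val = n then (-1) ^ n else 1

lemma dW_ne_zero (i : Fin (n + 1)) : dW n K i ≠ 0 := by
  unfold dW
  split_ifs
  · exact pow_ne_zero _ (neg_ne_zero.mpr one_ne_zero)
  · exact one_ne_zero

lemma wform : (Matrix.of (fun i j : Fin (n + 1) => if j.val = i.val + 1 then (1 : K) else
      if i.val = n ∧ j.val = 0 then (-1) ^ n else 0) : Mn) =
    Matrix.of (fun i j => if j = i + 1 then dW n K i else 0) := by
  ext i j
  simp only [Matrix.of_apply, dW, Fin.ext_iff, Fin.val_add_one, Fin.val_last]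
  have hi := i.isLt
  have hj := j.isLt
  by_cases h : i.val = n
  · have h1 : ¬ (j.val = i.val + 1) := by omega
    simp [h, h1]
    intro h2
    omega
  · simp [h]

theorem eq_top_of_cox (hn : 1 ≤ n) (H : Subgroup SLn) (w : SLn)
    (hw : (w : Mn) = Matrix.of (fun i j => if j.val = i.val + 1 then 1 else
      if i.val = n ∧ j.val = 0 then (-1) ^ n else 0)) (hwH : w ∈ H)
    (h01 : ∀ (h : (0 : Fin (n + 1)) ≠ 1) (c : K), tv h c ∈ H) :
    H = ⊤ :=
  eq_top_of_shift hn H w (dW n K) dW_ne_zero (hw.trans wform) hwH h01

end Cfsg.Agent.H14
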