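import Mathlib
import Cfsg.Agent.H14.SLTwoGen

set_option autoImplicit false

namespace Cfsg.Agent.H14

variable {K : Type*} [Field K] {n : ℕ}

local notation "SLn" => Matrix.SpecialLinearGroup (Fin (n + 1)) K
local notation "Mn" => Matrix (Fin (n + 1)) (Fin (n + 1)) K
local notation "tv" => Matrix.SpecialLinearGroup.transvection

lemma diag_conj (D : SLn) (δ : Fin (n + 1) → K) (hδ : ∀ i, δ i ≠ 0)
    (hD : (D : Mn) = Matrix.diagonal δ) {i j : Fin (n + 1)} (hij : i ≠ j) (c : K) :
    D * tv hij c = tv hij (δ i * c / δ j) * D := by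
  have key : ((D * tv hij c : SLn) : Mn) = ((tv hij (δ i * c / δ j) * D : SLn) : Mn) := by
    simp only [Matrix.SpecialLinearGroup.coe_mul, Matrix.SpecialLinearGroup.transvection_coe,
      mul_add, add_mul, mul_one, one_mul]
    congr 1
    rw [hD]
    ext a b
    rw [Matrix.diagonal_mul, Matrix.mul_diagonal]
    simp only [Matrix.single_apply]
    have hdj := hδ j
    split_ifs with h1
    · obtain ⟨rfl, rfl⟩ := h1
      field_simp
    · simp
  exact Subtype.ext key

lemma shift_diag (w : SLn) (d : Fin (n + 1) → K)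
    (hw : (w : Mn) = Matrix.of (fun i j => if j = i + 1 then d i else 0)) (δ : Fin (n + 1) → K) :
    (w : Mn) * Matrix.diagonal δ = Matrix.diagonal (fun i => δ (i + 1)) * (w : Mn) := by
  ext a b
  rw [Matrix.diagonal_mul, Matrix.mul_diagonal, hw]
  simp only [Matrix.of_apply]
  split_ifs with h
  · subst h; ring
  · simp

lemma exists_sq_add_sq' [Fintype K] (x : K) : ∃ a b : K, a ^ 2 + b ^ 2 = x := by
  rcases Nat.even_or_odd (Fintype.card K) with he | ho
  · have h2 : ringChar K = 2 := FiniteField.even_card_iff_char_two.mpr (Nat.even_iff.mp he)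
    obtain ⟨a, ha⟩ := FiniteField.isSquare_of_char_two h2 x
    exact ⟨a, 0, by rw [ha]; ring⟩
  · obtain ⟨a, b, hab⟩ := FiniteField.exists_root_sum_quadratic
      (f := (Polynomial.X ^ 2 : Polynomial K)) (g := Polynomial.X ^ 2 - Polynomial.C x)
      (Polynomial.degree_X_pow 2) (Polynomial.degree_X_pow_sub_C (by decide) _)
      (Nat.odd_iff.mp ho)
    refine ⟨a, b, ?_⟩
    rw [← sub_eq_zero]
    simpa only [Polynomial.eval_C, Polynomial.eval_X, Polynomial.eval_pow, Polynomial.eval_sub,
      ← add_sub_assoc] using hab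

theorem closure_h_xw_eq_top [Fintype K] (hK : 3 < Fintype.card K) (hn : 1 ≤ n)
    (k : Kˣ) (hk : ∀ u : Kˣ, u ∈ Subgroup.zpowers k) (h x w : SLn)
    (hh : (h : Mn) =
      Matrix.diagonal (fun i => if i.val = 0 then (k : K) else if i.val = 1 then ((k⁻¹ : Kˣ) : K) else 1))
    (hx : (x : Mn) = Matrix.transvection (0 : Fin (n + 1)) (1 : Fin (n + 1)) 1)
    (hw : (w : Mn) =
      Matrix.of (fun i j => if j.val = i.val + 1 then 1 else if i.val = n ∧ j.val = 0 then (-1) ^ n else 0)) :
    Subgroup.closure ({h, x * w} : Set SLn) = ⊤ := by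
  classical
  set H := Subgroup.closure ({h, x * w} : Set SLn) with hH
  have hhH : h ∈ H := Subgroup.subset_closure (by simp)
  have hgH : x * w ∈ H := Subgroup.subset_closure (by simp)
  have hk0 : (k : K) ≠ 0 := k.ne_zero
  -- `k² ≠ 1`
  have hk2 : (k : K) ^ 2 ≠ 1 := by
    intro h2
    have hall : ∀ c : K, c ∈ ({0, 1, -1} : Finset K) := by
      intro c
      by_cases hc : c = 0
      · simp [hc]
      · obtain ⟨m, hm⟩ := hk (Units.mk0 c hc)
        have hm' : (k : K) ^ m = c := by
          have := congrArg (fun u : Kˣ => (u : K)) hm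
          simpa using this
        have : c ^ 2 = 1 := by
          rw [← hm', ← zpow_natCast, ← zpow_mul, mul_comm, zpow_mul, zpow_natCast, h2, one_zpow]
        rcases sq_eq_one_iff.mp this with h | h <;> simp [h]
    have : Fintype.card K ≤ ({0, 1, -1} : Finset K).card := by
      rw [← Finset.card_univ]
      exact Finset.card_le_card (fun c _ => hall c)
    have h3 : ({0, 1, -1} : Finset K).card ≤ 3 := Finset.card_le_three
    omega
  have hk1 : (k : K) ≠ 1 := fun h1 => hk2 (by rw [h1]; ring)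
  have h01 : (0 : Fin (n + 1)) ≠ 1 := by
    intro e
    have h1 := congrArg Fin.val e
    rw [Fin.val_one', Fin.val_zero, Nat.mod_eq_of_lt (by omega)] at h1
    omega
  set δ : Fin (n + 1) → K :=
    fun i => if i.val = 0 then (k : K) else if i.val = 1 then ((k⁻¹ : Kˣ) : K) else 1 with hδ
  have hδ0 : ∀ i, δ i ≠ 0 := by
    intro i
    simp only [hδ]
    split_ifs
    · exact hk0
    · exact (k⁻¹).ne_zero
    · exact one_ne_zero
  have hw' := hw.trans wform
  obtain ⟨h₂, hh₂⟩ : ∃ h₂ : SLn, h₂ = w * h * w⁻¹ := ⟨_, rfl⟩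
  have hh₂m : (h₂ : Mn) = Matrix.diagonal (fun i => δ (i + 1)) := by
    rw [hh₂, Matrix.SpecialLinearGroup.coe_mul, Matrix.SpecialLinearGroup.coe_mul, hh,
      shift_diag w _ hw' δ, Matrix.mul_assoc, ← Matrix.SpecialLinearGroup.coe_mul, mul_inv_cancel,
      Matrix.SpecialLinearGroup.coe_one, Matrix.mul_one]
  have hxx : x = tv h01 1 := Subtype.ext hx
  have v1 : ((1 : Fin (n + 1))).val = 1 := by
    rw [Fin.val_one', Nat.mod_eq_of_lt (by omega)]
  have d0 : δ 0 = k := by simp [hδ]
  have d1 : δ 1 = (k : K)⁻¹ := by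
    simp only [hδ]
    rw [v1]
    simp
  set r : K := δ (0 + 1) / δ (1 + 1) with hr
  have hr1 : r ≠ 1 := by
    rw [hr, zero_add, d1]
    have : δ (1 + 1) = k ∨ δ (1 + 1) = 1 := by
      simp only [hδ]
      have hv : ((1 + 1 : Fin (n + 1))).val = (1 + 1) % (n + 1) := by
        rw [Fin.val_add, v1]
      rcases Nat.lt_or_ge 1 n with h2 | h2
      · rw [Nat.mod_eq_of_lt (by omega)] at hv
        right; simp [hv]
      · have : n = 1 := by omega
        subst this
        left; simp [hv]
    rcases this with e | e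
    · rw [e]
      intro h1
      apply hk2
      field_simp at h1
      exact h1.symm
    · rw [e]
      intro h1
      apply hk1
      field_simp at h1
      exact h1.symm
  -- conjugation rules
  have ca : ∀ c : K, h * tv h01 c = tv h01 ((k : K) ^ 2 * c) * h := by
    intro c
    rw [diag_conj h δ hδ0 hh h01 c, d0, d1]
    congr 2
    field_simp
  have cb : ∀ c : K, h₂ * tv h01 c = tv h01 (r * c) * h₂ := by
    intro c
    rw [diag_conj h₂ _ (fun i => hδ0 (i + 1)) hh₂m h01 c]
    congr 2
    rw [hr]; ring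
  have cc : h * h₂ = h₂ * h := by
    apply Subtype.ext
    show ((h * h₂ : SLn) : Mn) = ((h₂ * h : SLn) : Mn)
    rw [Matrix.SpecialLinearGroup.coe_mul, Matrix.SpecialLinearGroup.coe_mul, hh, hh₂m,
      Matrix.diagonal_mul_diagonal, Matrix.diagonal_mul_diagonal]
    congr 1
    funext i
    exact mul_comm _ _
  -- the element `u`
  have hu : tv h01 (1 - r) * h₂ ∈ H := by
    have e : tv h01 (1 - r) * h₂ = (x * w) * h * (x * w)⁻¹ := by
      have e1 : (x * w) * h * (x * w)⁻¹ = x * h₂ * x⁻¹ := by rw [hh₂]; group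
      rw [e1, hxx, Matrix.SpecialLinearGroup.transvection_inv, mul_assoc, cb, ← mul_assoc,
        ← Matrix.SpecialLinearGroup.transvection_add]
      congr 2
      ring
    rw [e]
    exact H.mul_mem (H.mul_mem hgH hhH) (H.inv_mem hgH)
  have hc0 : tv h01 (((k : K) ^ 2 - 1) * (1 - r)) ∈ H := by
    have e : tv h01 (((k : K) ^ 2 - 1) * (1 - r)) =
        h * (tv h01 (1 - r) * h₂) * h⁻¹ * (tv h01 (1 - r) * h₂)⁻¹ := by
      rw [← mul_assoc, ca, mul_assoc (tv h01 _) h h₂, cc, mul_inv_rev,
        Matrix.SpecialLinearGroup.transvection_inv]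
      have : tv h01 ((k : K) ^ 2 * (1 - r)) * (h₂ * h) * h⁻¹ * (h₂⁻¹ * tv h01 (-(1 - r))) =
          tv h01 ((k : K) ^ 2 * (1 - r)) * tv h01 (-(1 - r)) := by group
      rw [this, ← Matrix.SpecialLinearGroup.transvection_add]
      congr 1
      ring
    rw [e]
    exact H.mul_mem (H.mul_mem (H.mul_mem hhH hu) (H.inv_mem hhH)) (H.inv_mem hu)
  set c₀ : K := ((k : K) ^ 2 - 1) * (1 - r) with hc₀
  have hc₀0 : c₀ ≠ 0 := mul_ne_zero (sub_ne_zero.mpr hk2) (sub_ne_zero.mpr (Ne.symm hr1))
  have hmul : ∀ c : K, tv h01 c ∈ H → tv h01 ((k : K) ^ 2 * c) ∈ H := by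
    intro c hc
    have : tv h01 ((k : K) ^ 2 * c) = h * tv h01 c * h⁻¹ := by rw [ca, mul_inv_cancel_right]
    rw [this]
    exact H.mul_mem (H.mul_mem hhH hc) (H.inv_mem hhH)
  have hpow : ∀ (m : ℕ) (c : K), tv h01 c ∈ H → tv h01 (((k : K) ^ m) ^ 2 * c) ∈ H := by
    intro m
    induction m with
    | zero => intro c hc; simpa using hc
    | succ m ih =>
      intro c hc
      have := hmul _ (ih c hc)
      convert this using 2
      ring
  have hsq : ∀ (a c : K), tv h01 c ∈ H → tv h01 (a ^ 2 * c) ∈ H := by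
    intro a c hc
    by_cases ha : a = 0
    · subst ha
      have : ((0 : K) ^ 2 * c) = 0 := by ring
      rw [this, Matrix.SpecialLinearGroup.transvection_coeff_zero]
      exact H.one_mem
    · obtain ⟨m, hm⟩ := (mem_powers_iff_mem_zpowers).mpr (hk (Units.mk0 a ha))
      have hm' : (k : K) ^ m = a := by
        have := congrArg (fun u : Kˣ => (u : K)) hm
        simpa using this
      rw [← hm']
      exact hpow m c hc
  have hall : ∀ y : K, tv h01 y ∈ H := by
    intro y
    obtain ⟨a, b, hab⟩ := exists_sq_add_sq' (y / c₀)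
    have : y = a ^ 2 * c₀ + b ^ 2 * c₀ := by
      rw [← add_mul, hab]; field_simp
    rw [this, Matrix.SpecialLinearGroup.transvection_add]
    exact H.mul_mem (hsq a _ hc0) (hsq b _ hc0)
  have hxH : x ∈ H := by rw [hxx]; exact hall 1
  have hwH : w ∈ H := by
    have : w = x⁻¹ * (x * w) := by group
    rw [this]
    exact H.mul_mem (H.inv_mem hxH) hgH
  exact eq_top_of_cox hn H w hw hwH (fun _ c => hall c)

end Cfsg.Agent.H14
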