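import Mathlib
import Cfsg.Agent.Lib.Helper18.Herm6
import Cfsg.Agent.S0280

/-! # Sylow 2-subgroups of `PSU₃(q)`, `q` even -/

set_option autoImplicit false
set_option linter.unusedSimpArgs false
set_option linter.unusedVariables false
set_option linter.unusedSectionVars false

namespace Cfsg.Agent.H14

open Matrix Cfsg.Agent.Lib.Helper18

/-- pairs `(a, b)` with `b + b^q = a^(q+1)` -/
def HU (F : Type*) [Field F] (q : ℕ) : Type _ := {p : F × F // p.2 + p.2 ^ q = p.1 ^ (q + 1)}

namespace HU

variable {F : Type*} [Field F] {q : ℕ}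

def a (x : HU F q) : F := x.1.1
def b (x : HU F q) : F := x.1.2

theorem rel (x : HU F q) : x.b + x.b ^ q = x.a ^ (q + 1) := x.2

@[ext] theorem ext {x y : HU F q} (h1 : x.a = y.a) (h2 : x.b = y.b) : x = y :=
  Subtype.ext (Prod.ext h1 h2)

variable [Fintype F] [hF : Fact (Fintype.card F = q ^ 2)] [h2 : Fact ((2 : F) = 0)]

theorem add_self' (x : F) : x + x = 0 := by
  have := h2.out
  linear_combination x * this

theorem frob_add (x y : F) : (x + y) ^ q = x ^ q + y ^ q := herm_add_pow hF.out x y
theorem frob_frob (x : F) : (x ^ q) ^ q = x := herm_pow_pow hF.out x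
omit h2 in
theorem q_pos (F : Type*) [Field F] [Fintype F] {q : ℕ} [hF : Fact (Fintype.card F = q ^ 2)] :
    1 < q := herm_q_pos hF.out

instance : Mul (HU F q) := ⟨fun x y => ⟨(x.a + y.a, x.b + y.b + x.a * y.a ^ q), by
  have hx := x.rel
  have hy := y.rel
  simp only [frob_add, mul_pow, frob_frob, pow_succ] at hx hy ⊢
  linear_combination hx + hy⟩⟩

instance : One (HU F q) := ⟨⟨(0, 0), by
  have := q_pos F (q := q)
  simp [zero_pow (show q ≠ 0 by omega)]⟩⟩

instance : Inv (HU F q) := ⟨fun x => ⟨(x.a, x.b ^ q), by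
  have hx := x.rel
  simp only [frob_frob]
  linear_combination hx⟩⟩

@[simp] theorem mul_a (x y : HU F q) : (x * y).a = x.a + y.a := rfl
@[simp] theorem mul_b (x y : HU F q) : (x * y).b = x.b + y.b + x.a * y.a ^ q := rfl
@[simp] theorem one_a : (1 : HU F q).a = 0 := rfl
@[simp] theorem one_b : (1 : HU F q).b = 0 := rfl
@[simp] theorem inv_a (x : HU F q) : (x⁻¹).a = x.a := rfl
@[simp] theorem inv_b (x : HU F q) : (x⁻¹).b = x.b ^ q := rfl

instance : Group (HU F q) :=
  Group.ofLeftAxioms
    (by
      intro x y z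
      ext
      · simp [add_assoc]
      · simp [frob_add]; ring)
    (by
      intro x
      ext
      · simp
      · simp)
    (by
      intro x
      ext
      · simp [add_self']
      · have hx := x.rel
        simp only [mul_b, inv_b, inv_a, one_b]
        rw [pow_succ] at hx
        have := add_self' (x.a ^ q * x.a)
        linear_combination hx + this)

/-- an element with prescribed first coordinate -/
theorem exists_a (t : F) : ∃ x : HU F q, x.a = t := by
  obtain ⟨c, hc⟩ := herm_trace_surj hF.out (t ^ (q + 1)) (herm_norm_fix hF.out t)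
  exact ⟨⟨(t, c), hc⟩, rfl⟩

/-- central elements -/
def zc (c : F) (hc : c ^ q = c) : HU F q := ⟨(0, c), by
  simp only [hc]
  rw [add_self', zero_pow (by omega)]⟩

@[simp] theorem zc_a (c : F) (hc : c ^ q = c) : (zc c hc : HU F q).a = 0 := rfl
@[simp] theorem zc_b (c : F) (hc : c ^ q = c) : (zc c hc : HU F q).b = c := rfl

theorem b_fix_of_a_zero (x : HU F q) (hx : x.a = 0) : x.b ^ q = x.b := by
  have h := x.rel
  rw [hx, zero_pow (by omega)] at h
  have := add_self' x.b
  linear_combination h - this

theorem card_eq : Nat.card (HU F q) = q ^ 3 := by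
  classical
  have e1 : HU F q ≃ Σ a : F, {b : F // b + b ^ q = a ^ (q + 1)} :=
    Equiv.subtypeProdEquivSigmaSubtype (fun (a b : F) => b + b ^ q = a ^ (q + 1))
  rw [Nat.card_congr e1, Nat.card_sigma]
  have h : ∀ a : F, Nat.card {b : F // b + b ^ q = a ^ (q + 1)} = q := by
    intro a
    obtain ⟨c, hc⟩ := herm_trace_surj hF.out (a ^ (q + 1)) (herm_norm_fix hF.out a)
    refine Eq.trans (Nat.card_congr ?_) (herm_card_fix hF.out)
    refine ⟨fun b => ⟨b.1 + c, ?_⟩, fun t => ⟨t.1 + c, ?_⟩, ?_, ?_⟩
    · have hb := b.2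
      rw [frob_add]
      have h1 := add_self' (b.1 + c)
      linear_combination hb + hc - h1 + add_self' (a ^ (q + 1))
    · have ht := t.2
      rw [frob_add, ht]
      linear_combination hc + add_self' t.1
    · intro b
      apply Subtype.ext
      simp only [add_assoc, add_self', add_zero]
    · intro b
      apply Subtype.ext
      simp only [add_assoc, add_self', add_zero]
  simp only [h, Finset.sum_const, Finset.card_univ, hF.out, smul_eq_mul]
  ring

theorem comm_iff (x y : HU F q) : x * y = y * x ↔ x.a * y.a ^ q = y.a * x.a ^ q := by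
  constructor
  · intro h
    have := congrArg HU.b h
    simp only [mul_b] at this
    linear_combination this
  · intro h
    ext
    · simp [add_comm]
    · simp only [mul_b]
      linear_combination h

theorem mem_center_iff (x : HU F q) : x ∈ Subgroup.center (HU F q) ↔ x.a = 0 := by
  rw [Subgroup.mem_center_iff]
  constructor
  · intro h
    obtain ⟨t, ht⟩ := herm_exists_not_fix hF.out
    obtain ⟨y, hy⟩ := exists_a (q := q) t
    obtain ⟨u, hu⟩ := exists_a (q := q) (1 : F)
    have h1 := (comm_iff u x).mp (h u)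
    have h2 := (comm_iff y x).mp (h y)
    rw [hu] at h1
    rw [hy] at h2
    simp only [one_mul, one_pow, mul_one] at h1
    rw [h1] at h2
    have h3 : x.a * (t ^ q - t) = 0 := by linear_combination -h2
    rcases mul_eq_zero.mp h3 with h4 | h4
    · exact h4
    · exact absurd (sub_eq_zero.mp h4) ht
  · intro h y
    rw [comm_iff, h]
    have := q_pos F (q := q)
    simp [zero_pow (show q ≠ 0 by omega)]

theorem mul_self_eq (x : HU F q) : (x * x).a = 0 ∧ (x * x).b = x.a ^ (q + 1) := by
  constructor
  · simp [add_self']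
  · simp only [mul_b, add_self', zero_add, pow_succ]
    ring

theorem mul_self_eq_one_iff (x : HU F q) : x * x = 1 ↔ x.a = 0 := by
  constructor
  · intro h
    have := (mul_self_eq x).2
    rw [h] at this
    simp only [one_b] at this
    exact pow_eq_zero_iff (by omega) |>.mp this.symm
  · intro h
    ext
    · exact (mul_self_eq x).1
    · rw [(mul_self_eq x).2, h, zero_pow (by omega)]; rfl

end HU

section embed

variable {F : Type*} [Field F]

/-- generic unipotent matrix -/
def mU4 (a b A : F) : Matrix (Fin 3) (Fin 3) F := !![1 + b, b, a; b, 1 + b, a; A, A, 1]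

theorem det_mU4 (h2 : (2 : F) = 0) (a b A : F) : (mU4 a b A).det = 1 := by
  simp [mU4, Matrix.det_fin_three]; grind

theorem herm_mU4 (h2 : (2 : F) = 0) (a b A B : F) (h : b + B = A * a) :
    (mU4 a b A)ᵀ * mU4 A B a = 1 := by
  ext i j
  fin_cases i <;> fin_cases j <;>
    simp [mU4, Matrix.mul_apply, Fin.sum_univ_three, Matrix.one_apply] <;> grind

theorem mul_mU4 (h2 : (2 : F) = 0) (a b A a' b' A' : F) :
    mU4 a b A * mU4 a' b' A' = mU4 (a + a') (b + b' + a * A') (A + A') := by
  ext i j
  fin_cases i <;> fin_cases j <;>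
    simp [mU4, Matrix.mul_apply, Fin.sum_univ_three] <;> grind

variable {q : ℕ} [Fintype F] [hF : Fact (Fintype.card F = q ^ 2)] [h2 : Fact ((2 : F) = 0)]

theorem map_mU4 (a b : F) : (mU4 a b (a ^ q)).map (· ^ q) = mU4 (a ^ q) (b ^ q) a := by
  ext i j
  fin_cases i <;> fin_cases j <;>
    simp [mU4, HU.frob_add, HU.frob_frob]

/-- the embedding of `HU` in `SU₃(q)` -/
def HU.toSU : HU F q →* Cfsg.SU 3 F q where
  toFun x := mkSU (mU4 x.a x.b (x.a ^ q)) (det_mU4 h2.out _ _ _)
    ((herm_preserve_iff hF.out _).mpr (by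
      rw [map_mU4]
      apply herm_mU4 h2.out
      have := x.rel
      rw [pow_succ] at this
      exact this))
  map_one' := by
    apply Subtype.ext
    apply Subtype.ext
    have := HU.q_pos F (q := q)
    show mU4 (0 : F) 0 (0 ^ q) = 1
    rw [zero_pow (by omega)]
    ext i j
    fin_cases i <;> fin_cases j <;> simp [mU4, Matrix.one_apply]
  map_mul' x y := by
    apply Subtype.ext
    apply Subtype.ext
    show mU4 (x.a + y.a) (x.b + y.b + x.a * y.a ^ q) ((x.a + y.a) ^ q) =
      mU4 x.a x.b (x.a ^ q) * mU4 y.a y.b (y.a ^ q)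
    rw [mul_mU4 h2.out, HU.frob_add]

theorem HU.toSU_coe (x : HU F q) :
    ((HU.toSU x).1 : Matrix (Fin 3) (Fin 3) F) = mU4 x.a x.b (x.a ^ q) := rfl

/-- the map to `PSU₃(q)` is injective -/
theorem HU.toPSU_injective :
    Function.Injective ((QuotientGroup.mk' (Subgroup.center (Cfsg.SU 3 F q))).comp
      (HU.toSU (F := F) (q := q))) := by
  rw [injective_iff_map_eq_one]
  intro x hx
  have hz : HU.toSU x ∈ Subgroup.center (Cfsg.SU 3 F q) := (QuotientGroup.eq_one_iff _).mp hx
  have h1 := center_SU_offdiag hF.out _ hz 0 1 (by decide)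
  have h2 := center_SU_offdiag hF.out _ hz 0 2 (by decide)
  rw [HU.toSU_coe] at h1 h2
  ext
  · simpa [mU4] using h2
  · simpa [mU4] using h1

theorem sylow_equiv_HU (hq : Even q) (hq2 : ∃ n : ℕ, q = 2 ^ n) (S : Sylow 2 (Cfsg.PSU 3 F q)) :
    Nonempty (S ≃* HU F q) := by
  classical
  haveI : Fact (Nat.Prime 2) := ⟨Nat.prime_two⟩
  haveI : Finite (Matrix.SpecialLinearGroup (Fin 3) F) :=
    Finite.of_injective Subtype.val Subtype.val_injective
  haveI : Finite (Cfsg.PSU 3 F q) := inferInstance
  have hq1 := HU.q_pos F (q := q)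
  obtain ⟨n, hn⟩ := hq2
  set φ := (QuotientGroup.mk' (Subgroup.center (Cfsg.SU 3 F q))).comp
      (HU.toSU (F := F) (q := q)) with hφ
  have hinj : Function.Injective φ := HU.toPSU_injective
  have hR : Nat.card φ.range = q ^ 3 := by
    rw [← HU.card_eq (F := F) (q := q)]
    exact (Nat.card_congr (MonoidHom.ofInjective hinj).toEquiv).symm
  have hRp : IsPGroup 2 φ.range := IsPGroup.of_card (n := n * 3) (by rw [hR, hn, pow_mul])
  obtain ⟨S', hRS'⟩ := hRp.exists_le_sylow
  have hcard := Cfsg.Agent.S0280.result hF.out 3 (by norm_num)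
  have e : q ^ (3 * (3 - 1) / 2) * ∏ i ∈ Finset.range 3,
      (if Even i then q ^ (i + 1) + 1 else q ^ (i + 1) - 1) =
      q ^ 3 * ((q + 1) * (q ^ 2 - 1) * (q ^ 3 + 1)) := by
    simp [Finset.prod_range_succ]
  rw [e] at hcard
  have hodd : Odd ((q + 1) * (q ^ 2 - 1) * (q ^ 3 + 1)) := by
    apply Odd.mul
    · apply Odd.mul
      · exact hq.add_one
      · exact Nat.Even.sub_odd (Nat.one_le_pow _ _ (by omega)) ((Nat.even_pow.mpr ⟨hq, by norm_num⟩)) odd_one
    · exact (Nat.even_pow.mpr ⟨hq, by norm_num⟩).add_one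
  obtain ⟨k, hk⟩ := (IsPGroup.iff_card).mp S'.2
  have h1 : 2 ^ k ∣ q ^ 3 * ((q + 1) * (q ^ 2 - 1) * (q ^ 3 + 1)) := by
    rw [← hcard, ← hk]
    exact Dvd.dvd.mul_left (Dvd.dvd.mul_left (Subgroup.card_subgroup_dvd_card _) _) _
  have h2' : 2 ^ k ∣ q ^ 3 :=
    Nat.Coprime.dvd_of_dvd_mul_right (Nat.Coprime.pow_left k (Nat.coprime_two_left.mpr hodd)) h1
  have h3 : Nat.card S' ≤ Nat.card φ.range := by
    rw [hR, hk]
    exact Nat.le_of_dvd (by positivity) h2'
  have h4 : φ.range = S' := Subgroup.eq_of_le_of_card_ge hRS' h3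
  exact ⟨(Sylow.equiv S S').trans ((MulEquiv.subgroupCongr h4.symm).trans
    (MonoidHom.ofInjective hinj).symm)⟩

end embed

section props

open scoped commutatorElement

variable {F : Type*} [Field F] {q : ℕ} [Fintype F] [hF : Fact (Fintype.card F = q ^ 2)]
  [h2 : Fact ((2 : F) = 0)] {S : Type*} [Group S] (e : S ≃* HU F q)

include e

theorem card_of_equiv : Nat.card S = q ^ 3 := (Nat.card_congr e.toEquiv).trans HU.card_eq

theorem mem_center_of_equiv (z : S) : z ∈ Subgroup.center S ↔ (e z).a = 0 := by
  rw [← HU.mem_center_iff, Subgroup.mem_center_iff, Subgroup.mem_center_iff]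
  constructor
  · intro h y
    obtain ⟨x, rfl⟩ := e.surjective y
    rw [← map_mul, ← map_mul, h x]
  · intro h x
    apply e.injective
    rw [map_mul, map_mul, h (e x)]

theorem card_center_of_equiv : Nat.card (Subgroup.center S) = q := by
  refine (Nat.card_congr ?_).trans (herm_card_fix hF.out)
  exact
    { toFun := fun z => ⟨(e z.1).b, HU.b_fix_of_a_zero _ ((mem_center_of_equiv e _).mp z.2)⟩
      invFun := fun s => ⟨e.symm (HU.zc s.1 s.2), (mem_center_of_equiv e _).mpr (by simp)⟩
      left_inv := by
        intro z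
        apply Subtype.ext
        apply e.injective
        simp only [MulEquiv.apply_symm_apply]
        ext
        · simp [(mem_center_of_equiv e _).mp z.2]
        · simp
      right_inv := by
        intro s
        apply Subtype.ext
        simp }

theorem mul_self_eq_one_of_equiv (x : S) : x * x = 1 ↔ x ∈ Subgroup.center S := by
  rw [mem_center_of_equiv e, ← HU.mul_self_eq_one_iff, ← map_mul]
  constructor
  · intro h; rw [h, map_one]
  · intro h; apply e.injective; rw [h, map_one]

theorem mul_self_mem_center_of_equiv (x : S) : x * x ∈ Subgroup.center S := by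
  rw [mem_center_of_equiv e, map_mul]
  exact (HU.mul_self_eq _).1

theorem center_eq_closure_of_equiv :
    Subgroup.center S = Subgroup.closure {x : S | orderOf x = 2} := by
  apply le_antisymm
  · intro z hz
    by_cases h1 : z = 1
    · rw [h1]; exact one_mem _
    · apply Subgroup.subset_closure
      haveI : Fact (Nat.Prime 2) := ⟨Nat.prime_two⟩
      exact orderOf_eq_prime (by rw [pow_two]; exact (mul_self_eq_one_of_equiv e z).mpr hz) h1
  · rw [Subgroup.closure_le]
    intro x hx
    have h1 : x ^ 2 = 1 := by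
      have := pow_orderOf_eq_one x
      rwa [show orderOf x = 2 from hx] at this
    rw [pow_two] at h1
    exact (mul_self_eq_one_of_equiv e x).mp h1

theorem center_eq_commutator_of_equiv : Subgroup.center S = commutator S := by
  apply le_antisymm
  · intro z hz
    have hza := (mem_center_of_equiv e z).mp hz
    have hzb := HU.b_fix_of_a_zero _ hza
    obtain ⟨t, ht⟩ := herm_trace_surj hF.out _ hzb
    obtain ⟨x, hx⟩ := HU.exists_a (q := q) t
    obtain ⟨y, hy⟩ := HU.exists_a (q := q) (1 : F)
    have hw : ⁅x, y⁆ = e z := by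
      have h1 : ⁅x, y⁆ * (y * x) = x * y := by
        rw [commutatorElement_def]; group
      have ha : (⁅x, y⁆).a = 0 := by
        rw [commutatorElement_def]
        simp only [HU.mul_a, HU.inv_a]
        linear_combination HU.add_self' x.a + HU.add_self' y.a
      ext
      · rw [ha, hza]
      · have h3 := congrArg HU.b h1
        simp only [HU.mul_b, ha, hx, hy] at h3
        simp only [zero_mul, one_pow, mul_one, one_mul, add_zero] at h3
        rw [← ht]
        linear_combination h3 - HU.add_self' (t ^ q)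
    have : z = ⁅e.symm x, e.symm y⁆ := by
      apply e.injective
      rw [map_commutatorElement]
      simp [hw]
    rw [this]
    exact Subgroup.commutator_mem_commutator (Subgroup.mem_top _) (Subgroup.mem_top _)
  · rw [commutator_eq_closure, Subgroup.closure_le]
    rintro _ ⟨x, y, rfl⟩
    rw [SetLike.mem_coe, mem_center_of_equiv e, map_commutatorElement, commutatorElement_def]
    simp only [HU.mul_a, HU.inv_a]
    linear_combination HU.add_self' (e x).a + HU.add_self' (e y).a

theorem card_quot_center_of_equiv : Nat.card (S ⧸ Subgroup.center S) = q ^ 2 := by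
  have h := Subgroup.card_eq_card_quotient_mul_card_subgroup (Subgroup.center S)
  rw [card_of_equiv e, card_center_of_equiv e] at h
  have hq := HU.q_pos F (q := q)
  have : q ^ 2 * q = Nat.card (S ⧸ Subgroup.center S) * q := by rw [← h]; ring
  exact (Nat.eq_of_mul_eq_mul_right (by omega) this).symm

theorem sq_quot_center_of_equiv (x : S ⧸ Subgroup.center S) : x ^ 2 = 1 := by
  obtain ⟨s, rfl⟩ := QuotientGroup.mk_surjective x
  rw [← QuotientGroup.mk_pow, QuotientGroup.eq_one_iff, pow_two]
  exact mul_self_mem_center_of_equiv e s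

end props

end Cfsg.Agent.H14
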