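import Mathlib
import Cfsg.Agent.H14.SU3Syl2
import Cfsg.Prelude.Def_LieRecognition

/-! # Sylow 2-subgroups of `PSU₃(q)`, `q` even, are Suzuki 2-groups -/

set_option autoImplicit false
set_option linter.unusedSimpArgs false
set_option linter.unusedVariables false
set_option linter.unusedSectionVars false

namespace Cfsg.Agent.H14

open Matrix Cfsg.Agent.Lib.Helper18

theorem isSuzukiTwoGroup_of_equiv {P P' : Type*} [Group P] [Group P'] (e : P ≃* P')
    (h : Cfsg.IsSuzukiTwoGroup P) : Cfsg.IsSuzukiTwoGroup P' := by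
  obtain ⟨hfin, hp, ⟨x, y, hxy⟩, ⟨u, v, huv, hu1, hu2, hv1, hv2⟩, K, hK, hreg⟩ := h
  have ne1 : ∀ z : P', z ≠ 1 → e.symm z ≠ 1 := by
    intro z hz h
    apply hz
    have := congrArg e h
    simpa using this
  have sq1 : ∀ z : P', z * z = 1 → e.symm z * e.symm z = 1 := by
    intro z hz
    rw [← map_mul, hz, map_one]
  refine ⟨Finite.of_equiv P e.toEquiv, hp.of_equiv e, ⟨e x, e y, ?_⟩, ⟨e u, e v, ?_, ?_, ?_, ?_, ?_⟩,
    K.map (MulAut.congr e).toMonoidHom, ?_, ?_⟩
  · intro h
    apply hxy
    apply e.injective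
    rw [map_mul, map_mul, h]
  · exact fun h => huv (e.injective h)
  · exact fun h => hu1 (e.injective (by rw [h, map_one]))
  · rw [← map_mul, hu2, map_one]
  · exact fun h => hv1 (e.injective (by rw [h, map_one]))
  · rw [← map_mul, hv2, map_one]
  · exact isCyclic_of_surjective ((MulAut.congr e).toMonoidHom.subgroupMap K)
      ((MulAut.congr e).toMonoidHom.subgroupMap_surjective K)
  · intro a b ha1 ha2 hb1 hb2
    obtain ⟨k, hk, huniq⟩ := hreg (e.symm a) (e.symm b) (ne1 a ha1) (sq1 a ha2) (ne1 b hb1) (sq1 b hb2)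
    refine ⟨⟨MulAut.congr e k.1, k.1, k.2, rfl⟩, ?_, ?_⟩
    · show e (k.1 (e.symm a)) = b
      rw [hk]; simp
    · rintro ⟨_, k', hk', rfl⟩ h
      have h1 : e (k' (e.symm a)) = b := h
      have h2 : (⟨k', hk'⟩ : K) = k := by
        apply huniq
        show k' (e.symm a) = e.symm b
        rw [← h1]; simp
      apply Subtype.ext
      show MulAut.congr e k' = MulAut.congr e k.1
      rw [← h2]

namespace HU

variable {F : Type*} [Field F] {q : ℕ} [Fintype F] [hF : Fact (Fintype.card F = q ^ 2)]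
  [h2 : Fact ((2 : F) = 0)]

/-- scaling endomorphism -/
def scalHom (l : F) (hl : l ^ q = l) : HU F q →* HU F q where
  toFun x := ⟨(l * x.a, l ^ 2 * x.b), by
    have hx := x.rel
    have e1 : (l ^ 2 * x.b) ^ q = l ^ 2 * x.b ^ q := by
      rw [mul_pow, ← pow_mul, mul_comm 2 q, pow_mul, hl]
    have e2 : (l * x.a) ^ (q + 1) = l ^ 2 * x.a ^ (q + 1) := by
      rw [mul_pow, pow_succ l, hl]; ring
    show l ^ 2 * x.b + (l ^ 2 * x.b) ^ q = (l * x.a) ^ (q + 1)
    rw [e1, e2]
    linear_combination l ^ 2 * hx⟩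
  map_one' := by
    ext
    · show l * 0 = 0
      ring
    · show l ^ 2 * 0 = 0
      ring
  map_mul' x y := by
    ext
    · show l * (x.a + y.a) = l * x.a + l * y.a
      ring
    · show l ^ 2 * (x.b + y.b + x.a * y.a ^ q) = l ^ 2 * x.b + l ^ 2 * y.b + l * x.a * (l * y.a) ^ q
      rw [mul_pow, hl]; ring

@[simp] theorem scalHom_a (l : F) (hl : l ^ q = l) (x : HU F q) : (scalHom l hl x).a = l * x.a := rfl
@[simp] theorem scalHom_b (l : F) (hl : l ^ q = l) (x : HU F q) :
    (scalHom l hl x).b = l ^ 2 * x.b := rfl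

/-- the units of the fixed field -/
def fixUnits (F : Type*) [Field F] (q : ℕ) : Subgroup Fˣ where
  carrier := {u | (u : F) ^ q = u}
  mul_mem' := by
    intro a b ha hb
    simp only [Set.mem_setOf_eq, Units.val_mul, mul_pow] at ha hb ⊢
    rw [ha, hb]
  one_mem' := by simp
  inv_mem' := by
    intro a ha
    simp only [Set.mem_setOf_eq, Units.val_inv_eq_inv_val, inv_pow] at ha ⊢
    rw [ha]

/-- scaling automorphisms -/
def scalAut : fixUnits F q →* MulAut (HU F q) where
  toFun u :=
    { scalHom (u.1 : F) u.2 with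
      invFun := scalHom ((u⁻¹).1 : F) (u⁻¹).2
      left_inv := by
        intro x
        ext
        · show ((u.1⁻¹ : Fˣ) : F) * ((u.1 : F) * x.a) = x.a
          exact Units.inv_mul_cancel_left u.1 _
        · show ((u.1⁻¹ : Fˣ) : F) ^ 2 * ((u.1 : F) ^ 2 * x.b) = x.b
          rw [← mul_assoc, ← mul_pow, Units.inv_mul, one_pow, one_mul]
      right_inv := by
        intro x
        ext
        · show (u.1 : F) * (((u.1⁻¹ : Fˣ) : F) * x.a) = x.a
          exact Units.mul_inv_cancel_left u.1 _
        · show (u.1 : F) ^ 2 * (((u.1⁻¹ : Fˣ) : F) ^ 2 * x.b) = x.b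
          rw [← mul_assoc, ← mul_pow, Units.mul_inv, one_pow, one_mul] }
  map_one' := by
    ext x
    · show (1 : F) * x.a = x.a
      ring
    · show (1 : F) ^ 2 * x.b = x.b
      ring
  map_mul' u v := by
    ext x
    · show ((u.1 : F) * v.1) * x.a = u.1 * (v.1 * x.a)
      ring
    · show ((u.1 : F) * v.1) ^ 2 * x.b = (u.1 : F) ^ 2 * ((v.1 : F) ^ 2 * x.b)
      ring

theorem scalAut_a (u : fixUnits F q) (x : HU F q) : (scalAut u x).a = (u.1 : F) * x.a := rfl
theorem scalAut_b (u : fixUnits F q) (x : HU F q) : (scalAut u x).b = (u.1 : F) ^ 2 * x.b := rfl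

theorem isSuzuki (hq : Even q) (hq4 : 3 ≤ q) (hq2 : ∃ n : ℕ, q = 2 ^ n) :
    Cfsg.IsSuzukiTwoGroup (HU F q) := by
  classical
  obtain ⟨n, hn⟩ := hq2
  have hfin : Finite (HU F q) := Nat.finite_of_card_ne_zero (by rw [card_eq]; positivity)
  have hq0 : q ≠ 0 := by omega
  refine ⟨hfin, IsPGroup.of_card (n := n * 3) (by rw [card_eq, hn, pow_mul]), ?_, ?_,
    (scalAut (F := F) (q := q)).range, ?_, ?_⟩
  · obtain ⟨t, ht⟩ := herm_exists_not_fix hF.out
    obtain ⟨x, hx⟩ := exists_a (q := q) t
    obtain ⟨y, hy⟩ := exists_a (q := q) (1 : F)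
    refine ⟨x, y, ?_⟩
    rw [Ne, comm_iff, hx, hy]
    simp only [one_pow, mul_one, one_mul]
    exact fun h => ht h.symm
  · obtain ⟨c, hc, hc0, hc1⟩ : ∃ c : F, c ^ q = c ∧ c ≠ 0 ∧ c ≠ 1 := by
      by_contra hcon
      push Not at hcon
      have h1 := herm_card_fix hF.out
      have h3 : Nat.card {s : F // s ^ q = s} ≤ 2 := by
        rw [Nat.card_eq_fintype_card, Fintype.card_subtype]
        calc _ ≤ ({0, 1} : Finset F).card := Finset.card_le_card (fun x hx => by
              simp only [Finset.mem_filter, Finset.mem_univ, true_and] at hx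
              by_cases hx0 : x = 0
              · simp [hx0]
              · simp [hcon x hx hx0])
          _ ≤ 2 := Finset.card_le_two
      omega
    refine ⟨zc 1 (one_pow q), zc c hc, ?_, ?_, ?_, ?_, ?_⟩
    · intro h
      have := congrArg HU.b h
      simp at this
      exact hc1 this.symm
    · intro h
      have := congrArg HU.b h
      simp at this
    · rw [mul_self_eq_one_iff]; rfl
    · intro h
      have := congrArg HU.b h
      simp at this
      exact hc0 this
    · rw [mul_self_eq_one_iff]; rfl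
  · exact isCyclic_of_surjective (scalAut (F := F) (q := q)).rangeRestrict
      (scalAut (F := F) (q := q)).rangeRestrict_surjective
  · intro x y hx1 hx2 hy1 hy2
    rw [mul_self_eq_one_iff] at hx2 hy2
    have hxb := b_fix_of_a_zero x hx2
    have hyb := b_fix_of_a_zero y hy2
    have hxb0 : x.b ≠ 0 := by
      intro h
      apply hx1
      ext
      · exact hx2
      · exact h
    have hyb0 : y.b ≠ 0 := by
      intro h
      apply hy1
      ext
      · exact hy2
      · exact h
    obtain ⟨r, hr⟩ := hq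
    set c := y.b / x.b with hc
    have hcq : c ^ q = c := by rw [hc, div_pow, hxb, hyb]
    have hc0 : c ≠ 0 := div_ne_zero hyb0 hxb0
    have hl2 : (c ^ r) ^ 2 = c := by
      rw [← pow_mul, mul_two, ← hr, hcq]
    have hlq : (c ^ r) ^ q = c ^ r := by
      rw [← pow_mul, mul_comm, pow_mul, hcq]
    let u : fixUnits F q := ⟨Units.mk0 (c ^ r) (pow_ne_zero _ hc0), hlq⟩
    refine ⟨⟨scalAut u, u, rfl⟩, ?_, ?_⟩
    · show scalAut u x = y
      ext
      · rw [scalAut_a, hx2, hy2, mul_zero]
      · rw [scalAut_b]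
        show (c ^ r) ^ 2 * x.b = y.b
        rw [hl2, hc]
        field_simp
    · rintro ⟨_, v, rfl⟩ hv
      have hv' : scalAut v x = y := hv
      have h3 := congrArg HU.b hv'
      rw [scalAut_b] at h3
      have h4 : (v.1 : F) ^ 2 = (c ^ r) ^ 2 := by
        rw [hl2, hc]
        field_simp
        exact h3
      have h5 : ((v.1 : F) - c ^ r) ^ 2 = 0 := by
        have := add_self' ((v.1 : F) * c ^ r)
        have h6 := add_self' ((c ^ r) ^ 2)
        linear_combination h4 - this + h6
      have h6 : (v.1 : F) = c ^ r := sub_eq_zero.mp (pow_eq_zero_iff (by norm_num) |>.mp h5)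
      have h7 : v = u := by
        apply Subtype.ext
        apply Units.ext
        exact h6
      apply Subtype.ext
      show scalAut v = scalAut u
      rw [h7]

end HU

end Cfsg.Agent.H14
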